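import Mathlib
import Cfsg.Agent.Lib.Helper12.AOStmt
import Cfsg.Agent.S0144

/-!
S4068, piece SOLV2GLUE: a finite group whose order has at most two prime divisors is solvable
(Burnside, landed S0144), given the arithmetic piece `Ari2`.
-/

set_option autoImplicit false

universe u

namespace Cfsg.Agent.Lib.Helper36.AOSOLV2GLUE

open Cfsg.Agent.Lib.Helper12.AOStmt

theorem main : Cfsg.Agent.Lib.Helper12.AOStmt.Solv2Glue.{u} := by
  intro hA G _ _ h
  obtain ⟨p, q, a, b, hp, hq, hn⟩ := hA (Nat.card G) Nat.card_pos.ne' h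
  exact Cfsg.Agent.S0144.result p q a b hp hq hn

end Cfsg.Agent.Lib.Helper36.AOSOLV2GLUE
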