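import Mathlib
import Cfsg.Agent.Lib.Helper19.BTStmt

set_option autoImplicit false
set_option linter.unusedSectionVars false
set_option linter.unusedVariables false

/-!
# S2369 / CARDB: the order of `B¹ = B ∩ G¹` in the twisted group of type F4
-/

namespace Cfsg.Agent.Lib.Helper36.BTCARDB

open Cfsg Cfsg.Lie Cfsg.Agent.Lib.Helper18 Cfsg.Agent.Lib.Helper19 Cfsg.Agent.Lib.Helper18.BNPairC
  Cfsg.Agent.Lib.Helper18.Long Cfsg.Agent.Lib.Helper18.Fast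
  Cfsg.Agent.Lib.Helper19.TwCore Cfsg.Agent.Lib.Helper19.TwSig
  Cfsg.Agent.Lib.Helper19.TwRel Cfsg.Agent.Lib.Helper19.TwRel2
  Cfsg.Agent.Lib.Helper19.TwF4U Cfsg.Agent.Lib.Helper19.TwF4V Cfsg.Agent.Lib.Helper19.TwF4O
  Cfsg.Agent.Lib.Helper19.BTGen Cfsg.Agent.Lib.Helper19.BTStmt

universe u

theorem main : Cfsg.Agent.Lib.Helper19.BTStmt.CardB.{u} := by
  intro K _ _ m hK
  classical
  obtain ⟨φ, σ, hφ, hσ⟩ := TwSigF4.exists_sig hK
  have hfix := (tw_eq_fix hK hφ hσ).1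
  have h2n : ((2 : ℕ) : K) = 0 := natCast_eq_zero_of_card Nat.prime_two hK
  have h2 : (2 : K) = 0 := by exact_mod_cast h2n
  have hneg := hneg4 (K := K) h2
  have h1 := card_inter_B' CAll.cfF4 hadd4 hσ TwSigF4.hbar hneg hpos4
  have hU : Nat.card ↥(chevF4.posUnipotent K ⊓ fixG σ) = (2 ^ (2 * m + 1)) ^ 12 := by
    rw [← hfix]
    exact card_U_tw hK
  have hH : Nat.card ↥(chevF4.diagonalSubgroup K ⊓ fixG σ) = (2 ^ (2 * m + 1) - 1) ^ 2 := by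
    rw [← hfix]
    exact Cfsg.Agent.S1110.result hK
  rw [hU, hH] at h1
  rw [← h1]
  apply Nat.card_congr
  refine ⟨fun x => ⟨(x.1 : GL chevF4.Idx K), sg_fix_iff.mp (hfix ▸ x.1.2), (mem_BG_iff _).mp x.2⟩,
    fun y => ⟨⟨y.1, hfix ▸ sg_fix_iff.mpr y.2.1⟩, (mem_BG_iff _).mpr y.2.2⟩, ?_, ?_⟩
  · intro x
    rfl
  · intro y
    rfl

end Cfsg.Agent.Lib.Helper36.BTCARDB
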