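import Mathlib
import Cfsg.Agent.Lib.Helper19.BTStmt

set_option autoImplicit false
set_option linter.unusedSectionVars false
set_option linter.unusedVariables false

/-!
# S2369 / STRA: the strong exchange condition for the block `A = [0, 3]`

`strong_aux` is the general step: if the word of `i` followed by the word of `k` is reduced and has
the root permutation of the word of `j`, then `n_i b n_k ∈ B¹ n_j B¹` for `b ∈ B¹`.
-/

namespace Cfsg.Agent.Lib.Helper36.BTSTRA

open Cfsg Cfsg.Lie Cfsg.Agent.Lib.Helper18 Cfsg.Agent.Lib.Helper19 Cfsg.Agent.Lib.Helper18.BNPairC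
  Cfsg.Agent.Lib.Helper18.Long Cfsg.Agent.Lib.Helper18.Fast Cfsg.Agent.Lib.Helper18.Cells
  Cfsg.Agent.Lib.Helper18.Cells2
  Cfsg.Agent.Lib.Helper19.TwCore Cfsg.Agent.Lib.Helper19.TwSig
  Cfsg.Agent.Lib.Helper19.TwRel Cfsg.Agent.Lib.Helper19.TwRel2
  Cfsg.Agent.Lib.Helper19.TwF4U Cfsg.Agent.Lib.Helper19.TwF4V Cfsg.Agent.Lib.Helper19.TwF4O
  Cfsg.Agent.Lib.Helper19.TwF4B
  Cfsg.Agent.Lib.Helper19.BTGen Cfsg.Agent.Lib.Helper19.BTStmt

universe u

theorem flat_lt : ∀ i : Fin 16, ∀ a ∈ flat (bls.getD i.val []), a < FTabF4.fd.rank := by decide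

/-- the general step -/
theorem strong_aux {K : Type u} [Field K] [Fintype K] {m : ℕ}
    (hK : Fintype.card K = 2 ^ (2 * m + 1)) (i j k : Fin 16)
    (hred : Tw4.redB FTabF4.fd WTabF4.X
      (flat (bls.getD i.val []) ++ flat (bls.getD k.val [])) = true)
    (hperm : ∀ r < FTabF4.fd.n,
      wperm WTabF4.X (flat (bls.getD i.val []) ++ flat (bls.getD k.val [])) r =
        wperm WTabF4.X (flat (bls.getD j.val [])) r)
    (b : Gam K m) (hb : b ∈ BG K m) :
    ∃ c ∈ BG K m, ∃ c' ∈ BG K m, nG K m i * b * nG K m k = c * nG K m j * c' := by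
  obtain ⟨φ, σ, hφ, hσ⟩ := TwSigF4.exists_sig hK
  have hbB : (b : GL chevF4.Idx K) ∈ chevF4.borelSubgroup K := (mem_BG_iff b).mp hb
  have hc : (b : GL chevF4.Idx K) * N16 K k ∈ cell CAll.cfF4 K (flat (bls.getD k.val [])) := by
    unfold cell
    rw [DoubleCoset.mem_doubleCoset]
    exact ⟨b, hbB, 1, Subgroup.one_mem _, (mul_one _).symm⟩
  have h1 := zw_mul_cell CAll.cfF4 hadd4 hinj4 (flat (bls.getD i.val []))
    (flat (bls.getD k.val [])) (Tw4.redT_of_redB hred)
    (List.replicate (flat (bls.getD i.val [])).length (0 : K)) (by simp) hc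
  rw [zw_zero] at h1
  unfold cell at h1
  have hlt1 : ∀ a ∈ flat (bls.getD i.val []) ++ flat (bls.getD k.val []), a < FTabF4.fd.rank := by
    intro a ha
    rcases List.mem_append.mp ha with h | h
    · exact flat_lt i a h
    · exact flat_lt k a h
  have h3 := nw_H_of_wperm (K := K) hlt1 (flat_lt j) hperm
  have h1' : nw hF4 K (plain (flat (bls.getD i.val []))) * ((b : GL chevF4.Idx K) * N16 K k) ∈
      DoubleCoset.doubleCoset
        (nw hF4 K (plain (flat (bls.getD i.val []) ++ flat (bls.getD k.val []))) * 1)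
        (chevF4.borelSubgroup K : Set (GL chevF4.Idx K)) (chevF4.borelSubgroup K) := by
    rw [mul_one]
    exact h1
  have h5 := dc_of_H h3 h1'
  rw [mul_one] at h5
  have hg : nw hF4 K (plain (flat (bls.getD i.val []))) * ((b : GL chevF4.Idx K) * N16 K k) ∈
      twistedF4 K (2 ^ m) :=
    Subgroup.mul_mem _ (N16_mem hK i) (Subgroup.mul_mem _ b.2 (N16_mem hK k))
  obtain ⟨b1, hb1, b2, hb2, e⟩ := stepC' hK hφ hσ (N16_mem hK j) hg h5
  refine ⟨⟨b1, hb1.2⟩, (mem_BG_iff _).mpr hb1.1, ⟨b2, hb2.2⟩, (mem_BG_iff _).mpr hb2.1, ?_⟩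
  apply Subtype.ext
  rw [Subgroup.coe_mul, Subgroup.coe_mul, Subgroup.coe_mul, Subgroup.coe_mul, nG_coe hK,
    nG_coe hK, nG_coe hK, mul_assoc]
  exact e

set_option maxRecDepth 100000 in
theorem redA : ∀ i ∈ UA, Tw4.redB FTabF4.fd WTabF4.X
    (flat (bls.getD i.val []) ++ flat (bls.getD (1 : Fin 16).val [])) = true := by
  decide +kernel

set_option maxRecDepth 100000 in
theorem permA : ∀ i ∈ UA, ∀ r < FTabF4.fd.n,
    wperm WTabF4.X (flat (bls.getD i.val []) ++ flat (bls.getD (1 : Fin 16).val [])) r =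
      wperm WTabF4.X (flat (bls.getD (tA i).val [])) r := by
  decide +kernel

theorem main : Cfsg.Agent.Lib.Helper19.BTStmt.StrongA.{u} := by
  intro K _ _ m hK w hw b hb
  exact strong_aux hK w (tA w) 1 (redA w hw) (permA w hw) b hb

end Cfsg.Agent.Lib.Helper36.BTSTRA
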