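import Mathlib
import Cfsg.Agent.Lib.Helper19.BTStmt
import Cfsg.Agent.Lib.Helper36.BTSTRA

set_option autoImplicit false
set_option linter.unusedSectionVars false
set_option linter.unusedVariables false

/-!
# S2369 / STRB: the strong exchange condition for the block `B = [1, 2, 1, 2]`
-/

namespace Cfsg.Agent.Lib.Helper36.BTSTRB

open Cfsg Cfsg.Lie Cfsg.Agent.Lib.Helper18 Cfsg.Agent.Lib.Helper19
  Cfsg.Agent.Lib.Helper18.Long Cfsg.Agent.Lib.Helper18.Fast
  Cfsg.Agent.Lib.Helper19.TwF4U Cfsg.Agent.Lib.Helper19.TwF4V Cfsg.Agent.Lib.Helper19.TwF4O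
  Cfsg.Agent.Lib.Helper19.BTGen Cfsg.Agent.Lib.Helper19.BTStmt

universe u

set_option maxRecDepth 100000 in
theorem redB' : ∀ i ∈ UB, Tw4.redB FTabF4.fd WTabF4.X
    (flat (bls.getD i.val []) ++ flat (bls.getD (2 : Fin 16).val [])) = true := by
  decide +kernel

set_option maxRecDepth 100000 in
theorem permB : ∀ i ∈ UB, ∀ r < FTabF4.fd.n,
    wperm WTabF4.X (flat (bls.getD i.val []) ++ flat (bls.getD (2 : Fin 16).val [])) r =
      wperm WTabF4.X (flat (bls.getD (tB i).val [])) r := by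
  decide +kernel

theorem main : Cfsg.Agent.Lib.Helper19.BTStmt.StrongB.{u} := by
  intro K _ _ m hK w hw b hb
  exact Cfsg.Agent.Lib.Helper36.BTSTRA.strong_aux hK w (tB w) 2 (redB' w hw) (permB w hw) b hb

end Cfsg.Agent.Lib.Helper36.BTSTRB
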