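import Mathlib
import Cfsg.Agent.Lib.Helper19.BTStmt

set_option autoImplicit false
set_option linter.unusedSectionVars false
set_option linter.unusedVariables false

/-!
# S2369 / TOP: an involution of `B¹` is not conjugate under `B¹` into the opposite Borel subgroup

The longest of the sixteen representatives conjugates `B = U H` into `V H`; `B ⊓ V H = H`, and an
element of `H` of square `1` is trivial in characteristic `2`.
-/

namespace Cfsg.Agent.Lib.Helper36.BTTOP

open Cfsg Cfsg.Lie Cfsg.Agent.Lib.Helper18 Cfsg.Agent.Lib.Helper18.BNPairC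
  Cfsg.Agent.Lib.Helper18.Long Cfsg.Agent.Lib.Helper18.Fast Cfsg.Agent.Lib.Helper18.WGroup
  Cfsg.Agent.Lib.Helper18.Norm Cfsg.Agent.Lib.Helper18.Pos Cfsg.Agent.Lib.Helper18.Torus
  Cfsg.Agent.Lib.Helper18.AllRoots
  Cfsg.Agent.Lib.Helper19.TwF4U Cfsg.Agent.Lib.Helper19.TwF4V Cfsg.Agent.Lib.Helper19.TwF4O
  Cfsg.Agent.Lib.Helper19.BTGen Cfsg.Agent.Lib.Helper19.BTStmt

universe u

/-- the longest of the sixteen words -/
def w15 : List ℕ := flat (bls.getD 15 [])

theorem w15_lt : ∀ i ∈ w15, i < FTabF4.fd.rank := by decide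

set_option maxRecDepth 100000 in
theorem w15_neg : ∀ r < chevF4.nroots, chevF4.IsPosRoot r →
    chevF4.IsNegRoot (wperm WTabF4.X w15 r) := by decide +kernel

theorem n_eq : FTabF4.fd.n = chevF4.nroots := by decide +kernel

section gen
variable {K : Type u} [Field K]

theorem N16_eq : N16 K 15 = nw hF4 K (plain w15) := rfl

theorem n0_mem : nw hF4 K (plain w15) ∈ chevF4.monomialSubgroup K := by
  rw [CAll.cfF4.monomial_eq]
  exact nw_mem_N0 hF4 (plain_lt w15_lt)

/-- the longest representative conjugates `B` into `V H` -/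
theorem conj_borel {g : GL chevF4.Idx K} (hg : g ∈ chevF4.borelSubgroup K) :
    nw hF4 K (plain w15) * g * (nw hF4 K (plain w15))⁻¹ ∈
      chevF4.negUnipotent K ⊔ chevF4.diagonalSubgroup K := by
  have key : chevF4.borelSubgroup K ≤
      (chevF4.negUnipotent K ⊔ chevF4.diagonalSubgroup K).comap
        (MulAut.conj (nw hF4 K (plain w15))).toMonoidHom := by
    unfold ChevalleyDatum.borelSubgroup
    apply sup_le
    · unfold ChevalleyDatum.posUnipotent
      rw [Subgroup.closure_le]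
      rintro g ⟨r, t, hr, hg⟩
      have hr' : r < FTabF4.fd.n := by rw [n_eq]; exact hr.1
      have e : g = xg hF4 K r t := Units.ext (by rw [hg, coe_xg hF4 hr.1])
      obtain ⟨ε, hε, h⟩ := nw_conj (F := K) hF4 CAll.cfF4.wf (plain w15) (plain_lt w15_lt) hr'
      have hneg := w15_neg r hr.1 hr
      show nw hF4 K (plain w15) * g * (nw hF4 K (plain w15))⁻¹ ∈
        chevF4.negUnipotent K ⊔ chevF4.diagonalSubgroup K
      rw [e, h t, plain_fst]
      apply Subgroup.mem_sup_left
      exact Subgroup.subset_closure ⟨_, _, hneg, coe_xg hF4 hneg.1 _⟩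
    · intro h hh
      show nw hF4 K (plain w15) * h * (nw hF4 K (plain w15))⁻¹ ∈
        chevF4.negUnipotent K ⊔ chevF4.diagonalSubgroup K
      apply Subgroup.mem_sup_right
      have hn' := monomial_le_normalizer hF4 K (n0_mem (K := K))
      exact (Subgroup.mem_set_normalizer_iff.mp hn' h).mp hh
  exact key hg

/-- an element of `H` of square `1` is trivial in characteristic `2` -/
theorem eq_one_of_diag_sq (h2 : (2 : K) = 0) {x : GL chevF4.Idx K}
    (hx : x ∈ chevF4.diagonalSubgroup K) (hxx : x * x = 1) : x = 1 := by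
  obtain ⟨c, hc, e⟩ := exists_tor_of_mem hF4 x hx
  apply Units.ext
  have h1 : (x : Matrix chevF4.Idx chevF4.Idx K) * (x : Matrix chevF4.Idx chevF4.Idx K) = 1 := by
    rw [← Units.val_mul, hxx, Units.val_one]
  rw [e] at h1 ⊢
  unfold tor at h1 ⊢
  rw [Matrix.diagonal_mul_diagonal, ← Matrix.diagonal_one] at h1
  have h3 := Matrix.diagonal_injective h1
  rw [Units.val_one, ← Matrix.diagonal_one]
  congr 1
  funext b'
  have h4 := congrFun h3 b'
  have h5 : (chi FTabF4.fd c (XMat.enc chevF4 b') - 1) * (chi FTabF4.fd c (XMat.enc chevF4 b') - 1) = 0 := by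
    linear_combination h4 - (chi FTabF4.fd c (XMat.enc chevF4 b') - 1) * h2
  exact sub_eq_zero.mp (mul_self_eq_zero.mp h5)

/-- the matrix statement -/
theorem core (h2 : (2 : K) = 0) {x : GL chevF4.Idx K} (hx : x ∈ chevF4.borelSubgroup K)
    (hxx : x * x = 1)
    (hy : (nw hF4 K (plain w15))⁻¹ * x * nw hF4 K (plain w15) ∈ chevF4.borelSubgroup K) :
    x = 1 := by
  have h1 := conj_borel hy
  have e : nw hF4 K (plain w15) * ((nw hF4 K (plain w15))⁻¹ * x * nw hF4 K (plain w15)) *
      (nw hF4 K (plain w15))⁻¹ = x := by group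
  rw [e] at h1
  have h3 : x ∈ chevF4.borelSubgroup K ⊓
      (chevF4.negUnipotent K ⊔ chevF4.diagonalSubgroup K) := ⟨hx, h1⟩
  rw [borel_inf_negUnipotent_sup hF4 CAll.posF4] at h3
  exact eq_one_of_diag_sq h2 h3 hxx

end gen

theorem main : Cfsg.Agent.Lib.Helper19.BTStmt.TopG.{u} := by
  intro K _ _ m hK a ha ha2 b hb hcon
  have h2n : ((2 : ℕ) : K) = 0 := Cfsg.Agent.Lib.Helper19.TwCore.natCast_eq_zero_of_card Nat.prime_two hK
  have h2 : (2 : K) = 0 := by exact_mod_cast h2n
  have haa : a * a = 1 := by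
    have h := pow_orderOf_eq_one a
    rwa [ha2, pow_two] at h
  have hxB : ((b⁻¹ * a * b : Gam K m) : GL chevF4.Idx K) ∈ chevF4.borelSubgroup K :=
    (mem_BG_iff _).mp (Subgroup.mul_mem _ (Subgroup.mul_mem _ (Subgroup.inv_mem _ hb) ha) hb)
  have hxx : ((b⁻¹ * a * b : Gam K m) : GL chevF4.Idx K) *
      ((b⁻¹ * a * b : Gam K m) : GL chevF4.Idx K) = 1 := by
    rw [← Subgroup.coe_mul]
    have e : b⁻¹ * a * b * (b⁻¹ * a * b) = b⁻¹ * (a * a) * b := by group
    rw [e, haa]
    simp
  have hy := (mem_BG_iff _).mp hcon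
  rw [Subgroup.coe_mul, Subgroup.coe_mul, Subgroup.coe_inv, nG_coe hK, N16_eq] at hy
  have h1 := core h2 hxB hxx hy
  have h3 : b⁻¹ * a * b = 1 := Subtype.ext h1
  have h4 : a = 1 := by
    have e : a = b * (b⁻¹ * a * b) * b⁻¹ := by group
    rw [e, h3]
    group
  rw [h4, orderOf_one] at ha2
  exact absurd ha2 (by norm_num)

end Cfsg.Agent.Lib.Helper36.BTTOP
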