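import Cfsg.Agent.Lib.Helper36.ChevGen

/-!
Graph automorphisms of a Chevalley group as conjugation by a signed permutation matrix read from a
table: the relations `P x_r(t) = x_{ρ r}(ε_r t) P` are checked by the reflection engine.
-/

set_option autoImplicit false

namespace Cfsg.Agent.Lib.Helper36.ChevGraph

open Cfsg Cfsg.Lie Cfsg.Agent.Lib.Helper36.ChevEngine Cfsg.Agent.Lib.Helper36.ChevSound
open Cfsg.Agent.Lib.Helper36.ChevWeyl Cfsg.Agent.Lib.Helper36.ChevGen

/-- the relations `P x_r(t) = x_{ρ r}(ε_r t) P` for `r = k, k + 1, ..`, the pairs `(ρ r, ε_r)`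
taken from a list -/
def graphRels : ℕ → List (ℕ × ℤ) → List (SWordM × SWordM)
  | _, [] => []
  | r, q :: l => ([none, some (r, tvar 1)], [some (q.1, tvar q.2), none]) :: graphRels (r + 1) l

/-- the conditions on the tables of a graph automorphism: `re` lists `(ρ r, ε_r)`, `ri` lists
`ρ⁻¹ r`, `l` is the permutation of the nodes -/
def graphDataOK (D : ChevalleyDatum) (l : List ℕ) (re : List (ℕ × ℤ)) (ri : List ℕ) : Bool :=
  Nat.beq re.length D.nroots &&
  (allBelow (fun r => isSign (re.getD r (0, 0)).2 &&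
      (Nat.blt (ri.getD r 0) D.nroots && Nat.beq (re.getD (ri.getD r 0) (0, 0)).1 r)) D.nroots &&
   allBelow (fun i => Nat.blt (D.simple i) D.nroots && (Nat.blt (D.neg (D.simple i)) D.nroots &&
      (Nat.beq (re.getD (D.simple i) (0, 0)).1 (D.simple (l.getD i 0)) &&
      (decide ((re.getD (D.simple i) (0, 0)).2 = 1) &&
      (Nat.beq (re.getD (D.neg (D.simple i)) (0, 0)).1 (D.neg (D.simple (l.getD i 0))) &&
       decide ((re.getD (D.neg (D.simple i)) (0, 0)).2 = 1)))))) D.rank)

theorem graphRels_mem : ∀ (l : List (ℕ × ℤ)) (k j : ℕ), j < l.length →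
    ([none, some (k + j, tvar 1)],
      [some ((l.getD j (0, 0)).1, tvar (l.getD j (0, 0)).2), none]) ∈ graphRels k l := by
  intro l
  induction l with
  | nil => intro k j hj; simp at hj
  | cons q l ih =>
    intro k j hj
    cases j with
    | zero => simp [graphRels]
    | succ j =>
      simp only [graphRels, List.mem_cons]
      right
      have := ih (k + 1) j (by simpa using hj)
      have e : k + 1 + j = k + (j + 1) := by omega
      rw [e] at this
      simpa using this

variable {F : Type*} [Field F]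

/-- a graph automorphism from the checks: conjugation by the matrix of the table `ptab` -/
theorem graph_aut (D : ChevalleyDatum) (T : List ℕ) (hT : TableOK D T)
    (hinv : ∀ (r : ℕ) (t : F), D.x F r t * D.x F r (-t) = 1) (l : List ℕ) (ptab : ℕ)
    (re : List (ℕ × ℤ)) (ri : List ℕ) (k : ℕ)
    (hd : graphDataOK D l re ri = true)
    (hr : checkRelsM T D.rank D.nroots ptab (graphRels 0 re) = true)
    (hk : checkRelM T D.rank D.nroots ptab (none :: List.replicate k none) [] = true) :
    ∃ α : ↥(D.group F) ≃* ↥(D.group F), ∀ (g : ↥(D.group F)) (i : ℕ) (t : F), i < D.rank →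
      (((g : GL D.Idx F) : Matrix D.Idx D.Idx F) = D.x F (D.simple i) t →
        ((α g : GL D.Idx F) : Matrix D.Idx D.Idx F) = D.x F (D.simple (l.getD i 0)) t) ∧
      (((g : GL D.Idx F) : Matrix D.Idx D.Idx F) = D.x F (D.neg (D.simple i)) t →
        ((α g : GL D.Idx F) : Matrix D.Idx D.Idx F) = D.x F (D.neg (D.simple (l.getD i 0))) t) := by
  simp only [graphDataOK, Bool.and_eq_true] at hd
  obtain ⟨hlen, hall, hsim⟩ := hd
  have hlen' : re.length = D.nroots := Nat.eq_of_beq_eq_true hlen
  -- the matrix and its inverse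
  have hPQ := checkRelMat_sound D T hT (tabMat D F ptab) ptab (0 : F) 0 0
    (fsound_tab D ptab 0 0 0) _ _ hk
  have hPQ' : tabMat D F ptab * evalWordM D (tabMat D F ptab) (0 : F) 0 0 (List.replicate k none) = 1 :=
    hPQ
  let Pu : GL D.Idx F := ⟨tabMat D F ptab, evalWordM D (tabMat D F ptab) (0 : F) 0 0 (List.replicate k none),
    hPQ', mul_eq_one_comm.mp hPQ'⟩
  -- the relations
  have hrel : ∀ r < D.nroots, ∀ (t : F) (g g' : GL D.Idx F),
      (g : Matrix D.Idx D.Idx F) = D.x F r t →
      (g' : Matrix D.Idx D.Idx F) = D.x F (re.getD r (0, 0)).1 (((re.getD r (0, 0)).2 : F) * t) →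
      Pu * g = g' * Pu := by
    intro r hr' t g g' hg hg'
    have hm := graphRels_mem re 0 r (by rw [hlen']; exact hr')
    rw [Nat.zero_add] at hm
    have h1 := checkRelsMat_sound D T hT (tabMat D F ptab) ptab t 0 0
      (fsound_tab D ptab t 0 0) _ hr _ hm
    simp only [evalWordM, evalParam_tvar, mul_one, Int.cast_one, one_mul] at h1
    apply Units.ext
    rw [Units.val_mul, Units.val_mul, hg, hg']
    exact h1
  -- conjugation maps the group into itself, both ways
  have h1 : ∀ g : GL D.Idx F, g ∈ D.group F → Pu * g * Pu⁻¹ ∈ D.group F := by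
    intro g hg
    induction hg using Subgroup.closure_induction with
    | mem x hx =>
      obtain ⟨r, t, hx⟩ := hx
      have e := hrel r.val r.isLt t x
        (xU D hinv (re.getD r.val (0, 0)).1 (((re.getD r.val (0, 0)).2 : F) * t))
        (by rw [hx, x_lt D r.val r.isLt]) rfl
      rw [e, mul_inv_cancel_right]
      exact mem_group D _ _ _ rfl
    | one => simp
    | mul x y _ _ ihx ihy =>
      have e : Pu * (x * y) * Pu⁻¹ = (Pu * x * Pu⁻¹) * (Pu * y * Pu⁻¹) := by group
      rw [e]
      exact Subgroup.mul_mem _ ihx ihy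
    | inv x _ ihx =>
      have e : Pu * x⁻¹ * Pu⁻¹ = (Pu * x * Pu⁻¹)⁻¹ := by group
      rw [e]
      exact Subgroup.inv_mem _ ihx
  have h2 : ∀ g : GL D.Idx F, g ∈ D.group F → Pu⁻¹ * g * Pu ∈ D.group F := by
    intro g hg
    induction hg using Subgroup.closure_induction with
    | mem x hx =>
      obtain ⟨r, t, hx⟩ := hx
      have ha := allBelow_true _ _ hall r.val r.isLt
      simp only [Bool.and_eq_true] at ha
      obtain ⟨hs, hlt, himg⟩ := ha
      have himg' := Nat.eq_of_beq_eq_true himg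
      have hsq : ((re.getD (ri.getD r.val 0) (0, 0)).2 : F) *
          (((re.getD (ri.getD r.val 0) (0, 0)).2 : F) * t) = t := by
        have ha' := allBelow_true _ _ hall (ri.getD r.val 0) (lt_of_blt hlt)
        simp only [Bool.and_eq_true] at ha'
        rcases isSign_true _ ha'.1 with e | e <;> rw [e] <;> simp
      have e := hrel (ri.getD r.val 0) (lt_of_blt hlt)
        (((re.getD (ri.getD r.val 0) (0, 0)).2 : F) * t)
        (xU D hinv (ri.getD r.val 0) (((re.getD (ri.getD r.val 0) (0, 0)).2 : F) * t)) x rfl (by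
          rw [hx, himg', hsq, x_lt D r.val r.isLt])
      have e2 : Pu⁻¹ * x * Pu =
          xU D hinv (ri.getD r.val 0) (((re.getD (ri.getD r.val 0) (0, 0)).2 : F) * t) := by
        rw [mul_assoc, ← e, inv_mul_cancel_left]
      rw [e2]
      exact mem_group D _ _ _ rfl
    | one => simp
    | mul x y _ _ ihx ihy =>
      have e : Pu⁻¹ * (x * y) * Pu = (Pu⁻¹ * x * Pu) * (Pu⁻¹ * y * Pu) := by group
      rw [e]
      exact Subgroup.mul_mem _ ihx ihy
    | inv x _ ihx =>
      have e : Pu⁻¹ * x⁻¹ * Pu = (Pu⁻¹ * x * Pu)⁻¹ := by group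
      rw [e]
      exact Subgroup.inv_mem _ ihx
  let α : ↥(D.group F) ≃* ↥(D.group F) :=
    { toFun := fun g => ⟨Pu * g.val * Pu⁻¹, h1 g.val g.2⟩
      invFun := fun g => ⟨Pu⁻¹ * g.val * Pu, h2 g.val g.2⟩
      left_inv := by
        intro g
        apply Subtype.ext
        show Pu⁻¹ * (Pu * g.val * Pu⁻¹) * Pu = g.val
        group
      right_inv := by
        intro g
        apply Subtype.ext
        show Pu * (Pu⁻¹ * g.val * Pu) * Pu⁻¹ = g.val
        group
      map_mul' := by
        intro a b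
        apply Subtype.ext
        show Pu * (a.val * b.val) * Pu⁻¹ = (Pu * a.val * Pu⁻¹) * (Pu * b.val * Pu⁻¹)
        group }
  refine ⟨α, ?_⟩
  intro g i t hi
  have hs := allBelow_true _ _ hsim i hi
  simp only [Bool.and_eq_true, decide_eq_true_eq] at hs
  obtain ⟨s1, s2, s3, s4, s5, s6⟩ := hs
  have key : ∀ (r r' : ℕ), r < D.nroots → (re.getD r (0, 0)).1 = r' → (re.getD r (0, 0)).2 = 1 →
      ((g : GL D.Idx F) : Matrix D.Idx D.Idx F) = D.x F r t →
      ((α g : GL D.Idx F) : Matrix D.Idx D.Idx F) = D.x F r' t := by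
    intro r r' hr' e1 e2 hg
    have e := hrel r hr' t g.val (xU D hinv r' t) hg (by rw [e1, e2]; simp [xU_val])
    show ((Pu * g.val * Pu⁻¹ : GL D.Idx F) : Matrix D.Idx D.Idx F) = _
    rw [e, mul_inv_cancel_right]
    rfl
  exact ⟨key _ _ (lt_of_blt s1) (Nat.eq_of_beq_eq_true s3) s4,
    key _ _ (lt_of_blt s2) (Nat.eq_of_beq_eq_true s5) s6⟩

end Cfsg.Agent.Lib.Helper36.ChevGraph
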