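import Cfsg.Agent.Lib.Helper36.ChevGen

/-!
Generation of a Chevalley group by its monomial subgroup `N` and one or two fundamental root
subgroups: root subgroups of roots in the same orbit under reflections are conjugate under `N`.
-/

set_option autoImplicit false

namespace Cfsg.Agent.Lib.Helper36.ChevNGen

open Cfsg Cfsg.Lie Cfsg.Agent.Lib.Helper36.ChevEngine Cfsg.Agent.Lib.Helper36.ChevSound
open Cfsg.Agent.Lib.Helper36.ChevWeyl Cfsg.Agent.Lib.Helper36.ChevGen

/-- all roots are reached from the roots of `init` along the certificate -/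
def reachFromOK (D : ChevalleyDatum) (cert : List (ℕ × ℕ)) (init : List ℕ) : Bool :=
  allBelow (fun s => memB s (reachGo D cert init)) D.nroots

/-- for every short fundamental root `p_i` and long fundamental root `p_j` joined in the diagram,
all roots are reached from `p_i` and `p_j` -/
def twoGenOK (D : ChevalleyDatum) (cert : List (ℕ × ℕ)) : Bool :=
  allBelow (fun i => allBelow (fun j =>
    !(!(D.isLong (D.simple i)) && (D.isLong (D.simple j) && !(decide (D.bonds i j = 0)))) ||
      reachFromOK D cert [D.simple i, D.simple j]) D.rank) D.rank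

/-- for every fundamental root `p_i` that is not long, all roots are reached from `p_i` -/
def oneGenOK (D : ChevalleyDatum) (cert : List (ℕ × ℕ)) : Bool :=
  allBelow (fun i => D.isLong (D.simple i) || reachFromOK D cert [D.simple i]) D.rank

/-- for every fundamental root `p_i` that is not long, the roots `a`, `b` are reached from `p_i`,
and all roots are reached from these together with `c` -/
def oneGen2OK (D : ChevalleyDatum) (cert : List (ℕ × ℕ)) (a b c : ℕ) : Bool :=
  allBelow (fun i => D.isLong (D.simple i) ||
    (memB a (reachGo D cert [D.simple i]) && (memB b (reachGo D cert [D.simple i]) &&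
      reachFromOK D cert (c :: reachGo D cert [D.simple i]))) ) D.rank

variable {F : Type*} [Field F]

/-- the roots whose root elements lie in `M` are closed under reflections when `N ≤ M` -/
theorem step_of_le (D : ChevalleyDatum) (W : WeylData D F) (M : Subgroup (GL D.Idx F))
    (hN : D.monomialSubgroup F ≤ M) (i : ℕ) (hi : i < D.rank) (s : ℕ)
    (hQ : ∀ (t : F) (g : GL D.Idx F), (g : Matrix D.Idx D.Idx F) = D.x F (D.reflectRoot i s) t →
      g ∈ M) :
    ∀ (t : F) (g : GL D.Idx F), (g : Matrix D.Idx D.Idx F) = D.x F s t → g ∈ M := by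
  intro t g hg
  by_cases hs : s < D.nroots
  · obtain ⟨η, wr⟩ := W.root i hi
    have h1 := nU_mul D W i η wr s hs t g (xU D W.inv (D.reflectRoot i s) ((η s : F) * t)) hg rfl
    have h2 : g = (nU D W.inv i)⁻¹ * (xU D W.inv (D.reflectRoot i s) ((η s : F) * t) *
        nU D W.inv i) := by
      rw [← h1, inv_mul_cancel_left]
    rw [h2]
    have hn : nU D W.inv i ∈ M := by
      apply hN
      have : nU D W.inv i ∈ Subgroup.closure {g : GL D.Idx F | ∃ r : ℕ, r < D.nroots ∧
          (g : Matrix D.Idx D.Idx F) = D.nMat F r 1} :=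
        Subgroup.subset_closure ⟨D.simple i, wr.simple_lt, nU_val D W.inv i⟩
      exact (le_sup_right : _ ≤ D.monomialSubgroup F) this
    exact Subgroup.mul_mem _ (Subgroup.inv_mem _ hn) (Subgroup.mul_mem _ (hQ _ _ rfl) hn)
  · have : g = 1 := Units.ext (by rw [hg, x_ge D s hs]; rfl)
    rw [this]
    exact Subgroup.one_mem _

/-- the roots reached from `init` have their root elements in `M` -/
theorem mem_of_reach (D : ChevalleyDatum) (W : WeylData D F) (M : Subgroup (GL D.Idx F))
    (hN : D.monomialSubgroup F ≤ M) (init : List ℕ)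
    (hinit : ∀ s ∈ init, ∀ (t : F) (g : GL D.Idx F), (g : Matrix D.Idx D.Idx F) = D.x F s t → g ∈ M)
    (cert : List (ℕ × ℕ)) : ∀ s ∈ reachGo D cert init, ∀ (t : F) (g : GL D.Idx F),
      (g : Matrix D.Idx D.Idx F) = D.x F s t → g ∈ M :=
  reachGo_sound D (fun s => ∀ (t : F) (g : GL D.Idx F),
    (g : Matrix D.Idx D.Idx F) = D.x F s t → g ∈ M) (step_of_le D W M hN) cert init hinit

/-- if all roots are reached from `init`, the group lies in `M` -/
theorem group_le_of_reach (D : ChevalleyDatum) (W : WeylData D F) (M : Subgroup (GL D.Idx F))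
    (hN : D.monomialSubgroup F ≤ M) (init : List ℕ)
    (hinit : ∀ s ∈ init, ∀ (t : F) (g : GL D.Idx F), (g : Matrix D.Idx D.Idx F) = D.x F s t → g ∈ M)
    (cert : List (ℕ × ℕ)) (h : reachFromOK D cert init = true) : D.group F ≤ M := by
  apply (Subgroup.closure_le _).mpr
  rintro g ⟨r, t, hg⟩
  exact mem_of_reach D W M hN init hinit cert r.val (memB_true _ _ (allBelow_true _ _ h r.val r.isLt))
    t g (by rw [hg, x_lt D r.val r.isLt])

theorem mem_rootSubgroup (D : ChevalleyDatum) (r : ℕ) (t : F) (g : GL D.Idx F)
    (hg : (g : Matrix D.Idx D.Idx F) = D.x F r t) : g ∈ D.rootSubgroup F r :=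
  Subgroup.subset_closure ⟨t, hg⟩

/-- S2417 from the check -/
theorem two_gen (D : ChevalleyDatum) (W : WeylData D F) (cert : List (ℕ × ℕ))
    (h : twoGenOK D cert = true) (i j : ℕ) (hi : i < D.rank) (hj : j < D.rank)
    (hshort : D.isLong (D.simple i) = false) (hlong : D.isLong (D.simple j) = true)
    (hbond : D.bonds i j ≠ 0) :
    D.group F ≤ D.monomialSubgroup F ⊔ D.rootSubgroup F (D.simple i) ⊔
      D.rootSubgroup F (D.simple j) := by
  have h1 := allBelow_true _ _ (allBelow_true _ _ h i hi) j hj
  have hb : decide (D.bonds i j = 0) = false := by simpa using hbond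
  rw [hshort, hlong, hb] at h1
  simp only [Bool.not_false, Bool.and_self, Bool.not_true, Bool.false_or] at h1
  apply group_le_of_reach D W _ (le_sup_of_le_left le_sup_left) [D.simple i, D.simple j] _ cert h1
  intro s hs t g hg
  simp only [List.mem_cons, List.mem_nil_iff, or_false] at hs
  rcases hs with rfl | rfl
  · exact (le_sup_of_le_left le_sup_right : D.rootSubgroup F (D.simple i) ≤ _)
      (mem_rootSubgroup D _ t g hg)
  · exact (le_sup_right : D.rootSubgroup F (D.simple j) ≤ _) (mem_rootSubgroup D _ t g hg)

/-- S2416 for one root length, from the check -/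
theorem one_gen (D : ChevalleyDatum) (W : WeylData D F) (cert : List (ℕ × ℕ))
    (h : oneGenOK D cert = true) (i : ℕ) (hi : i < D.rank)
    (hshort : D.isLong (D.simple i) = false) :
    D.group F ≤ D.monomialSubgroup F ⊔ D.rootSubgroup F (D.simple i) := by
  have h1 := allBelow_true _ _ h i hi
  rw [hshort, Bool.false_or] at h1
  apply group_le_of_reach D W _ le_sup_left [D.simple i] _ cert h1
  intro s hs t g hg
  simp only [List.mem_cons, List.mem_nil_iff, or_false] at hs
  subst hs
  exact (le_sup_right : D.rootSubgroup F (D.simple i) ≤ _) (mem_rootSubgroup D _ t g hg)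

/-- S2416 for two root lengths, from the checks: the roots `a`, `b` are reached from `p_i`, and
`x_a(t) x_b(u) = x_b(u) x_a(t) x_c(k t u)` with `k` invertible gives the root subgroup of `c` -/
theorem one_gen2 (D : ChevalleyDatum) (W : WeylData D F) (T : List ℕ) (hT : TableOK D T)
    (cert : List (ℕ × ℕ)) (a b c : ℕ) (k : ℤ) (hk : (k : F) ≠ 0)
    (hrel : checkRel T D.rank D.nroots [(a, tvar 1), (b, uvar 1)]
      [(b, uvar 1), (a, tvar 1), (c, [⟨k, 1, 1, 0⟩])] = true)
    (h : oneGen2OK D cert a b c = true) (i : ℕ) (hi : i < D.rank)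
    (hshort : D.isLong (D.simple i) = false) :
    D.group F ≤ D.monomialSubgroup F ⊔ D.rootSubgroup F (D.simple i) := by
  have h1 := allBelow_true _ _ h i hi
  rw [hshort, Bool.false_or] at h1
  simp only [Bool.and_eq_true] at h1
  obtain ⟨ha, hb, hall⟩ := h1
  have hinit : ∀ s ∈ [D.simple i], ∀ (t : F) (g : GL D.Idx F),
      (g : Matrix D.Idx D.Idx F) = D.x F s t →
        g ∈ D.monomialSubgroup F ⊔ D.rootSubgroup F (D.simple i) := by
    intro s hs t g hg
    simp only [List.mem_cons, List.mem_nil_iff, or_false] at hs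
    subst hs
    exact (le_sup_right : D.rootSubgroup F (D.simple i) ≤ _) (mem_rootSubgroup D _ t g hg)
  have hm := mem_of_reach D W _ le_sup_left [D.simple i] hinit cert
  apply group_le_of_reach D W _ le_sup_left (c :: reachGo D cert [D.simple i]) _ cert hall
  intro s hs t g hg
  rcases List.mem_cons.mp hs with rfl | hs'
  · -- the root subgroup of `c` from the commutator of `x_a` and `x_b`
    have hr := checkRel_sound D T hT _ _ hrel (t / (k : F)) (1 : F) (0 : F)
    simp only [evalWord, List.map_cons, List.map_nil, evalParam_tvar, evalParam_uvar, evalParam,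
      monoEval, ChevalleyDatum.wordMat, List.prod_cons, List.prod_nil, mul_one, Int.cast_one,
      one_mul, pow_one, pow_zero, add_zero] at hr
    have hkt : (k : F) * (t / (k : F)) = t := by field_simp
    rw [hkt] at hr
    have e : xU D W.inv a (t / (k : F)) * xU D W.inv b 1 =
        xU D W.inv b 1 * xU D W.inv a (t / (k : F)) * g := by
      apply Units.ext
      simp only [Units.val_mul, xU_val, hg]
      rw [hr]
      simp [mul_assoc]
    have e2 : g = (xU D W.inv b 1 * xU D W.inv a (t / (k : F)))⁻¹ *
        (xU D W.inv a (t / (k : F)) * xU D W.inv b 1) := by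
      rw [e, inv_mul_cancel_left]
    rw [e2]
    have hxa := hm a (memB_true _ _ ha) (t / (k : F)) (xU D W.inv a (t / (k : F))) rfl
    have hxb := hm b (memB_true _ _ hb) 1 (xU D W.inv b 1) rfl
    exact Subgroup.mul_mem _ (Subgroup.inv_mem _ (Subgroup.mul_mem _ hxb hxa))
      (Subgroup.mul_mem _ hxa hxb)
  · exact hm s hs' t g hg

end Cfsg.Agent.Lib.Helper36.ChevNGen
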