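import Cfsg.Agent.Lib.Helper36.ChevNGen
import Cfsg.Prelude.Def_LieChev
import Cfsg.Prelude.Def_ChevB2

/-!
Certificates for the generation of the Chevalley groups of types B2, F4, G2 by `N` and two
fundamental root subgroups.
-/

set_option autoImplicit false

namespace Cfsg.Agent.Lib.Helper36.ChevNGenTwo

open Cfsg Cfsg.Lie Cfsg.Agent.Lib.Helper36.ChevEngine Cfsg.Agent.Lib.Helper36.ChevSound Cfsg.Agent.Lib.Helper36.ChevWeyl Cfsg.Agent.Lib.Helper36.ChevGen Cfsg.Agent.Lib.Helper36.ChevNGen

/-- a certificate for reaching all roots of type B2 from a short and a long fundamental root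
joined in the diagram -/
def certB2 : List (ℕ × ℕ) := [(2, 0), (3, 1), (6, 1), (7, 0), (0, 0), (1, 1)]

set_option maxRecDepth 100000 in
theorem twoB2 : twoGenOK chevB2 certB2 = true := by decide +kernel

/-- a certificate for reaching all roots of type F4 from a short and a long fundamental root
joined in the diagram -/
def certF4 : List (ℕ × ℕ) := [(20, 1), (22, 2), (26, 3), (28, 2), (29, 3), (30, 1), (31, 1), (32, 2), (34, 0), (35, 0), (36, 0), (37, 1), (38, 1), (39, 2), (40, 1), (41, 0), (42, 0), (43, 0), (44, 0), (45, 1), (46, 2), (47, 3), (13, 0), (14, 1), (17, 1), (19, 2), (21, 3), (23, 2), (24, 2), (33, 0), (6, 0), (12, 0), (16, 1), (18, 3), (5, 0), (10, 1), (11, 0), (15, 2), (4, 0), (9, 1), (2, 1), (8, 2), (1, 2), (7, 1), (0, 3), (3, 0)]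

set_option maxRecDepth 100000 in
theorem twoF4 : twoGenOK chevF4 certF4 = true := by decide +kernel

/-- a certificate for reaching all roots of type G2 from a short and a long fundamental root
joined in the diagram -/
def certG2 : List (ℕ × ℕ) := [(4, 0), (5, 1), (8, 1), (9, 0), (10, 0), (11, 1), (1, 0), (3, 1), (0, 1), (2, 0)]

set_option maxRecDepth 100000 in
theorem twoG2 : twoGenOK chevG2 certG2 = true := by decide +kernel

end Cfsg.Agent.Lib.Helper36.ChevNGenTwo
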