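import Cfsg.Agent.Lib.Helper36.ChevGen

/-!
Automorphisms that permute the fundamental root elements along a symmetry of the diagram send every
root element `x_r(t)` to `x_{π r}(± t)`.
-/

set_option autoImplicit false

namespace Cfsg.Agent.Lib.Helper36.ChevPerm

open Cfsg Cfsg.Lie Cfsg.Agent.Lib.Helper36.ChevEngine Cfsg.Agent.Lib.Helper36.ChevSound
open Cfsg.Agent.Lib.Helper36.ChevWeyl Cfsg.Agent.Lib.Helper36.ChevGen

/-- `permRoot` for a permutation of the nodes given by the list of its values -/
def permRootL (D : ChevalleyDatum) (l : List ℕ) (r : ℕ) : ℕ :=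
  ((List.range D.nroots).find? fun s => (List.finRange D.rank).all fun i =>
      (D.coroot.getD s #[]).getD (l.getD i.val 0) 0 == (D.coroot.getD r #[]).getD i.val 0).getD r

theorem permRoot_eq (D : ChevalleyDatum) (π : Equiv.Perm (Fin D.rank)) (l : List ℕ)
    (h : ∀ i : Fin D.rank, (π i).val = l.getD i.val 0) (r : ℕ) :
    D.permRoot π r = permRootL D l r := by
  unfold ChevalleyDatum.permRoot permRootL
  simp only [h]

/-- the table `pt` lists the images of the roots under the permutation `l` of the nodes, and this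
permutation of the roots is compatible with the fundamental roots and the reflections -/
def permOK (D : ChevalleyDatum) (l pt : List ℕ) : Bool :=
  allBelow (fun s => Nat.beq (permRootL D l s) (pt.getD s 0) && Nat.blt (pt.getD s 0) D.nroots)
    D.nroots &&
  allBelow (fun i => Nat.beq (pt.getD (D.simple i) 0) (D.simple (l.getD i 0)) &&
    (Nat.beq (pt.getD (D.neg (D.simple i)) 0) (D.neg (D.simple (l.getD i 0))) &&
     allBelow (fun s => Nat.beq (D.reflectRoot (l.getD i 0) (pt.getD s 0))
        (pt.getD (D.reflectRoot i s) 0)) D.nroots)) D.rank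

/-- the table of the images of the roots for the permutation `l`, looked up in a list of pairs -/
def ptOf : List (List ℕ × List ℕ) → List ℕ → List ℕ
  | [], _ => []
  | q :: data, l => bif decide (q.1 = l) then q.2 else ptOf data l

/-- search over the injective maps of the nodes that preserve the bonds, built node by node as a
list of pairs `(node, value)`: all of them satisfy `p` (on the list of values) -/
def symSearch (D : ChevalleyDatum) (p : List ℕ → Bool) : ℕ → List (ℕ × ℕ) → Bool
  | 0, acc => p (acc.map Prod.snd)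
  | fuel + 1, acc =>
    allBelow (fun a => !(acc.all (fun q => !(Nat.beq q.2 a) &&
        decide (D.bonds q.2 a = D.bonds q.1 acc.length))) ||
      symSearch D p fuel (acc ++ [(acc.length, a)])) D.rank

/-- the value of a permutation of the nodes at a natural number -/
def pv (D : ChevalleyDatum) (π : Equiv.Perm (Fin D.rank)) (j : ℕ) : ℕ :=
  if h : j < D.rank then (π ⟨j, h⟩).val else 0

theorem symSearch_sound (D : ChevalleyDatum) (p : List ℕ → Bool) (π : Equiv.Perm (Fin D.rank))
    (hπ : D.IsDiagramSymmetry π) : ∀ (fuel m : ℕ), m + fuel = D.rank →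
      symSearch D p fuel ((List.range m).map (fun j => (j, pv D π j))) = true →
      p ((List.range D.rank).map (pv D π)) = true := by
  intro fuel
  induction fuel with
  | zero =>
    intro m hm h
    have e : m = D.rank := by omega
    subst e
    simpa [symSearch, List.map_map, Function.comp_def] using h
  | succ fuel ih =>
    intro m hm h
    have hmr : m < D.rank := by omega
    simp only [symSearch] at h
    have hlt : pv D π m < D.rank := by
      simp only [pv, hmr, dif_pos]
      exact (π ⟨m, hmr⟩).isLt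
    have h1 := allBelow_true _ _ h (pv D π m) hlt
    have hall : ((List.range m).map (fun j => (j, pv D π j))).all (fun q => !(Nat.beq q.2 (pv D π m)) &&
        decide (D.bonds q.2 (pv D π m) =
          D.bonds q.1 ((List.range m).map (fun j => (j, pv D π j))).length)) = true := by
      rw [List.all_eq_true]
      intro q hq
      obtain ⟨j, hj, rfl⟩ := List.mem_map.mp hq
      have hjm : j < m := List.mem_range.mp hj
      have hjr : j < D.rank := by omega
      have hne : (⟨j, hjr⟩ : Fin D.rank) ≠ ⟨m, hmr⟩ := by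
        intro e
        have := congrArg Fin.val e
        simp at this
        omega
      simp only [List.length_map, List.length_range, Bool.and_eq_true, Bool.not_eq_true',
        decide_eq_true_eq, pv, hjr, hmr, dif_pos]
      constructor
      · apply ChevSound.beq_false
        intro e
        exact hne (π.injective (Fin.ext e))
      · exact hπ ⟨j, hjr⟩ ⟨m, hmr⟩ hne
    rw [hall] at h1
    simp only [Bool.not_true, Bool.false_or] at h1
    apply ih (m + 1) (by omega)
    rw [List.range_succ, List.map_append]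
    simpa using h1

variable {F : Type*} [Field F]

/-- S2161 from the checks -/
theorem graph_signs (D : ChevalleyDatum) (W : WeylData D F) (π : Equiv.Perm (Fin D.rank))
    (l pt : List ℕ) (hl : ∀ i : Fin D.rank, (π i).val = l.getD i.val 0)
    (hok : permOK D l pt = true) (φ : ↥(D.group F) ≃* ↥(D.group F))
    (hφ : ∀ (g : ↥(D.group F)) (i : Fin D.rank) (t : F),
      (((g : GL D.Idx F) : Matrix D.Idx D.Idx F) = D.x F (D.simple i) t →
        ((φ g : GL D.Idx F) : Matrix D.Idx D.Idx F) = D.x F (D.simple (π i)) t) ∧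
      (((g : GL D.Idx F) : Matrix D.Idx D.Idx F) = D.x F (D.neg (D.simple i)) t →
        ((φ g : GL D.Idx F) : Matrix D.Idx D.Idx F) = D.x F (D.neg (D.simple (π i))) t))
    (r : ℕ) (hr : r < D.nroots) :
    ∃ ε : F, (ε = 1 ∨ ε = -1) ∧ ∀ (g : ↥(D.group F)) (t : F),
      ((g : GL D.Idx F) : Matrix D.Idx D.Idx F) = D.x F r t →
        ((φ g : GL D.Idx F) : Matrix D.Idx D.Idx F) = D.x F (D.permRoot π r) (ε * t) := by
  simp only [permOK, Bool.and_eq_true] at hok
  obtain ⟨hA, hB⟩ := hok
  have hpt : ∀ s < D.nroots, D.permRoot π s = pt.getD s 0 ∧ pt.getD s 0 < D.nroots := by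
    intro s hs
    have h1 := allBelow_true _ _ hA s hs
    simp only [Bool.and_eq_true] at h1
    exact ⟨by rw [permRoot_eq D π l hl, Nat.eq_of_beq_eq_true h1.1], lt_of_blt h1.2⟩
  have hsim : ∀ i : Fin D.rank, pt.getD (D.simple i) 0 = D.simple (π i) ∧
      pt.getD (D.neg (D.simple i)) 0 = D.neg (D.simple (π i)) ∧
      ∀ s < D.nroots, D.reflectRoot (π i) (pt.getD s 0) = pt.getD (D.reflectRoot i s) 0 := by
    intro i
    have h1 := allBelow_true _ _ hB i.val i.isLt
    simp only [Bool.and_eq_true] at h1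
    obtain ⟨a, b, c⟩ := h1
    rw [hl i]
    exact ⟨Nat.eq_of_beq_eq_true a, Nat.eq_of_beq_eq_true b,
      fun s hs => Nat.eq_of_beq_eq_true (allBelow_true _ _ c s hs)⟩
  have main : ∀ s < D.nroots, s < D.nroots → ∃ ε : F, (ε = 1 ∨ ε = -1) ∧
      ∀ (g : ↥(D.group F)) (t : F), ((g : GL D.Idx F) : Matrix D.Idx D.Idx F) = D.x F s t →
        ((φ g : GL D.Idx F) : Matrix D.Idx D.Idx F) = D.x F (pt.getD s 0) (ε * t) := by
    apply W.reach
    · intro i hi
      constructor
      · intro _
        refine ⟨1, Or.inl rfl, ?_⟩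
        intro g t hg
        rw [one_mul, (hsim ⟨i, hi⟩).1]
        exact (hφ g ⟨i, hi⟩ t).1 hg
      · intro _
        refine ⟨1, Or.inl rfl, ?_⟩
        intro g t hg
        rw [one_mul, (hsim ⟨i, hi⟩).2.1]
        exact (hφ g ⟨i, hi⟩ t).2 hg
    · intro i hi s hQ hs
      obtain ⟨η, wr⟩ := W.root i hi
      have hs' := wr.refl_lt s hs
      obtain ⟨ε', hε', h'⟩ := hQ hs'
      obtain ⟨η2, wr2⟩ := W.root (π ⟨i, hi⟩).val (π ⟨i, hi⟩).isLt
      have hps := (hpt s hs).2
      refine ⟨(η2 (pt.getD s 0) : F) * ε' * (η s : F), ?_, ?_⟩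
      · rcases wr2.sign _ hps with e1 | e1 <;> rcases hε' with e2 | e2 <;>
          rcases wr.sign s hs with e3 | e3 <;> rw [e1, e2, e3] <;> simp
      · intro g t hg
        let a : ↥(D.group F) := ⟨xU D W.inv (D.simple i) 1, mem_group D _ _ _ rfl⟩
        let b : ↥(D.group F) := ⟨xU D W.inv (D.neg (D.simple i)) (-1), mem_group D _ _ _ rfl⟩
        let G' : ↥(D.group F) :=
          ⟨xU D W.inv (D.reflectRoot i s) ((η s : F) * t), mem_group D _ _ _ rfl⟩
        have hN : a * b * a * g = G' * (a * b * a) :=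
          Subtype.ext (nU_mul D W i η wr s hs t g.val G'.val hg rfl)
        have h2 := congrArg φ hN
        simp only [map_mul] at h2
        have ha : ((φ a : GL D.Idx F) : Matrix D.Idx D.Idx F) = D.x F (D.simple (π ⟨i, hi⟩)) 1 :=
          (hφ a ⟨i, hi⟩ 1).1 rfl
        have hb : ((φ b : GL D.Idx F) : Matrix D.Idx D.Idx F) =
            D.x F (D.neg (D.simple (π ⟨i, hi⟩))) (-1) := (hφ b ⟨i, hi⟩ (-1)).2 rfl
        have hG' : ((φ G' : GL D.Idx F) : Matrix D.Idx D.Idx F) =
            D.x F (pt.getD (D.reflectRoot i s) 0) (ε' * ((η s : F) * t)) := h' G' _ rfl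
        have h3 := congrArg (fun y : ↥(D.group F) => ((y : GL D.Idx F) : Matrix D.Idx D.Idx F)) h2
        simp only [Subgroup.coe_mul, Units.val_mul, ha, hb, hG'] at h3
        have hn : D.x F (D.simple (π ⟨i, hi⟩)) 1 * D.x F (D.neg (D.simple (π ⟨i, hi⟩))) (-1) *
            D.x F (D.simple (π ⟨i, hi⟩)) 1 = D.nMat F (D.simple (π ⟨i, hi⟩)) 1 := by
          rw [← nU_val D W.inv (π ⟨i, hi⟩).val]
          rfl
        rw [hn] at h3
        have h4 := wr2.rel (pt.getD s 0) hps (((η2 (pt.getD s 0) : F) * ε' * (η s : F)) * t)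
        rw [(hsim ⟨i, hi⟩).2.2 s hs] at h4
        have hsq : (η2 (pt.getD s 0) : F) * ((η2 (pt.getD s 0) : F) * ε' * (η s : F) * t) =
            ε' * ((η s : F) * t) := by
          rcases wr2.sign _ hps with e | e <;> rw [e] <;> push_cast <;> ring
        rw [hsq] at h4
        have h5 : D.nMat F (D.simple (π ⟨i, hi⟩)) 1 * ((φ g : GL D.Idx F) : Matrix D.Idx D.Idx F) =
            D.nMat F (D.simple (π ⟨i, hi⟩)) 1 *
              D.x F (pt.getD s 0) ((η2 (pt.getD s 0) : F) * ε' * (η s : F) * t) := by
          rw [h3, h4]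
        have h6 := congrArg
          (fun M => (((nU D W.inv (π ⟨i, hi⟩).val)⁻¹ : GL D.Idx F) : Matrix D.Idx D.Idx F) * M) h5
        simp only [← mul_assoc, ← nU_val D W.inv (π ⟨i, hi⟩).val, ← Units.val_mul, inv_mul_cancel,
          Units.val_one, one_mul] at h6
        exact h6
  obtain ⟨ε, hε, h⟩ := main r hr hr
  exact ⟨ε, hε, fun g t hg => by rw [(hpt r hr).1]; exact h g t hg⟩

/-- S2161 from the search over the symmetries of the diagram -/
theorem graph_signs_of_search (D : ChevalleyDatum) (W : WeylData D F)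
    (data : List (List ℕ × List ℕ))
    (hsym : symSearch D (fun l => permOK D l (ptOf data l)) D.rank [] = true)
    (π : Equiv.Perm (Fin D.rank)) (hπ : D.IsDiagramSymmetry π)
    (φ : ↥(D.group F) ≃* ↥(D.group F))
    (hφ : ∀ (g : ↥(D.group F)) (i : Fin D.rank) (t : F),
      (((g : GL D.Idx F) : Matrix D.Idx D.Idx F) = D.x F (D.simple i) t →
        ((φ g : GL D.Idx F) : Matrix D.Idx D.Idx F) = D.x F (D.simple (π i)) t) ∧
      (((g : GL D.Idx F) : Matrix D.Idx D.Idx F) = D.x F (D.neg (D.simple i)) t →
        ((φ g : GL D.Idx F) : Matrix D.Idx D.Idx F) = D.x F (D.neg (D.simple (π i))) t))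
    (r : ℕ) (hr : r < D.nroots) :
    ∃ ε : F, (ε = 1 ∨ ε = -1) ∧ ∀ (g : ↥(D.group F)) (t : F),
      ((g : GL D.Idx F) : Matrix D.Idx D.Idx F) = D.x F r t →
        ((φ g : GL D.Idx F) : Matrix D.Idx D.Idx F) = D.x F (D.permRoot π r) (ε * t) := by
  have h1 := symSearch_sound D (fun l => permOK D l (ptOf data l)) π hπ D.rank 0 (by omega)
    (by simpa using hsym)
  refine graph_signs D W π _ _ ?_ h1 φ hφ r hr
  intro i
  simp [List.getD_eq_getElem?_getD, pv, i.isLt]

end Cfsg.Agent.Lib.Helper36.ChevPerm
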