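import Mathlib
import Cfsg.Agent.Lib.Helper45.EPStmt
import Cfsg.Agent.Lib.Helper66.OPINVOLP

/-!
# S5988 / INVOLE (call by helper45)

An isometry of the plus form with `x * x = 1` (`q` odd) fixes an elliptic `m`-space (`m` even,
`2 ≤ m < d`): the space is the orthogonal sum of the two eigenspaces, one of them is nondegenerate
of dimension greater than `m`, it contains an elliptic `m`-space (SUBTYPE), and every subspace of
an eigenspace is invariant.
-/

set_option autoImplicit false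

universe u

open scoped Matrix

namespace Cfsg.Agent.Lib.Helper36.EPINVOLE

open Cfsg.Agent.Lib.Helper94.OPStmt (P NP FxP NDegP StabP TopNDP mem_FxP)
open Cfsg.Agent.Lib.Helper45.EPStmt
open Cfsg.Agent.Lib.Helper66.OPINVOLP (FmP mem_FmP dec)

theorem main (hSub : SubTypeE.{u}) (hTop : TopNDP.{u}) : InvolE.{u} := by
  intro F _ _ hodd d m hm2 hmev hmd x hx hx2M
  obtain ⟨hnd₁, hnd₂, hdim⟩ := dec hTop F hodd d x hx hx2M
  have hcase : m < Module.finrank F ↥(FxP (x : Matrix (P d) (P d) F)) ∨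
      m < Module.finrank F ↥(FmP (x : Matrix (P d) (P d) F)) := by omega
  rcases hcase with h | h
  · obtain ⟨W, hWU, hMem⟩ := (hSub F d m _ hnd₁ hmev h).2 hm2
    refine ⟨W, hMem, ?_⟩
    rintro _ ⟨w, hw, rfl⟩
    rw [Matrix.toLin'_apply, (mem_FxP _ w).mp (hWU hw)]
    exact hw
  · obtain ⟨W, hWU, hMem⟩ := (hSub F d m _ hnd₂ hmev h).2 hm2
    refine ⟨W, hMem, ?_⟩
    rintro _ ⟨w, hw, rfl⟩
    rw [Matrix.toLin'_apply, (mem_FmP _ w).mp (hWU hw)]
    exact Submodule.neg_mem _ hw

end Cfsg.Agent.Lib.Helper36.EPINVOLE
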