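import Mathlib
import Cfsg.Agent.Lib.Helper18.OTabG2
import Cfsg.Agent.Lib.Helper18.Pos
import Cfsg.Agent.Lib.Helper18.BNPairC
import Cfsg.Agent.Lib.Helper19.BruhatChev
import Cfsg.Agent.Lib.Helper19.SL2Chev
import Cfsg.Agent.Lib.Helper36.ChevDG2
import Cfsg.Agent.Lib.Helper36.ChevUG2
import Cfsg.Agent.Lib.Helper36.ChevUCard
import Cfsg.Agent.S1024

set_option autoImplicit false
set_option linter.unusedSimpArgs false
set_option linter.unusedSectionVars false
set_option linter.unusedVariables false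

namespace Cfsg.Agent.Lib.Helper36.OddG2a

open Cfsg Cfsg.Lie Cfsg.Agent.Lib.Helper18.Fast Cfsg.Agent.Lib.Helper18.Grade
  Cfsg.Agent.Lib.Helper18.Facts Cfsg.Agent.Lib.Helper18.AllRoots Cfsg.Agent.Lib.Helper18.Loop
  Cfsg.Agent.Lib.Helper18.Weyl Cfsg.Agent.Lib.Helper18.RootSys Cfsg.Agent.Lib.Helper18.Orbit
  Cfsg.Agent.Lib.Helper18.Units Cfsg.Agent.Lib.Helper18.Sub Cfsg.Agent.Lib.Helper18.Norm
  Cfsg.Agent.Lib.Helper18.HAll Cfsg.Agent.Lib.Helper18.Torus Cfsg.Agent.Lib.Helper18.Pos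
  Cfsg.Agent.Lib.Helper18.WGroup Cfsg.Agent.Lib.Helper18.BNChev Cfsg.Agent.Lib.Helper18.Mono
  Cfsg.Agent.Lib.Helper18.BNPairC Cfsg.Agent.Lib.Helper18

/-- Weights for the positivity check of `G₂`. -/
def wG2 (i : ℕ) : ℤ := [6, 10].getD i 0

set_option maxRecDepth 100000 in
theorem posG2_0 : (List.range' 0 12).all (chkPos TabG2.fd wG2) = true := by
  decide +kernel

theorem posG2 : PosW FTabG2.fd wG2 := by
  rw [FTabG2.fd_eq]
  exact PosW.of_checks (A := TabG2.fd)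
    (fun s (hs : s < 12) => all_range'_imp posG2_0 (by omega) (by omega))

theorem cfG2 : CFacts FTabG2.fd chevG2 WTabG2.X OTabG2.m wG2 :=
  ⟨WTabG2.afacts, WTabG2.wfacts, OTabG2.mfacts, posG2, ⟨_, _, OTabG2.ofacts⟩,
    ⟨_, _, _, OTabG2.pfacts, OTabG2.base_ok⟩⟩

theorem hDG2 : chevG2 ∈ [chevG2, chevB2, chevD4, chevF4, chevE6, chevE7, chevE8] := by simp

variable {F : Type*} [Field F]

theorem hadd : ∀ r < chevG2.nroots, ∀ t u : F,
    chevG2.x F r t * chevG2.x F r u = chevG2.x F r (t + u) :=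
  fun r _ t u => Cfsg.Agent.Lib.Helper36.ChevUG2.add r t u

theorem hinj : ∀ r < chevG2.nroots, ∀ t : F, chevG2.x F r t = 1 → t = 0 :=
  fun r hr t h => (Cfsg.Agent.S1024.result chevG2 hDG2 r hr t).mp h

theorem nroots_eq : chevG2.nroots = 12 := by decide +kernel
theorem rank_eq : chevG2.rank = 2 := by decide +kernel
theorem An_eq : FTabG2.fd.n = 12 := by decide +kernel
theorem Arank_eq : FTabG2.fd.rank = 2 := by decide +kernel

end Cfsg.Agent.Lib.Helper36.OddG2a
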