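import Mathlib
import Cfsg.Agent.Lib.Helper36.OddG2a

set_option autoImplicit false
set_option linter.unusedSimpArgs false
set_option linter.unusedSectionVars false
set_option linter.unusedVariables false

namespace Cfsg.Agent.Lib.Helper36.OddG2b

open Cfsg Cfsg.Lie Cfsg.Agent.Lib.Helper18.Fast Cfsg.Agent.Lib.Helper18.Grade
  Cfsg.Agent.Lib.Helper18.Facts Cfsg.Agent.Lib.Helper18.AllRoots Cfsg.Agent.Lib.Helper18.Loop
  Cfsg.Agent.Lib.Helper18.Weyl Cfsg.Agent.Lib.Helper18.RootSys Cfsg.Agent.Lib.Helper18.Orbit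
  Cfsg.Agent.Lib.Helper18.Units Cfsg.Agent.Lib.Helper18.Sub Cfsg.Agent.Lib.Helper18.Norm
  Cfsg.Agent.Lib.Helper18.HAll Cfsg.Agent.Lib.Helper18.Torus Cfsg.Agent.Lib.Helper18.Pos
  Cfsg.Agent.Lib.Helper18.WGroup Cfsg.Agent.Lib.Helper18.BNChev Cfsg.Agent.Lib.Helper18.Mono
  Cfsg.Agent.Lib.Helper18.BNPairC Cfsg.Agent.Lib.Helper18 Cfsg.Agent.Lib.Helper36.OddG2a

/-- The twelve elements of the Weyl group of `G₂` as maps of the root indices. -/
def wtab : List (List ℕ) :=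
  [[0, 1, 2, 3, 4, 5, 6, 7, 8, 9, 10, 11],
   [0, 5, 3, 2, 7, 1, 10, 4, 9, 8, 6, 11],
   [1, 0, 2, 4, 3, 6, 5, 8, 7, 9, 11, 10],
   [5, 10, 7, 3, 9, 0, 11, 2, 8, 4, 1, 6],
   [6, 1, 4, 8, 2, 11, 0, 9, 3, 7, 10, 5],
   [10, 11, 9, 7, 8, 5, 6, 3, 4, 2, 0, 1],
   [11, 6, 8, 9, 4, 10, 1, 7, 2, 3, 5, 0],
   [11, 10, 9, 8, 7, 6, 5, 4, 3, 2, 1, 0],
   [1, 6, 4, 2, 8, 0, 11, 3, 9, 7, 5, 10],
   [5, 0, 3, 7, 2, 10, 1, 9, 4, 8, 11, 6],
   [6, 11, 8, 4, 9, 1, 10, 2, 7, 3, 0, 5],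
   [10, 5, 7, 9, 3, 11, 0, 8, 2, 4, 6, 1]]

/-- The `k`-th element of the Weyl group at the root `r`. -/
def wl (k r : ℕ) : ℕ := (wtab.getD k []).getD r 0

/-- The index of the product of two elements of the Weyl group. -/
def mulK (k l : ℕ) : ℕ :=
  ((List.range 12).find? (fun m => (List.range 12).all (fun r => wl k (wl l r) == wl m r))).getD 0

set_option maxRecDepth 100000 in
theorem mulK_ok : ∀ k < 12, ∀ l < 12, mulK k l < 12 ∧ ∀ r < 12, wl k (wl l r) = wl (mulK k l) r := by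
  decide +kernel

theorem wl_lt : ∀ k < 12, ∀ r < 12, wl k r < 12 := by decide +kernel

theorem wl_zero : ∀ r < 12, wl 0 r = r := by decide +kernel

set_option maxRecDepth 100000 in
theorem wl_one : ∀ r < 12, wl 1 r = WTabG2.X.W 0 r := by decide +kernel

set_option maxRecDepth 100000 in
theorem wl_two : ∀ r < 12, wl 2 r = WTabG2.X.W 1 r := by decide +kernel

variable {F : Type*} [Field F]

/-- `n` acts on the root elements through the `k`-th element of the Weyl group, with the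
constants `c`. -/
def ActsK (n : GL chevG2.Idx F) (k : ℕ) (c : ℕ → F) : Prop :=
  ∀ r < 12, c r ≠ 0 ∧ ∀ t : F, n * xg cfG2.af F r t * n⁻¹ = xg cfG2.af F (wl k r) (c r * t)

theorem actsK_mul {a b : GL chevG2.Idx F} {k l : ℕ} {c d : ℕ → F} (hk : k < 12) (hl : l < 12)
    (ha : ActsK a k c) (hb : ActsK b l d) :
    ActsK (a * b) (mulK k l) (fun r => c (wl l r) * d r) := by
  intro r hr
  obtain ⟨hd, hb'⟩ := hb r hr
  obtain ⟨hc, ha'⟩ := ha (wl l r) (wl_lt l hl r hr)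
  refine ⟨mul_ne_zero hc hd, fun t => ?_⟩
  have e : a * b * xg cfG2.af F r t * (a * b)⁻¹ = a * (b * xg cfG2.af F r t * b⁻¹) * a⁻¹ := by
    group
  rw [e, hb', ha', (mulK_ok k hk l hl).2 r hr, mul_assoc]

theorem actsK_H {h : GL chevG2.Idx F} (hh : h ∈ chevG2.diagonalSubgroup F) :
    ∃ c₀ : ℕ → F, (∀ i, c₀ i ≠ 0) ∧ (h : Matrix chevG2.Idx chevG2.Idx F) = tor chevG2 FTabG2.fd c₀ ∧
      ActsK h 0 (chi FTabG2.fd c₀) := by
  obtain ⟨c₀, hc, e⟩ := exists_tor_of_mem cfG2.af h hh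
  refine ⟨c₀, hc, e, fun r hr => ⟨chi_ne_zero hc r, fun t => ?_⟩⟩
  have hr' : r < chevG2.nroots := by rw [nroots_eq]; exact hr
  rw [xg_eq cfG2.af hr', wl_zero r hr, xg_eq cfG2.af hr']
  exact tor_conj_xU cfG2.af hc e r hr' t

theorem E_ne_zero {i : ℕ} (hi : i < 2) {r : ℕ} (hr : r < 12) : ((WTabG2.X.E i r : ℤ) : F) ≠ 0 := by
  rcases cfG2.wf.sgn i (by rw [Arank_eq]; exact hi) r (by rw [An_eq]; exact hr) with h | h
  · rw [h]; simp
  · rw [h]; simp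

theorem actsK_ng0 : ActsK (ng cfG2.af F 0) 1 (fun r => ((WTabG2.X.E 0 r : ℤ) : F)) := by
  intro r hr
  refine ⟨E_ne_zero (by norm_num) hr, fun t => ?_⟩
  rw [wl_one r hr]
  exact ng_conj cfG2.af cfG2.wf (by rw [Arank_eq]; norm_num) (by rw [An_eq]; exact hr) t

theorem actsK_ng1 : ActsK (ng cfG2.af F 1) 2 (fun r => ((WTabG2.X.E 1 r : ℤ) : F)) := by
  intro r hr
  refine ⟨E_ne_zero (by norm_num) hr, fun t => ?_⟩
  rw [wl_two r hr]
  exact ng_conj cfG2.af cfG2.wf (by rw [Arank_eq]; norm_num) (by rw [An_eq]; exact hr) t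

theorem actsK_ng0_inv :
    ActsK (ng cfG2.af F 0)⁻¹ 1 (fun r => ((WTabG2.X.E 0 (WTabG2.X.W 0 r) : ℤ) : F)) := by
  intro r hr
  have hw : WTabG2.X.W 0 r < 12 := by
    have := cfG2.wf.lt 0 (by rw [Arank_eq]; norm_num) r (by rw [An_eq]; exact hr)
    rwa [An_eq] at this
  refine ⟨E_ne_zero (by norm_num) hw, fun t => ?_⟩
  rw [wl_one r hr, inv_inv]
  exact ng_inv_conj cfG2.af cfG2.wf (by rw [Arank_eq]; norm_num) (by rw [An_eq]; exact hr) t

theorem actsK_ng1_inv :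
    ActsK (ng cfG2.af F 1)⁻¹ 2 (fun r => ((WTabG2.X.E 1 (WTabG2.X.W 1 r) : ℤ) : F)) := by
  intro r hr
  have hw : WTabG2.X.W 1 r < 12 := by
    have := cfG2.wf.lt 1 (by rw [Arank_eq]; norm_num) r (by rw [An_eq]; exact hr)
    rwa [An_eq] at this
  refine ⟨E_ne_zero (by norm_num) hw, fun t => ?_⟩
  rw [wl_two r hr, inv_inv]
  exact ng_inv_conj cfG2.af cfG2.wf (by rw [Arank_eq]; norm_num) (by rw [An_eq]; exact hr) t

/-- Every element of `N` acts through an element of the Weyl group. -/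
theorem exists_actsK {n : GL chevG2.Idx F} (hn : n ∈ chevG2.monomialSubgroup F) :
    ∃ k < 12, ∃ c : ℕ → F, ActsK n k c := by
  have hn' : n ∈ (cfG2.rd (hadd (F := F))).N := by rw [rd_N]; exact hn
  refine (cfG2.rd (hadd (F := F))).N_induction (p := fun n => ∃ k < 12, ∃ c : ℕ → F, ActsK n k c)
    ?_ ?_ ?_ ?_ hn'
  · intro h hh
    obtain ⟨c₀, -, -, h1⟩ := actsK_H (F := F) (h := h) hh
    exact ⟨0, by norm_num, _, h1⟩
  · intro i
    have hi : i.val < 2 := lt_of_lt_of_eq i.isLt Arank_eq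
    have h01 : i.val = 0 ∨ i.val = 1 := by omega
    rcases h01 with h0 | h1
    · refine ⟨1, by norm_num, fun r => ((WTabG2.X.E 0 r : ℤ) : F), ?_⟩
      have e : (cfG2.rd (hadd (F := F))).nn i = ng cfG2.af F 0 := by
        show ng cfG2.af F i.val = _
        rw [h0]
      rw [e]
      exact actsK_ng0
    · refine ⟨2, by norm_num, fun r => ((WTabG2.X.E 1 r : ℤ) : F), ?_⟩
      have e : (cfG2.rd (hadd (F := F))).nn i = ng cfG2.af F 1 := by
        show ng cfG2.af F i.val = _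
        rw [h1]
      rw [e]
      exact actsK_ng1
  · intro i
    have hi : i.val < 2 := lt_of_lt_of_eq i.isLt Arank_eq
    have h01 : i.val = 0 ∨ i.val = 1 := by omega
    rcases h01 with h0 | h1
    · refine ⟨1, by norm_num, fun r => ((WTabG2.X.E 0 (WTabG2.X.W 0 r) : ℤ) : F), ?_⟩
      have e : (cfG2.rd (hadd (F := F))).nn i = ng cfG2.af F 0 := by
        show ng cfG2.af F i.val = _
        rw [h0]
      rw [e]
      exact actsK_ng0_inv
    · refine ⟨2, by norm_num, fun r => ((WTabG2.X.E 1 (WTabG2.X.W 1 r) : ℤ) : F), ?_⟩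
      have e : (cfG2.rd (hadd (F := F))).nn i = ng cfG2.af F 1 := by
        show ng cfG2.af F i.val = _
        rw [h1]
      rw [e]
      exact actsK_ng1_inv
  · rintro a b ⟨k, hk, c, ha⟩ ⟨l, hl, d, hb⟩
    exact ⟨mulK k l, (mulK_ok k hk l hl).1, _, actsK_mul hk hl ha hb⟩

end Cfsg.Agent.Lib.Helper36.OddG2b
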