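import Mathlib
import Cfsg.Agent.Lib.Helper36.OddG2b

set_option autoImplicit false
set_option linter.unusedSimpArgs false
set_option linter.unusedSectionVars false
set_option linter.unusedVariables false

namespace Cfsg.Agent.Lib.Helper36.OddG2c

open Cfsg Cfsg.Lie Cfsg.Agent.Lib.Helper18.Fast Cfsg.Agent.Lib.Helper18.Grade
  Cfsg.Agent.Lib.Helper18.Facts Cfsg.Agent.Lib.Helper18.AllRoots Cfsg.Agent.Lib.Helper18.Loop
  Cfsg.Agent.Lib.Helper18.Weyl Cfsg.Agent.Lib.Helper18.RootSys Cfsg.Agent.Lib.Helper18.Orbit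
  Cfsg.Agent.Lib.Helper18.Units Cfsg.Agent.Lib.Helper18.Sub Cfsg.Agent.Lib.Helper18.Norm
  Cfsg.Agent.Lib.Helper18.HAll Cfsg.Agent.Lib.Helper18.Torus Cfsg.Agent.Lib.Helper18.Pos
  Cfsg.Agent.Lib.Helper18.WGroup Cfsg.Agent.Lib.Helper18.BNChev Cfsg.Agent.Lib.Helper18.Mono
  Cfsg.Agent.Lib.Helper18.BNPairC Cfsg.Agent.Lib.Helper18 Cfsg.Agent.Lib.Helper36.OddG2a
  Cfsg.Agent.Lib.Helper36.OddG2b Cfsg.Agent.Lib.Helper19.BruhatChev
  Cfsg.Agent.Lib.Helper19.BruhatAbs Cfsg.Agent.Lib.Helper18.BNAbs Cfsg.Agent.Lib.Helper18.XMat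

variable {F : Type*} [Field F]

set_option maxRecDepth 100000 in
theorem pos_ok : ∀ r < 12, 6 ≤ r → chevG2.IsPosRoot r := by decide +kernel

set_option maxRecDepth 100000 in
theorem neg_ok : ∀ r < 6, chevG2.IsNegRoot r := by decide +kernel

theorem xg_mem_pos {r : ℕ} (hr : r < 12) (h6 : 6 ≤ r) (t : F) :
    xg cfG2.af F r t ∈ chevG2.posUnipotent F :=
  Subgroup.subset_closure ⟨r, t, pos_ok r hr h6, coe_xg cfG2.af (by rw [nroots_eq]; exact hr) t⟩

theorem xg_mem_neg {r : ℕ} (hr : r < 6) (t : F) :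
    xg cfG2.af F r t ∈ chevG2.negUnipotent F :=
  Subgroup.subset_closure ⟨r, t, neg_ok r hr, coe_xg cfG2.af (by rw [nroots_eq]; omega) t⟩

theorem xg_ne_one {r : ℕ} (hr : r < 12) {t : F} (ht : t ≠ 0) : xg cfG2.af F r t ≠ 1 := by
  intro h
  have hr' : r < chevG2.nroots := by rw [nroots_eq]; exact hr
  have h1 : chevG2.x F r t = 1 := by
    rw [← coe_xg cfG2.af hr', h]
    rfl
  exact ht (hinj r hr' t h1)

/-- An element acting trivially on the identity maps positive roots to positive roots. -/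
theorem pos_of_acts_one {m : ℕ} (hm : m < 12) {c : ℕ → F} (h : ActsK (1 : GL chevG2.Idx F) m c) :
    ∀ r < 12, 6 ≤ r → 6 ≤ wl m r := by
  intro r hr h6
  by_contra hlt
  have hlt' : wl m r < 6 := by omega
  obtain ⟨hc, h1⟩ := h r hr
  have h2 := h1 1
  rw [one_mul, inv_one, mul_one] at h2
  have h3 : xg cfG2.af F r 1 ∈ chevG2.posUnipotent F ⊓ chevG2.negUnipotent F :=
    ⟨xg_mem_pos hr h6 1, by rw [h2]; exact xg_mem_neg hlt' _⟩
  rw [pos_inf_neg cfG2, Subgroup.mem_bot] at h3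
  exact xg_ne_one hr one_ne_zero h3

set_option maxRecDepth 100000 in
theorem rot_ok : ∀ k < 12, 8 ≤ k → ∃ r < 12, 6 ≤ r ∧ wl (mulK k k) r < 6 := by decide +kernel

/-- An involution of `N` does not act through a rotation of order `3` or `6`. -/
theorem le_seven {n : GL chevG2.Idx F} (h2 : n * n = 1) {k : ℕ} (hk : k < 12) {c : ℕ → F}
    (h : ActsK n k c) : k ≤ 7 := by
  by_contra hlt
  have h8 : 8 ≤ k := by omega
  have h1 := actsK_mul hk hk h h
  rw [h2] at h1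
  obtain ⟨r, hr, h6, hneg⟩ := rot_ok k hk h8
  have := pos_of_acts_one (mulK_ok k hk k hk).1 h1 r hr h6
  omega

/-- An element of `N` acting through the identity lies in `H`. -/
theorem mem_H_of_acts0 {n : GL chevG2.Idx F} (hn : n ∈ chevG2.monomialSubgroup F) {c : ℕ → F}
    (h0 : ActsK n 0 c) : n ∈ chevG2.diagonalSubgroup F := by
  have hn' : n ∈ (cfG2.rd (hadd (F := F))).N := by rw [rd_N]; exact hn
  have hb' : ∀ b ∈ chevG2.borelSubgroup F, n * b * n⁻¹ ∈ chevG2.borelSubgroup F := by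
    intro b hb
    rw [← rd_B cfG2 (hadd (F := F))] at hb ⊢
    obtain ⟨u, hu, h, hh, rfl⟩ :=
      RD.exists_mul_of_mem_sup' (cfG2.rd (hadd (F := F))).H_le_normalizer_U hb
    have h1 : n * u * n⁻¹ ∈ (cfG2.rd (hadd (F := F))).U := by
      refine RD.conj_closure_mem n ?_ hu
      rintro _ ⟨s, v, hs, rfl⟩
      have hs12 : s.val < 12 := lt_of_lt_of_eq s.isLt An_eq
      obtain ⟨-, h3⟩ := h0 s.val hs12
      have h4 : n * (cfG2.rd (hadd (F := F))).x s v * n⁻¹ =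
          (cfG2.rd (hadd (F := F))).x s (c s.val * v) := by
        show n * xg cfG2.af F s.val v * n⁻¹ = xg cfG2.af F s.val (c s.val * v)
        rw [h3 v, wl_zero s.val hs12]
      rw [h4]
      exact (cfG2.rd (hadd (F := F))).x_mem_U hs _
    have h2 : n * h * n⁻¹ ∈ (cfG2.rd (hadd (F := F))).H :=
      (cfG2.rd (hadd (F := F))).N_conj_H hn' h hh
    have e : n * (u * h) * n⁻¹ = n * u * n⁻¹ * (n * h * n⁻¹) := by group
    rw [e]
    exact Subgroup.mul_mem _ ((cfG2.rd (hadd (F := F))).U_le_B h1)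
      ((cfG2.rd (hadd (F := F))).H_le_B h2)
  have hnG : n ∈ chevG2.group F := monomialSubgroup_le cfG2.af F hn
  have key := Cfsg.Agent.Lib.Helper6.BN4.mem_of_conj_le (bnPair cfG2 (hadd (F := F)) hinj)
    (M := (chevG2.borelSubgroup F).subgroupOf (chevG2.group F)) (le_refl _) (g := ⟨n, hnG⟩) (by
      intro b hb0
      have hb1 : (b : GL chevG2.Idx F) ∈ chevG2.borelSubgroup F := Subgroup.mem_subgroupOf.mp hb0
      rw [Subgroup.mem_subgroupOf]
      exact hb' _ hb1)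
  have hnB : n ∈ chevG2.borelSubgroup F := Subgroup.mem_subgroupOf.mp key
  have h3 : n ∈ chevG2.borelSubgroup F ⊓ chevG2.monomialSubgroup F := ⟨hnB, hn⟩
  rw [borel_inf_monomial cfG2.af cfG2.pw] at h3
  exact h3

theorem odd_orderOf_of_mem_U [Fintype F] (hodd : Odd (Fintype.card F)) {u : GL chevG2.Idx F}
    (hu : u ∈ chevG2.posUnipotent F) :
    Odd (orderOf u) ∧ (orderOf u).Coprime (Fintype.card F - 1) := by
  have hcard := Cfsg.Agent.Lib.Helper36.ChevUCard.card_posUnipotent chevG2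
    (Cfsg.Agent.Lib.Helper36.ChevUG2.facts (F := F))
  have hdvd : orderOf u ∣ Fintype.card F ^ (chevG2.nroots / 2) := by
    rw [← hcard]
    exact Subgroup.orderOf_dvd_natCard _ hu
  constructor
  · exact Odd.of_dvd_nat hodd.pow hdvd
  · apply Nat.Coprime.coprime_dvd_left hdvd
    apply Nat.Coprime.pow_left
    have h1 : 1 ≤ Fintype.card F := Fintype.card_pos
    exact (Nat.coprime_self_sub_right h1).mpr (Nat.coprime_one_right _)

theorem pow_card_sub_one_of_mem_H [Fintype F] {h : GL chevG2.Idx F}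
    (hh : h ∈ chevG2.diagonalSubgroup F) : h ^ (Fintype.card F - 1) = 1 := by
  obtain ⟨c, hc, e⟩ := exists_tor_of_mem cfG2.af h hh
  apply Units.ext
  rw [Units.val_pow_eq_pow_val, e]
  unfold tor
  rw [Matrix.diagonal_pow]
  have : (fun b => chi FTabG2.fd c (enc chevG2 b)) ^ (Fintype.card F - 1) = fun _ => (1 : F) := by
    funext b
    simp only [Pi.pow_apply]
    exact FiniteField.pow_card_sub_one_eq_one _ (chi_ne_zero hc _)
  rw [this]
  simp

theorem pow_mul_mem {u h : GL chevG2.Idx F} (hu : u ∈ chevG2.posUnipotent F)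
    (hh : h ∈ chevG2.diagonalSubgroup F) (m : ℕ) :
    ∃ u' ∈ chevG2.posUnipotent F, (u * h) ^ m = u' * h ^ m := by
  induction m with
  | zero => exact ⟨1, Subgroup.one_mem _, by simp⟩
  | succ m ih =>
    obtain ⟨u', hu', e⟩ := ih
    refine ⟨u' * (h ^ m * u * (h ^ m)⁻¹), Subgroup.mul_mem _ hu' ?_, ?_⟩
    · have := (cfG2.rd (hadd (F := F))).H_conj_U (h := h ^ m) (Subgroup.pow_mem _ hh m) (g := u)
        (by rw [rd_U]; exact hu)
      rwa [rd_U] at this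
    · rw [pow_succ, e, pow_succ]
      group

/-- Every involution of the group is conjugate to an involution in `N`. -/
theorem conj_into_N [Fintype F] (hodd : Odd (Fintype.card F)) {t : GL chevG2.Idx F}
    (ht : t ∈ chevG2.group F) (h2 : t * t = 1) :
    ∃ g ∈ chevG2.group F, g * t * g⁻¹ ∈ chevG2.monomialSubgroup F := by
  obtain ⟨b, hb, n, hn, u, hu, e⟩ := (normal_form cfG2 (hadd (F := F)) hinj).1 t ht
  have huU : u ∈ chevG2.posUnipotent F := umS_le_pos n hu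
  have hub : u * b ∈ (cfG2.rd (hadd (F := F))).B := by
    rw [rd_B]
    exact Subgroup.mul_mem _ (Subgroup.mem_sup_left huU) hb
  obtain ⟨u₁, hu₁, h, hh, e1⟩ :=
    RD.exists_mul_of_mem_sup' (cfG2.rd (hadd (F := F))).H_le_normalizer_U hub
  rw [rd_U] at hu₁
  have hh' : h ∈ chevG2.diagonalSubgroup F := hh
  have hn₁ : h * n ∈ chevG2.monomialSubgroup F :=
    Subgroup.mul_mem _ (Subgroup.mem_sup_left hh') hn
  generalize hn₁def : h * n = n₁ at hn₁
  have et : u * t * u⁻¹ = u₁ * n₁ := by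
    rw [e]
    calc u * (b * n * u) * u⁻¹ = (u * b) * n := by group
      _ = u₁ * h * n := by rw [e1]
      _ = u₁ * n₁ := by rw [← hn₁def, mul_assoc]
  have hsq : u₁ * n₁ * (u₁ * n₁) = 1 := by
    rw [← et]
    calc u * t * u⁻¹ * (u * t * u⁻¹) = u * (t * t) * u⁻¹ := by group
      _ = 1 := by rw [h2]; group
  have hrel : n₁ * u₁ = u₁⁻¹ * n₁⁻¹ := by
    have h3 : u₁ * (n₁ * u₁) * n₁ = 1 := by rw [← hsq]; group
    calc n₁ * u₁ = u₁⁻¹ * (u₁ * (n₁ * u₁) * n₁) * n₁⁻¹ := by group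
      _ = u₁⁻¹ * n₁⁻¹ := by rw [h3]; group
  have hu₁B : u₁ ∈ (cfG2.rd (hadd (F := F))).B := by
    rw [rd_B]
    exact Subgroup.mem_sup_left hu₁
  obtain ⟨b', hb', u'', hu'', e2⟩ := claim cfG2 (hadd (F := F)) hinj hn₁ u₁ hu₁B
  rw [rd_B] at hb'
  have hH : n₁⁻¹ * n₁⁻¹ ∈ chevG2.diagonalSubgroup F := by
    refine ((normal_form cfG2 (hadd (F := F)) hinj).2 b' u₁⁻¹ n₁ n₁⁻¹ u'' 1 hb'
      (Subgroup.inv_mem _ (Subgroup.mem_sup_left hu₁)) hn₁ (Subgroup.inv_mem _ hn₁)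
      (um_le cfG2 hadd n₁ hu'') (Subgroup.one_mem _) ?_).1
    rw [← e2, hrel, mul_one]
  have hH2 : n₁ * n₁ ∈ chevG2.diagonalSubgroup F := by
    have h3 := Subgroup.inv_mem _ hH
    rwa [mul_inv_rev, inv_inv] at h3
  generalize hh₀ : n₁ * n₁ = h₀ at hH2
  have hy : n₁ * u₁ * n₁⁻¹ = u₁⁻¹ * h₀⁻¹ := by
    rw [hrel, ← hh₀]
    group
  obtain ⟨hoddm, hcop⟩ := odd_orderOf_of_mem_U hodd hu₁
  have hym : (u₁⁻¹ * h₀⁻¹) ^ (orderOf u₁) = 1 := by
    rw [← hy, conj_pow, pow_orderOf_eq_one]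
    group
  obtain ⟨u', hu', e3⟩ := pow_mul_mem (Subgroup.inv_mem _ hu₁) (Subgroup.inv_mem _ hH2) (orderOf u₁)
  rw [hym] at e3
  have h4 : h₀⁻¹ ^ (orderOf u₁) ∈ chevG2.posUnipotent F ⊓ chevG2.diagonalSubgroup F := by
    refine ⟨?_, Subgroup.pow_mem _ (Subgroup.inv_mem _ hH2) _⟩
    have : h₀⁻¹ ^ (orderOf u₁) = u'⁻¹ := eq_inv_of_mul_eq_one_right e3.symm
    rw [this]
    exact Subgroup.inv_mem _ hu'
  rw [posUnipotent_inf_diagonal cfG2.af cfG2.pw, Subgroup.mem_bot] at h4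
  have h5 : h₀ ^ (orderOf u₁) = 1 := by
    rw [inv_pow, inv_eq_one] at h4
    exact h4
  have h6 : h₀ ^ (Fintype.card F - 1) = 1 := pow_card_sub_one_of_mem_H hH2
  have h7 : h₀ = 1 := by
    have d1 := orderOf_dvd_of_pow_eq_one h5
    have d2 := orderOf_dvd_of_pow_eq_one h6
    have d3 := Nat.dvd_gcd d1 d2
    rw [Nat.Coprime.gcd_eq_one hcop, Nat.dvd_one] at d3
    exact orderOf_eq_one_iff.mp d3
  rw [h7] at hh₀
  have hinv : n₁ * u₁ * n₁⁻¹ = u₁⁻¹ := by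
    rw [hy, h7]
    simp
  obtain ⟨j, hj⟩ := hoddm
  have hvv : u₁ ^ (j + 1) * u₁ ^ (j + 1) = u₁ := by
    rw [← pow_add]
    have : j + 1 + (j + 1) = orderOf u₁ + 1 := by omega
    rw [this, pow_succ, pow_orderOf_eq_one, one_mul]
  have hvinv : n₁ * u₁ ^ (j + 1) * n₁⁻¹ = (u₁ ^ (j + 1))⁻¹ := by
    rw [← conj_pow, hinv, inv_pow]
  have hvU : u₁ ^ (j + 1) ∈ chevG2.posUnipotent F := Subgroup.pow_mem _ hu₁ _
  generalize u₁ ^ (j + 1) = v at hvv hvinv hvU
  have hfin : v⁻¹ * (u₁ * n₁) * v = n₁ := by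
    have h8 : n₁ * v = v⁻¹ * n₁ := by
      rw [← hvinv]
      group
    rw [← hvv]
    calc v⁻¹ * (v * v * n₁) * v = v * (n₁ * v) := by group
      _ = v * (v⁻¹ * n₁) := by rw [h8]
      _ = n₁ := by group
  refine ⟨v⁻¹ * u, ?_, ?_⟩
  · exact Subgroup.mul_mem _ (Subgroup.inv_mem _ (posUnipotent_le chevG2 F hvU))
      (posUnipotent_le chevG2 F huU)
  · have e9 : v⁻¹ * u * t * (v⁻¹ * u)⁻¹ = v⁻¹ * (u * t * u⁻¹) * v := by group
    rw [e9, et, hfin]
    exact hn₁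

end Cfsg.Agent.Lib.Helper36.OddG2c
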