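import Mathlib
import Cfsg.Agent.Lib.Helper36.OddG2c

set_option autoImplicit false
set_option linter.unusedSimpArgs false
set_option linter.unusedSectionVars false
set_option linter.unusedVariables false

namespace Cfsg.Agent.Lib.Helper36.OddG2d

open Cfsg Cfsg.Lie Cfsg.Agent.Lib.Helper18.Fast Cfsg.Agent.Lib.Helper18.Grade
  Cfsg.Agent.Lib.Helper18.Facts Cfsg.Agent.Lib.Helper18.AllRoots Cfsg.Agent.Lib.Helper18.Loop
  Cfsg.Agent.Lib.Helper18.Weyl Cfsg.Agent.Lib.Helper18.RootSys Cfsg.Agent.Lib.Helper18.Orbit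
  Cfsg.Agent.Lib.Helper18.Units Cfsg.Agent.Lib.Helper18.Sub Cfsg.Agent.Lib.Helper18.Norm
  Cfsg.Agent.Lib.Helper18.HAll Cfsg.Agent.Lib.Helper18.Torus Cfsg.Agent.Lib.Helper18.Pos
  Cfsg.Agent.Lib.Helper18.WGroup Cfsg.Agent.Lib.Helper18.BNChev Cfsg.Agent.Lib.Helper18.Mono
  Cfsg.Agent.Lib.Helper18.BNPairC Cfsg.Agent.Lib.Helper18 Cfsg.Agent.Lib.Helper36.OddG2a
  Cfsg.Agent.Lib.Helper36.OddG2b Cfsg.Agent.Lib.Helper36.OddG2c
  Cfsg.Agent.Lib.Helper19.SL2Hom

variable {F : Type*} [Field F]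

set_option maxRecDepth 100000 in
theorem hnegG2 : ∀ i < chevG2.rank, ∀ s < chevG2.nroots,
    chevG2.reflectRoot i (chevG2.neg s) = chevG2.neg (chevG2.reflectRoot i s) := by decide +kernel

theorem exists_phi {r r' : ℕ} (hr : r < 12) (hneg : chevG2.neg r = r') :
    ∃ φ : Matrix.SpecialLinearGroup (Fin 2) F →* GL chevG2.Idx F,
      (∀ t : F, φ (upper t) = xg cfG2.af F r t) ∧ (∀ t : F, φ (lower t) = xg cfG2.af F r' t) := by
  have hr12 : r < chevG2.nroots := by rw [nroots_eq]; exact hr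
  obtain ⟨φ, -, h⟩ := Cfsg.Agent.Lib.Helper19.SL2Chev.exists_hom (F := F) WTabG2.afacts
    Cfsg.Agent.Lib.Helper36.ChevDG2.weylData hadd hnegG2 r hr12
  refine ⟨φ, fun t => ?_, fun t => ?_⟩
  · apply Units.ext
    rw [(h (upper t) t).1 rfl, coe_xg cfG2.af hr12]
  · apply Units.ext
    have hr'12 : r' < chevG2.nroots := by rw [← hneg]; exact neg_lt cfG2.af hr12
    rw [(h (lower t) t).2 rfl, coe_xg cfG2.af hr'12, hneg]

theorem sl2_R {c d : F} (hd : d ≠ 0) (h2 : (2 : F) ≠ 0) (hc : c = d ^ 2) :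
    lower (-d / 2) * upper d⁻¹ =
      (upper d⁻¹ * lower (-d) * upper d⁻¹) * (upper (c⁻¹ * (-d / 2)) * lower (c * d⁻¹)) := by
  subst hc
  apply Subtype.ext
  show (!![1, 0; -d / 2, 1] : Matrix (Fin 2) (Fin 2) F) * !![1, d⁻¹; 0, 1] =
    (!![1, d⁻¹; 0, 1] * !![1, 0; -d, 1] * !![1, d⁻¹; 0, 1]) *
      (!![1, (d ^ 2)⁻¹ * (-d / 2); 0, 1] * !![1, 0; d ^ 2 * d⁻¹, 1])
  ext i j
  fin_cases i <;> fin_cases j <;> simp [Matrix.mul_apply, Fin.sum_univ_two] <;> field_simp <;> ring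

theorem sl2_T {a b c e β : F} (hc : c ≠ 0) (hβ : β ≠ 0) (hI : 1 + a * e = β * (1 + e * b))
    (hII : c * ((1 + a * e) * b + a) = β * e) :
    upper a * lower e * upper b =
      (upper β * lower (-β⁻¹) * upper β * (upper (-1) * lower 1 * upper (-1))) *
        (lower (c * a) * upper (c⁻¹ * e) * lower (c * b)) := by
  apply Subtype.ext
  show (!![1, a; 0, 1] : Matrix (Fin 2) (Fin 2) F) * !![1, 0; e, 1] * !![1, b; 0, 1] =
    (!![1, β; 0, 1] * !![1, 0; -β⁻¹, 1] * !![1, β; 0, 1] *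
        (!![1, -1; 0, 1] * !![1, 0; 1, 1] * !![1, -1; 0, 1])) *
      (!![1, 0; c * a, 1] * !![1, c⁻¹ * e; 0, 1] * !![1, 0; c * b, 1])
  ext i j
  fin_cases i <;> fin_cases j <;> simp [Matrix.mul_apply, Fin.sum_univ_two] <;> field_simp
  all_goals first
    | linear_combination hI
    | linear_combination hII
    | linear_combination (-1 : F) * hII
    | linear_combination (-c) * hI

theorem xg_mem_group {r : ℕ} (hr : r < 12) (t : F) : xg cfG2.af F r t ∈ chevG2.group F := by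
  have hr' : r < chevG2.nroots := by rw [nroots_eq]; exact hr
  rw [xg_eq cfG2.af hr']
  exact xU_mem_group cfG2.af r hr' t

/-- if `g = k (n g n⁻¹)` then `g n g⁻¹ = k n` -/
theorem conj_of_eq {G : Type*} [Group G] {g k n : G} (h : g = k * (n * g * n⁻¹)) :
    g * n * g⁻¹ = k * n := by
  have e : g * n * g⁻¹ = (k * (n * g * n⁻¹)) * n * g⁻¹ := by rw [← h]
  rw [e]
  group

/-- The rank one reduction: an element acting on `⟨X_r, X_{-r}⟩` as an antidiagonal matrix with a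
square ratio is conjugate to its product with `n_r(d⁻¹)`. -/
theorem conjR {r r' : ℕ} (hr : r < 12) (hr12 : r < chevG2.nroots) (hneg : chevG2.neg r = r')
    {n : GL chevG2.Idx F} {c d : F}
    (hd : d ≠ 0) (h2 : (2 : F) ≠ 0) (hc : c = d ^ 2)
    (h1 : ∀ t : F, n * xg cfG2.af F r t * n⁻¹ = xg cfG2.af F r' (c * t))
    (h1' : ∀ t : F, n * xg cfG2.af F r' t * n⁻¹ = xg cfG2.af F r (c⁻¹ * t)) :
    ∃ g ∈ chevG2.group F, g * n * g⁻¹ = nU cfG2.af F r hr12 d⁻¹ * n := by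
  have hr'12 : r' < chevG2.nroots := by rw [← hneg]; exact neg_lt cfG2.af hr12
  have hr' : r' < 12 := by rw [← nroots_eq]; exact hr'12
  obtain ⟨φ, hu, hl⟩ := exists_phi (F := F) hr hneg
  refine ⟨φ (lower (-d / 2) * upper d⁻¹), ?_, ?_⟩
  · rw [map_mul, hu, hl]
    exact Subgroup.mul_mem _ (xg_mem_group hr' _) (xg_mem_group hr _)
  · apply conj_of_eq
    have e2 : n * φ (lower (-d / 2) * upper d⁻¹) * n⁻¹ =
        φ (upper (c⁻¹ * (-d / 2)) * lower (c * d⁻¹)) := by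
      simp only [map_mul, hu, hl]
      rw [← h1, ← h1']
      group
    have e3 : nU cfG2.af F r hr12 d⁻¹ = φ (upper d⁻¹ * lower (-d) * upper d⁻¹) := by
      apply Units.ext
      simp only [map_mul, hu, hl, Units.val_mul, coe_xg cfG2.af hr12, coe_xg cfG2.af hr'12, coe_nU]
      simp [ChevalleyDatum.nMat, ChevalleyDatum.nWord, ChevalleyDatum.wordMat, hneg, mul_assoc]
    rw [e2, e3, ← map_mul, ← sl2_R hd h2 hc]

/-- The rank one twist: an element acting on `⟨X_r, X_{-r}⟩` as an antidiagonal matrix is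
conjugate to its product with `h_r(β)` for the values `β⁻¹` of the norm form. -/
theorem conjT {r r' : ℕ} (hr : r < 12) (hr12 : r < chevG2.nroots) (hneg : chevG2.neg r = r')
    {n : GL chevG2.Idx F} {a b c e β : F} (hc : c ≠ 0) (hβ : β ≠ 0)
    (hI : 1 + a * e = β * (1 + e * b)) (hII : c * ((1 + a * e) * b + a) = β * e)
    (h1 : ∀ t : F, n * xg cfG2.af F r t * n⁻¹ = xg cfG2.af F r' (c * t))
    (h1' : ∀ t : F, n * xg cfG2.af F r' t * n⁻¹ = xg cfG2.af F r (c⁻¹ * t)) :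
    ∃ g ∈ chevG2.group F, g * n * g⁻¹ = hU cfG2.af F r hr12 β * n := by
  have hr'12 : r' < chevG2.nroots := by rw [← hneg]; exact neg_lt cfG2.af hr12
  have hr' : r' < 12 := by rw [← nroots_eq]; exact hr'12
  obtain ⟨φ, hu, hl⟩ := exists_phi (F := F) hr hneg
  refine ⟨φ (upper a * lower e * upper b), ?_, ?_⟩
  · simp only [map_mul, hu, hl]
    exact Subgroup.mul_mem _ (Subgroup.mul_mem _ (xg_mem_group hr _) (xg_mem_group hr' _))
      (xg_mem_group hr _)
  · apply conj_of_eq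
    have e2 : n * φ (upper a * lower e * upper b) * n⁻¹ =
        φ (lower (c * a) * upper (c⁻¹ * e) * lower (c * b)) := by
      simp only [map_mul, hu, hl]
      rw [← h1 a, ← h1' e, ← h1 b]
      group
    have e3 : hU cfG2.af F r hr12 β =
        φ (upper β * lower (-β⁻¹) * upper β * (upper (-1) * lower 1 * upper (-1))) := by
      apply Units.ext
      simp only [map_mul, hu, hl, Units.val_mul, coe_xg cfG2.af hr12, coe_xg cfG2.af hr'12, coe_hU]
      simp [ChevalleyDatum.hMat, ChevalleyDatum.hWord, ChevalleyDatum.nWord,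
        ChevalleyDatum.wordMat, hneg, mul_assoc]
    rw [e2, e3, ← map_mul, ← sl2_T hc hβ hI hII]

end Cfsg.Agent.Lib.Helper36.OddG2d
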