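import Mathlib
import Cfsg.Agent.Lib.Helper36.OddG2d

set_option autoImplicit false
set_option linter.unusedSimpArgs false
set_option linter.unusedSectionVars false
set_option linter.unusedVariables false

namespace Cfsg.Agent.Lib.Helper36.OddG2e

open Cfsg Cfsg.Lie Cfsg.Agent.Lib.Helper18.Fast Cfsg.Agent.Lib.Helper18.Grade
  Cfsg.Agent.Lib.Helper18.Facts Cfsg.Agent.Lib.Helper18.AllRoots Cfsg.Agent.Lib.Helper18.Loop
  Cfsg.Agent.Lib.Helper18.Weyl Cfsg.Agent.Lib.Helper18.RootSys Cfsg.Agent.Lib.Helper18.Orbit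
  Cfsg.Agent.Lib.Helper18.Units Cfsg.Agent.Lib.Helper18.Sub Cfsg.Agent.Lib.Helper18.Norm
  Cfsg.Agent.Lib.Helper18.HAll Cfsg.Agent.Lib.Helper18.Torus Cfsg.Agent.Lib.Helper18.Pos
  Cfsg.Agent.Lib.Helper18.WGroup Cfsg.Agent.Lib.Helper18.BNChev Cfsg.Agent.Lib.Helper18.Mono
  Cfsg.Agent.Lib.Helper18.BNPairC Cfsg.Agent.Lib.Helper18 Cfsg.Agent.Lib.Helper36.OddG2a
  Cfsg.Agent.Lib.Helper36.OddG2b Cfsg.Agent.Lib.Helper36.OddG2c Cfsg.Agent.Lib.Helper36.OddG2d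

variable {F : Type*} [Field F]

/-! ### Table facts -/

set_option maxRecDepth 100000 in
theorem mul_tab : mulK 1 1 = 0 ∧ mulK 2 2 = 0 ∧ mulK 0 1 = 1 ∧ mulK 0 2 = 2 ∧ mulK 0 7 = 7 ∧
    mulK 1 7 = 6 ∧ mulK (mulK 1 3) 1 = 2 ∧ mulK (mulK 2 4) 2 = 1 ∧ mulK (mulK 1 5) 1 = 4 ∧
    mulK (mulK 2 6) 2 = 3 ∧ mulK 0 0 = 0 ∧ mulK (mulK 1 0) 1 = 0 ∧ mulK (mulK 2 0) 2 = 0 ∧
    mulK 1 0 = 1 ∧ mulK 2 0 = 2 ∧ mulK 1 3 = 8 ∧ mulK 2 4 = 9 ∧ mulK 1 5 = 10 ∧ mulK 2 6 = 11 := by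
  decide +kernel

theorem wl_tab : wl 1 7 = 4 ∧ wl 1 4 = 7 ∧ wl 1 8 = 9 ∧ wl 1 9 = 8 ∧ wl 2 6 = 5 ∧ wl 2 5 = 6 ∧
    wl 2 7 = 8 ∧ wl 2 8 = 7 ∧ wl 7 7 = 4 ∧ wl 7 4 = 7 ∧ wl 7 6 = 5 ∧ wl 7 5 = 6 ∧ wl 1 11 = 11 ∧
    wl 2 9 = 9 ∧ wl 2 11 = 10 := by decide +kernel

set_option maxRecDepth 100000 in
theorem E_tab : WTabG2.X.E 0 7 = -1 ∧ WTabG2.X.E 0 8 = 1 ∧ WTabG2.X.E 0 9 = -1 ∧
    WTabG2.X.E 1 6 = -1 ∧ WTabG2.X.E 1 7 = 1 ∧ WTabG2.X.E 1 8 = -1 := by decide +kernel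

set_option maxRecDepth 100000 in
theorem car_tab : carE FTabG2.fd 0 4 = -2 ∧ carE FTabG2.fd 1 4 = 1 ∧ carE FTabG2.fd 0 8 = -1 ∧
    carE FTabG2.fd 1 8 = 1 ∧ carE FTabG2.fd 0 9 = 1 ∧ carE FTabG2.fd 1 9 = 0 ∧
    carE FTabG2.fd 0 7 = 2 ∧ carE FTabG2.fd 1 7 = -1 ∧ carE FTabG2.fd 0 5 = 3 ∧
    carE FTabG2.fd 1 5 = -2 ∧ carE FTabG2.fd 0 11 = 0 ∧ carE FTabG2.fd 1 11 = 1 ∧
    carE FTabG2.fd 0 10 = 3 ∧ carE FTabG2.fd 1 10 = -1 := by decide +kernel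

set_option maxRecDepth 100000 in
theorem misc_tab : chevG2.neg 7 = 4 ∧ chevG2.neg 6 = 5 ∧ FTabG2.fd.simple 0 = 7 ∧
    FTabG2.fd.simple 1 = 6 ∧ pairE FTabG2.fd 6 4 = 1 := by decide +kernel

theorem chi_eval (c₀ : ℕ → F) (r : ℕ) :
    chi FTabG2.fd c₀ r = c₀ 0 ^ carE FTabG2.fd 0 r * c₀ 1 ^ carE FTabG2.fd 1 r := by
  unfold chi chiN
  rw [Arank_eq, Finset.prod_range_succ, Finset.prod_range_succ, Finset.prod_range_zero, one_mul]

/-! ### Uniqueness of the constants -/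

theorem xg_inj {r : ℕ} (hr : r < 12) {a b : F} (h : xg cfG2.af F r a = xg cfG2.af F r b) : a = b := by
  by_contra hne
  have h1 : xg cfG2.af F r (a - b) = 1 := by
    rw [sub_eq_add_neg, xg_add hadd, xg_neg hadd, h, mul_inv_cancel]
  exact xg_ne_one hr (sub_ne_zero.mpr hne) h1

theorem const_unique {n : GL chevG2.Idx F} {k : ℕ} (hk : k < 12) {c c' : ℕ → F} (h : ActsK n k c)
    (h' : ActsK n k c') {r : ℕ} (hr : r < 12) : c r = c' r := by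
  have h1 := (h r hr).2 1
  rw [(h' r hr).2 1, mul_one, mul_one] at h1
  exact (xg_inj (wl_lt k hk r hr) h1).symm

/-- For an involution acting through `k`, the constants at a pair of exchanged roots are
inverse to each other. -/
theorem const_inv {n : GL chevG2.Idx F} (h2 : n * n = 1) {k : ℕ} (hk : k < 12) {c : ℕ → F}
    (h : ActsK n k c) {r r' : ℕ} (hr : r < 12) (hr' : r' < 12) (e : wl k r = r') (e' : wl k r' = r) :
    c r' * c r = 1 := by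
  have hinv : n⁻¹ = n := inv_eq_of_mul_eq_one_left h2
  have h1 := (h r hr).2 1
  rw [e, mul_one] at h1
  have h3 := (h r' hr').2 (c r)
  rw [e', ← h1] at h3
  have h4 : n * (n * xg cfG2.af F r 1 * n⁻¹) * n⁻¹ = xg cfG2.af F r 1 := by
    rw [hinv]
    calc n * (n * xg cfG2.af F r 1 * n) * n = (n * n) * xg cfG2.af F r 1 * (n * n) := by group
      _ = xg cfG2.af F r 1 := by rw [h2, one_mul, mul_one]
  rw [h4] at h3
  exact (xg_inj hr h3).symm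

theorem acts_inv {n : GL chevG2.Idx F} (h2 : n * n = 1) {k : ℕ} (hk : k < 12) {c : ℕ → F}
    (h : ActsK n k c) {r r' : ℕ} (hr : r < 12) (hr' : r' < 12) (e : wl k r = r') (e' : wl k r' = r) :
    (∀ t : F, n * xg cfG2.af F r t * n⁻¹ = xg cfG2.af F r' (c r * t)) ∧
    (∀ t : F, n * xg cfG2.af F r' t * n⁻¹ = xg cfG2.af F r ((c r)⁻¹ * t)) := by
  have h1 := const_inv h2 hk h hr hr' e e'
  have h3 : c r' = (c r)⁻¹ := eq_inv_of_mul_eq_one_left h1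
  refine ⟨fun t => ?_, fun t => ?_⟩
  · rw [(h r hr).2 t, e]
  · rw [(h r' hr').2 t, e', h3]

/-! ### Elements of `N` -/

theorem ng_mem (i : ℕ) (hi : i < 2) : ng cfG2.af F i ∈ chevG2.monomialSubgroup F := by
  rw [ng_eq cfG2.af (by rw [Arank_eq]; exact hi)]
  exact nU_one_mem cfG2.af _ _

theorem nU7 (h7 : 7 < chevG2.nroots) : nU cfG2.af F 7 h7 1 = ng cfG2.af F 0 := by
  apply Units.ext
  rw [coe_nU, coe_ng cfG2.af (by rw [Arank_eq]; norm_num), misc_tab.2.2.1]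

theorem nU6 (h6 : 6 < chevG2.nroots) : nU cfG2.af F 6 h6 1 = ng cfG2.af F 1 := by
  apply Units.ext
  rw [coe_nU, coe_ng cfG2.af (by rw [Arank_eq]; norm_num), misc_tab.2.2.2.1]

theorem actsK_hU {r : ℕ} (hr : r < chevG2.nroots) {β : F} (hβ : β ≠ 0) :
    ActsK (hU cfG2.af F r hr β) 0 (fun s => β ^ pairE FTabG2.fd r s) := by
  intro s hs
  have hs' : s < chevG2.nroots := by rw [nroots_eq]; exact hs
  refine ⟨zpow_ne_zero _ hβ, fun t => ?_⟩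
  rw [wl_zero s hs, mul_inv_eq_iff_eq_mul]
  apply Units.ext
  rw [Units.val_mul, Units.val_mul, coe_hU, coe_xg cfG2.af hs', coe_xg cfG2.af hs']
  exact Cfsg.Agent.Lib.Helper19.SL2Chev.hMat_mul_x cfG2.af hr hs' hβ t

/-! ### The simple reflections -/

/-- For an involution of `N` acting through the reflection in the short simple root, the
constant at that root is a square. -/
theorem sq0 {n : GL chevG2.Idx F} (hn : n ∈ chevG2.monomialSubgroup F) (h2 : n * n = 1)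
    {c : ℕ → F} (h : ActsK n 1 c) : ∃ d : F, d ≠ 0 ∧ c 7 = d ^ 2 := by
  have hm : n * (ng cfG2.af F 0)⁻¹ ∈ chevG2.monomialSubgroup F :=
    Subgroup.mul_mem _ hn (Subgroup.inv_mem _ (ng_mem 0 (by norm_num)))
  have ha := actsK_mul (by norm_num) (by norm_num) h (actsK_ng0_inv (F := F))
  rw [mul_tab.1] at ha
  have hH := mem_H_of_acts0 hm ha
  obtain ⟨c₀, hc₀, e, hact⟩ := actsK_H hH
  have hb := actsK_mul (by norm_num) (by norm_num) hact (actsK_ng0 (F := F))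
  rw [inv_mul_cancel_right, mul_tab.2.2.1] at hb
  have k7 := const_unique (by norm_num) h hb (r := 7) (by norm_num)
  have k8 := const_unique (by norm_num) h hb (r := 8) (by norm_num)
  have k9 := const_unique (by norm_num) h hb (r := 9) (by norm_num)
  have hinv := const_inv h2 (by norm_num) h (r := 8) (r' := 9) (by norm_num) (by norm_num)
    wl_tab.2.2.1 wl_tab.2.2.2.1
  rw [k8, k9] at hinv
  simp only [wl_tab.1, wl_tab.2.2.1, wl_tab.2.2.2.1, E_tab.1, E_tab.2.1, E_tab.2.2.1, chi_eval,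
    car_tab.1, car_tab.2.1, car_tab.2.2.1, car_tab.2.2.2.1, car_tab.2.2.2.2.1,
    car_tab.2.2.2.2.2.1, zpow_neg, zpow_one, zpow_zero, zpow_ofNat, Int.cast_neg, Int.cast_one,
    mul_one, mul_neg, neg_mul] at hinv k7
  have hp : c₀ 0 ≠ 0 := hc₀ 0
  have hq : c₀ 1 ≠ 0 := hc₀ 1
  have hq1 : c₀ 1 = -1 := by
    field_simp at hinv
    linear_combination (-1 : F) * hinv
  refine ⟨(c₀ 0)⁻¹, inv_ne_zero hp, ?_⟩
  rw [k7, hq1]
  field_simp

/-- For an involution of `N` acting through the reflection in the long simple root, the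
constant at that root is a square. -/
theorem sq1 {n : GL chevG2.Idx F} (hn : n ∈ chevG2.monomialSubgroup F) (h2 : n * n = 1)
    {c : ℕ → F} (h : ActsK n 2 c) : ∃ d : F, d ≠ 0 ∧ c 6 = d ^ 2 := by
  have hm : n * (ng cfG2.af F 1)⁻¹ ∈ chevG2.monomialSubgroup F :=
    Subgroup.mul_mem _ hn (Subgroup.inv_mem _ (ng_mem 1 (by norm_num)))
  have ha := actsK_mul (by norm_num) (by norm_num) h (actsK_ng1_inv (F := F))
  rw [mul_tab.2.1] at ha
  have hH := mem_H_of_acts0 hm ha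
  obtain ⟨c₀, hc₀, e, hact⟩ := actsK_H hH
  have hb := actsK_mul (by norm_num) (by norm_num) hact (actsK_ng1 (F := F))
  rw [inv_mul_cancel_right, mul_tab.2.2.2.1] at hb
  have k6 := const_unique (by norm_num) h hb (r := 6) (by norm_num)
  have k7 := const_unique (by norm_num) h hb (r := 7) (by norm_num)
  have k8 := const_unique (by norm_num) h hb (r := 8) (by norm_num)
  obtain ⟨-, -, -, -, w5, -, w7, w8, -⟩ := wl_tab
  obtain ⟨-, -, -, e4, e5, e6⟩ := E_tab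
  obtain ⟨-, -, c3, c4, -, -, c7, c8, c9, c10, -⟩ := car_tab
  have hinv := const_inv h2 (by norm_num) h (r := 7) (r' := 8) (by norm_num) (by norm_num) w7 w8
  rw [k7, k8] at hinv
  simp only [w5, w7, w8, e4, e5, e6, chi_eval, c3, c4, c7, c8, c9, c10, zpow_neg, zpow_one,
    zpow_zero, zpow_ofNat, Int.cast_neg, Int.cast_one, mul_one, mul_neg, neg_mul] at hinv k6
  have hp : c₀ 0 ≠ 0 := hc₀ 0
  have hq : c₀ 1 ≠ 0 := hc₀ 1
  have hp1 : c₀ 0 = -1 := by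
    field_simp at hinv
    linear_combination (-1 : F) * hinv
  refine ⟨(c₀ 1)⁻¹, inv_ne_zero hq, ?_⟩
  rw [k6, hp1]
  field_simp

/-- The involutions of `N` acting through the `k`-th element of the Weyl group are conjugate
into `H`. -/
def Red (F : Type*) [Field F] (k : ℕ) : Prop :=
  ∀ n ∈ chevG2.monomialSubgroup F, n * n = 1 → ∀ c : ℕ → F, ActsK n k c →
    ∃ g ∈ chevG2.group F, g * n * g⁻¹ ∈ chevG2.diagonalSubgroup F

theorem red0 : Red F 0 := by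
  intro n hn _ c h
  refine ⟨1, Subgroup.one_mem _, ?_⟩
  rw [one_mul, inv_one, mul_one]
  exact mem_H_of_acts0 hn h

theorem red1 (h2F : (2 : F) ≠ 0) : Red F 1 := by
  intro n hn h2 c h
  obtain ⟨d, hd, hc⟩ := sq0 hn h2 h
  obtain ⟨w1, w2, -⟩ := wl_tab
  obtain ⟨h1, h1'⟩ := acts_inv h2 (by norm_num) h (r := 7) (r' := 4) (by norm_num) (by norm_num)
    w1 w2
  have h7 : 7 < chevG2.nroots := by rw [nroots_eq]; norm_num
  obtain ⟨g, hg, e⟩ := conjR (by norm_num) h7 misc_tab.1 hd h2F hc h1 h1'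
  refine ⟨g, hg, ?_⟩
  rw [e, nU_eq, nU7]
  have hd' : d⁻¹ ≠ 0 := inv_ne_zero hd
  have a1 := actsK_mul (by norm_num) (by norm_num) (actsK_hU h7 hd') (actsK_ng0 (F := F))
  rw [mul_tab.2.2.1] at a1
  have a2 := actsK_mul (by norm_num) (by norm_num) a1 h
  rw [mul_tab.1] at a2
  exact mem_H_of_acts0 (Subgroup.mul_mem _ (Subgroup.mul_mem _
    (Subgroup.mem_sup_left (hU_mem cfG2.af 7 h7 hd')) (ng_mem 0 (by norm_num))) hn) a2

theorem red2 (h2F : (2 : F) ≠ 0) : Red F 2 := by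
  intro n hn h2 c h
  obtain ⟨d, hd, hc⟩ := sq1 hn h2 h
  obtain ⟨-, -, -, -, w5, w6, -⟩ := wl_tab
  obtain ⟨h1, h1'⟩ := acts_inv h2 (by norm_num) h (r := 6) (r' := 5) (by norm_num) (by norm_num)
    w5 w6
  have h6 : 6 < chevG2.nroots := by rw [nroots_eq]; norm_num
  obtain ⟨g, hg, e⟩ := conjR (by norm_num) h6 misc_tab.2.1 hd h2F hc h1 h1'
  refine ⟨g, hg, ?_⟩
  rw [e, nU_eq, nU6]
  have hd' : d⁻¹ ≠ 0 := inv_ne_zero hd
  have a1 := actsK_mul (by norm_num) (by norm_num) (actsK_hU h6 hd') (actsK_ng1 (F := F))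
  rw [mul_tab.2.2.2.1] at a1
  have a2 := actsK_mul (by norm_num) (by norm_num) a1 h
  rw [mul_tab.2.1] at a2
  exact mem_H_of_acts0 (Subgroup.mul_mem _ (Subgroup.mul_mem _
    (Subgroup.mem_sup_left (hU_mem cfG2.af 6 h6 hd')) (ng_mem 1 (by norm_num))) hn) a2

theorem conj_sq {G : Type*} [Group G] {a n : G} (h2 : n * n = 1) :
    a * n * a⁻¹ * (a * n * a⁻¹) = 1 := by
  have e : a * n * a⁻¹ * (a * n * a⁻¹) = a * (n * n) * a⁻¹ := by group
  rw [e, h2]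
  group

theorem red_conj0 {k k' : ℕ} (hk : k < 12) (e : mulK (mulK 1 k) 1 = k') (h : Red F k') :
    Red F k := by
  intro n hn h2 c hact
  have a1 := actsK_mul (by norm_num) hk (actsK_ng0 (F := F)) hact
  have a2 := actsK_mul (mulK_ok 1 (by norm_num) k hk).1 (by norm_num) a1 (actsK_ng0_inv (F := F))
  rw [e] at a2
  have hn' : ng cfG2.af F 0 * n * (ng cfG2.af F 0)⁻¹ ∈ chevG2.monomialSubgroup F :=
    Subgroup.mul_mem _ (Subgroup.mul_mem _ (ng_mem 0 (by norm_num)) hn)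
      (Subgroup.inv_mem _ (ng_mem 0 (by norm_num)))
  obtain ⟨g, hg, hH⟩ := h _ hn' (conj_sq h2) _ a2
  refine ⟨g * ng cfG2.af F 0,
    Subgroup.mul_mem _ hg (monomialSubgroup_le cfG2.af F (ng_mem 0 (by norm_num))), ?_⟩
  have e3 : g * ng cfG2.af F 0 * n * (g * ng cfG2.af F 0)⁻¹ =
      g * (ng cfG2.af F 0 * n * (ng cfG2.af F 0)⁻¹) * g⁻¹ := by group
  rw [e3]
  exact hH

theorem red_conj1 {k k' : ℕ} (hk : k < 12) (e : mulK (mulK 2 k) 2 = k') (h : Red F k') :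
    Red F k := by
  intro n hn h2 c hact
  have a1 := actsK_mul (by norm_num) hk (actsK_ng1 (F := F)) hact
  have a2 := actsK_mul (mulK_ok 2 (by norm_num) k hk).1 (by norm_num) a1 (actsK_ng1_inv (F := F))
  rw [e] at a2
  have hn' : ng cfG2.af F 1 * n * (ng cfG2.af F 1)⁻¹ ∈ chevG2.monomialSubgroup F :=
    Subgroup.mul_mem _ (Subgroup.mul_mem _ (ng_mem 1 (by norm_num)) hn)
      (Subgroup.inv_mem _ (ng_mem 1 (by norm_num)))
  obtain ⟨g, hg, hH⟩ := h _ hn' (conj_sq h2) _ a2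
  refine ⟨g * ng cfG2.af F 1,
    Subgroup.mul_mem _ hg (monomialSubgroup_le cfG2.af F (ng_mem 1 (by norm_num))), ?_⟩
  have e3 : g * ng cfG2.af F 1 * n * (g * ng cfG2.af F 1)⁻¹ =
      g * (ng cfG2.af F 1 * n * (ng cfG2.af F 1)⁻¹) * g⁻¹ := by group
  rw [e3]
  exact hH

end Cfsg.Agent.Lib.Helper36.OddG2e
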