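import Mathlib
import Cfsg.Agent.Lib.Helper36.OddG2e

set_option autoImplicit false
set_option linter.unusedSimpArgs false
set_option linter.unusedSectionVars false
set_option linter.unusedVariables false

namespace Cfsg.Agent.Lib.Helper36.OddG2f

open Cfsg Cfsg.Lie Cfsg.Agent.Lib.Helper18.Fast Cfsg.Agent.Lib.Helper18.Grade
  Cfsg.Agent.Lib.Helper18.Facts Cfsg.Agent.Lib.Helper18.AllRoots Cfsg.Agent.Lib.Helper18.Loop
  Cfsg.Agent.Lib.Helper18.Weyl Cfsg.Agent.Lib.Helper18.RootSys Cfsg.Agent.Lib.Helper18.Orbit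
  Cfsg.Agent.Lib.Helper18.Units Cfsg.Agent.Lib.Helper18.Sub Cfsg.Agent.Lib.Helper18.Norm
  Cfsg.Agent.Lib.Helper18.HAll Cfsg.Agent.Lib.Helper18.Torus Cfsg.Agent.Lib.Helper18.Pos
  Cfsg.Agent.Lib.Helper18.WGroup Cfsg.Agent.Lib.Helper18.BNChev Cfsg.Agent.Lib.Helper18.Mono
  Cfsg.Agent.Lib.Helper18.BNPairC Cfsg.Agent.Lib.Helper18 Cfsg.Agent.Lib.Helper36.OddG2a
  Cfsg.Agent.Lib.Helper36.OddG2b Cfsg.Agent.Lib.Helper36.OddG2c Cfsg.Agent.Lib.Helper36.OddG2d
  Cfsg.Agent.Lib.Helper36.OddG2e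

variable {F : Type*} [Field F]

/-- The norm form `x² - c y²` represents every element of a finite field of odd order. -/
theorem exists_norm [Fintype F] (hodd : Fintype.card F % 2 = 1) {c : F} (hc : c ≠ 0) (v : F) :
    ∃ x y : F, x ^ 2 - c * y ^ 2 = v := by
  have hf : (Polynomial.X ^ 2 - Polynomial.C v : Polynomial F).degree = 2 :=
    Polynomial.degree_X_pow_sub_C (by norm_num) v
  have hg : (Polynomial.C (-c) * Polynomial.X ^ 2 : Polynomial F).degree = 2 :=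
    Polynomial.degree_C_mul_X_pow 2 (neg_ne_zero.mpr hc)
  obtain ⟨x, y, h⟩ := FiniteField.exists_root_sum_quadratic hf hg hodd
  refine ⟨x, y, ?_⟩
  simp only [Polynomial.eval_sub, Polynomial.eval_pow, Polynomial.eval_X, Polynomial.eval_C,
    Polynomial.eval_mul] at h
  linear_combination h

/-- The case of the longest element when the constant at the short simple root is a square. -/
theorem red7_sq (h2F : (2 : F) ≠ 0) (h6 : Red F 6) {n : GL chevG2.Idx F}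
    (hn : n ∈ chevG2.monomialSubgroup F) (h2 : n * n = 1) {c : ℕ → F} (h : ActsK n 7 c)
    {d : F} (hd : d ≠ 0) (hc : c 7 = d ^ 2) :
    ∃ g ∈ chevG2.group F, g * n * g⁻¹ ∈ chevG2.diagonalSubgroup F := by
  obtain ⟨-, -, -, -, -, -, -, -, w9, w10, -⟩ := wl_tab
  obtain ⟨h1, h1'⟩ := acts_inv h2 (by norm_num) h (r := 7) (r' := 4) (by norm_num) (by norm_num)
    w9 w10
  have h7 : 7 < chevG2.nroots := by rw [nroots_eq]; norm_num
  obtain ⟨g, hg, e⟩ := conjR (by norm_num) h7 misc_tab.1 hd h2F hc h1 h1'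
  have hd' : d⁻¹ ≠ 0 := inv_ne_zero hd
  have a1 := actsK_mul (by norm_num) (by norm_num) (actsK_hU h7 hd') (actsK_ng0 (F := F))
  rw [mul_tab.2.2.1] at a1
  have a2 := actsK_mul (by norm_num) (by norm_num) a1 h
  rw [mul_tab.2.2.2.2.2.1] at a2
  have hm : hU cfG2.af F 7 h7 d⁻¹ * ng cfG2.af F 0 * n ∈ chevG2.monomialSubgroup F :=
    Subgroup.mul_mem _ (Subgroup.mul_mem _
      (Subgroup.mem_sup_left (hU_mem cfG2.af 7 h7 hd')) (ng_mem 0 (by norm_num))) hn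
  have e' : g * n * g⁻¹ = hU cfG2.af F 7 h7 d⁻¹ * ng cfG2.af F 0 * n := by
    rw [e, nU_eq, nU7]
  have hsq : hU cfG2.af F 7 h7 d⁻¹ * ng cfG2.af F 0 * n *
      (hU cfG2.af F 7 h7 d⁻¹ * ng cfG2.af F 0 * n) = 1 := by
    rw [← e']
    exact conj_sq h2
  obtain ⟨g', hg', hH⟩ := h6 _ hm hsq _ a2
  refine ⟨g' * g, Subgroup.mul_mem _ hg' hg, ?_⟩
  have e3 : g' * g * n * (g' * g)⁻¹ = g' * (g * n * g⁻¹) * g'⁻¹ := by group
  rw [e3, e']
  exact hH

theorem red7 [Fintype F] (hodd : Fintype.card F % 2 = 1) (h2F : (2 : F) ≠ 0) (h6 : Red F 6) :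
    Red F 7 := by
  intro n hn h2 c h
  by_cases hsq : ∃ d : F, d ≠ 0 ∧ c 7 = d ^ 2
  · obtain ⟨d, hd, hc⟩ := hsq
    exact red7_sq h2F h6 hn h2 h hd hc
  · have hβ : c 7 ≠ 0 := (h 7 (by norm_num)).1
    have hc6 : c 6 ≠ 0 := (h 6 (by norm_num)).1
    obtain ⟨x, y, hxy⟩ := exists_norm hodd hc6 (c 7)⁻¹
    have hy : y ≠ 0 := by
      rintro rfl
      apply hsq
      have hx : x ≠ 0 := by
        rintro rfl
        simp at hxy
        exact hβ hxy.symm
      refine ⟨x⁻¹, inv_ne_zero hx, ?_⟩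
      have : x ^ 2 = (c 7)⁻¹ := by linear_combination hxy
      rw [inv_pow, this, inv_inv]
    have hxy' : c 7 * x ^ 2 - 1 = c 7 * c 6 * y ^ 2 := by
      have : c 7 * (x ^ 2 - c 6 * y ^ 2) = 1 := by rw [hxy]; exact mul_inv_cancel₀ hβ
      linear_combination this
    obtain ⟨-, -, -, -, -, -, -, -, w9, w10, w11, w12, -⟩ := wl_tab
    obtain ⟨h1, h1'⟩ := acts_inv h2 (by norm_num) h (r := 6) (r' := 5) (by norm_num) (by norm_num)
      w11 w12
    have h6' : 6 < chevG2.nroots := by rw [nroots_eq]; norm_num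
    have hI : 1 + (c 7 * x - 1) / (c 6 * y) * (c 6 * y) =
        c 7 * (1 + c 6 * y * ((x - 1) / (c 6 * y))) := by
      field_simp
      ring
    have hII : c 6 * ((1 + (c 7 * x - 1) / (c 6 * y) * (c 6 * y)) * ((x - 1) / (c 6 * y)) +
        (c 7 * x - 1) / (c 6 * y)) = c 7 * (c 6 * y) := by
      field_simp
      linear_combination hxy'
    obtain ⟨g, hg, e⟩ := conjT (by norm_num) h6' misc_tab.2.1 hc6 hβ hI hII h1 h1'
    have a1 := actsK_mul (by norm_num) (by norm_num) (actsK_hU h6' hβ) h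
    rw [mul_tab.2.2.2.2.1] at a1
    have hm : hU cfG2.af F 6 h6' (c 7) * n ∈ chevG2.monomialSubgroup F :=
      Subgroup.mul_mem _ (Subgroup.mem_sup_left (hU_mem cfG2.af 6 h6' hβ)) hn
    have hsq' : hU cfG2.af F 6 h6' (c 7) * n * (hU cfG2.af F 6 h6' (c 7) * n) = 1 := by
      rw [← e]
      exact conj_sq h2
    have hc' : (fun r => c 7 ^ pairE FTabG2.fd 6 (wl 7 r) * c r) 7 = (c 7) ^ 2 := by
      show c 7 ^ pairE FTabG2.fd 6 (wl 7 7) * c 7 = (c 7) ^ 2
      rw [w9, misc_tab.2.2.2.2, zpow_one]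
      ring
    obtain ⟨g', hg', hH⟩ := red7_sq h2F h6 hm hsq' a1 hβ hc'
    refine ⟨g' * g, Subgroup.mul_mem _ hg' hg, ?_⟩
    have e3 : g' * g * n * (g' * g)⁻¹ = g' * (g * n * g⁻¹) * g'⁻¹ := by group
    rw [e3, e]
    exact hH

theorem red_all [Fintype F] (hodd : Fintype.card F % 2 = 1) (h2F : (2 : F) ≠ 0) :
    ∀ k ≤ 7, Red F k := by
  have r0 : Red F 0 := red0
  have r1 : Red F 1 := red1 h2F
  have r2 : Red F 2 := red2 h2F
  obtain ⟨-, -, -, -, -, -, m7, m8, m9, m10, -⟩ := mul_tab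
  have r3 : Red F 3 := red_conj0 (by norm_num) m7 r2
  have r4 : Red F 4 := red_conj1 (by norm_num) m8 r1
  have r5 : Red F 5 := red_conj0 (by norm_num) m9 r4
  have r6 : Red F 6 := red_conj1 (by norm_num) m10 r3
  have r7 : Red F 7 := red7 hodd h2F r6
  intro k hk
  interval_cases k <;> assumption

end Cfsg.Agent.Lib.Helper36.OddG2f
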