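import Mathlib
import Cfsg.Agent.Lib.Helper36.OddG2f

set_option autoImplicit false
set_option linter.unusedSimpArgs false
set_option linter.unusedSectionVars false
set_option linter.unusedVariables false

namespace Cfsg.Agent.Lib.Helper36.OddG2g

open Cfsg Cfsg.Lie Cfsg.Agent.Lib.Helper18.Fast Cfsg.Agent.Lib.Helper18.Grade
  Cfsg.Agent.Lib.Helper18.Facts Cfsg.Agent.Lib.Helper18.AllRoots Cfsg.Agent.Lib.Helper18.Loop
  Cfsg.Agent.Lib.Helper18.Weyl Cfsg.Agent.Lib.Helper18.RootSys Cfsg.Agent.Lib.Helper18.Orbit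
  Cfsg.Agent.Lib.Helper18.Units Cfsg.Agent.Lib.Helper18.Sub Cfsg.Agent.Lib.Helper18.Norm
  Cfsg.Agent.Lib.Helper18.HAll Cfsg.Agent.Lib.Helper18.Torus Cfsg.Agent.Lib.Helper18.Pos
  Cfsg.Agent.Lib.Helper18.WGroup Cfsg.Agent.Lib.Helper18.BNChev Cfsg.Agent.Lib.Helper18.Mono
  Cfsg.Agent.Lib.Helper18.BNPairC Cfsg.Agent.Lib.Helper18 Cfsg.Agent.Lib.Helper36.OddG2a
  Cfsg.Agent.Lib.Helper36.OddG2b Cfsg.Agent.Lib.Helper36.OddG2c Cfsg.Agent.Lib.Helper36.OddG2d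
  Cfsg.Agent.Lib.Helper36.OddG2e Cfsg.Agent.Lib.Helper36.OddG2f

variable {F : Type*} [Field F]

set_option maxRecDepth 100000 in
theorem tab2 : WTabG2.X.E 0 8 = 1 ∧ WTabG2.X.E 0 11 = 1 ∧ WTabG2.X.E 1 9 = 1 ∧
    WTabG2.X.E 1 10 = 1 ∧ WTabG2.X.W 0 9 = 8 ∧ WTabG2.X.W 0 11 = 11 ∧ WTabG2.X.W 1 9 = 9 ∧
    WTabG2.X.W 1 11 = 10 ∧ wl 0 8 = 8 ∧ wl 0 9 = 9 ∧ wl 0 10 = 10 ∧ wl 0 11 = 11 ∧ wl 1 9 = 8 ∧
    wl 1 11 = 11 ∧ wl 2 9 = 9 ∧ wl 2 11 = 10 := by decide +kernel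

theorem tor_eq_of {c₀ c₁ : ℕ → F} (h0 : c₀ 0 = c₁ 0) (h1 : c₀ 1 = c₁ 1) :
    tor chevG2 FTabG2.fd c₀ = tor chevG2 FTabG2.fd c₁ := by
  apply tor_congr
  intro i hi
  rw [Arank_eq] at hi
  interval_cases i
  · exact h0
  · exact h1

/-- An involution of `H` is conjugate to the element with parameters `(-1, -1)`. -/
theorem H_invol {z : GL chevG2.Idx F} (hz : z ∈ chevG2.diagonalSubgroup F) (h2 : z * z = 1)
    (h1 : z ≠ 1) :
    ∃ g ∈ chevG2.group F, ((g * z * g⁻¹ : GL chevG2.Idx F) : Matrix chevG2.Idx chevG2.Idx F) =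
      tor chevG2 FTabG2.fd (fun _ => (-1 : F)) := by
  obtain ⟨c₀, hc₀, e, hact⟩ := actsK_H hz
  obtain ⟨e08, e011, e19, e110, W09, W011, W19, W111, l08, l09, l010, l011, l19, l111, l29, l211⟩ :=
    tab2
  obtain ⟨-, -, c3, c4, c5, c6, -, -, -, -, c11, c12, c13, c14⟩ := car_tab
  obtain ⟨m1, m2, -, -, -, -, -, -, -, -, -, -, -, m14, m15, -⟩ := mul_tab
  have hp := const_inv h2 (by norm_num) hact (r := 9) (r' := 9) (by norm_num) (by norm_num) l09 l09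
  have hq := const_inv h2 (by norm_num) hact (r := 11) (r' := 11) (by norm_num) (by norm_num)
    l011 l011
  simp only [chi_eval, c5, c6, c11, c12, zpow_one, zpow_zero, mul_one, one_mul] at hp hq
  rcases mul_self_eq_one_iff.mp hp with p1 | p1 <;> rcases mul_self_eq_one_iff.mp hq with q1 | q1
  · exfalso
    apply h1
    apply Units.ext
    rw [e, tor_eq_of (c₁ := fun _ => (1 : F)) p1 q1, tor_one]
    rfl
  · -- parameters `(1, -1)`: conjugate by `n_0`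
    have a1 := actsK_mul (by norm_num) (by norm_num) (actsK_ng0 (F := F)) hact
    rw [m14] at a1
    have a2 := actsK_mul (by norm_num) (by norm_num) a1 (actsK_ng0_inv (F := F))
    rw [m1] at a2
    have hz' : ng cfG2.af F 0 * z * (ng cfG2.af F 0)⁻¹ ∈ chevG2.diagonalSubgroup F :=
      mem_H_of_acts0 (Subgroup.mul_mem _ (Subgroup.mul_mem _ (ng_mem 0 (by norm_num))
        (Subgroup.mem_sup_left hz)) (Subgroup.inv_mem _ (ng_mem 0 (by norm_num)))) a2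
    obtain ⟨c₁, hc₁, e1, hact1⟩ := actsK_H hz'
    have k9 := const_unique (by norm_num) hact1 a2 (r := 9) (by norm_num)
    have k11 := const_unique (by norm_num) hact1 a2 (r := 11) (by norm_num)
    simp only [chi_eval, c3, c4, c5, c6, c11, c12, l19, l111, l08, l011, e08, e011, W09, W011,
      p1, q1, zpow_neg, zpow_one, zpow_zero, Int.cast_one, mul_one, one_mul, inv_one] at k9 k11
    refine ⟨ng cfG2.af F 0, monomialSubgroup_le cfG2.af F (ng_mem 0 (by norm_num)), ?_⟩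
    rw [e1]
    exact tor_eq_of k9 k11
  · -- parameters `(-1, 1)`: conjugate by `n_1`
    have a1 := actsK_mul (by norm_num) (by norm_num) (actsK_ng1 (F := F)) hact
    rw [m15] at a1
    have a2 := actsK_mul (by norm_num) (by norm_num) a1 (actsK_ng1_inv (F := F))
    rw [m2] at a2
    have hz' : ng cfG2.af F 1 * z * (ng cfG2.af F 1)⁻¹ ∈ chevG2.diagonalSubgroup F :=
      mem_H_of_acts0 (Subgroup.mul_mem _ (Subgroup.mul_mem _ (ng_mem 1 (by norm_num))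
        (Subgroup.mem_sup_left hz)) (Subgroup.inv_mem _ (ng_mem 1 (by norm_num)))) a2
    obtain ⟨c₁, hc₁, e1, hact1⟩ := actsK_H hz'
    have k9 := const_unique (by norm_num) hact1 a2 (r := 9) (by norm_num)
    have k11 := const_unique (by norm_num) hact1 a2 (r := 11) (by norm_num)
    simp only [chi_eval, c5, c6, c11, c12, c13, c14, l29, l211, l09, l010, e19, e110, W19, W111,
      p1, q1, zpow_neg, zpow_one, zpow_zero, zpow_ofNat, Int.cast_one, mul_one, one_mul,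
      inv_one] at k9 k11
    refine ⟨ng cfG2.af F 1, monomialSubgroup_le cfG2.af F (ng_mem 1 (by norm_num)), ?_⟩
    rw [e1]
    have k9' : c₁ 0 = -1 := by
      have h := k9
      norm_num at h
      exact h
    have k11' : c₁ 1 = -1 := by
      have h := k11
      norm_num at h
      exact h
    exact tor_eq_of k9' k11'
  · refine ⟨1, Subgroup.one_mem _, ?_⟩
    rw [one_mul, inv_one, mul_one, e]
    exact tor_eq_of p1 q1

/-- Every involution of `G₂(q)`, `q` odd, is conjugate to the element of `H` with parameters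
`(-1, -1)`. -/
theorem invol_conj [Fintype F] (hodd : Odd (Fintype.card F)) {t : GL chevG2.Idx F}
    (ht : t ∈ chevG2.group F) (h2 : t * t = 1) (h1 : t ≠ 1) :
    ∃ g ∈ chevG2.group F, ((g * t * g⁻¹ : GL chevG2.Idx F) : Matrix chevG2.Idx chevG2.Idx F) =
      tor chevG2 FTabG2.fd (fun _ => (-1 : F)) := by
  have hodd' : Fintype.card F % 2 = 1 := Nat.odd_iff.mp hodd
  have h2F : (2 : F) ≠ 0 := by
    apply Ring.two_ne_zero
    intro hch
    have := FiniteField.even_card_of_char_two hch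
    omega
  obtain ⟨g₁, hg₁, hN⟩ := conj_into_N hodd ht h2
  obtain ⟨k, hk, c, hact⟩ := exists_actsK hN
  have hsq := conj_sq (a := g₁) h2
  have hk7 := le_seven hsq hk hact
  obtain ⟨g₂, hg₂, hH⟩ := red_all hodd' h2F k hk7 _ hN hsq c hact
  have hsq2 := conj_sq (a := g₂) hsq
  have hne : g₂ * (g₁ * t * g₁⁻¹) * g₂⁻¹ ≠ 1 := by
    intro h
    apply h1
    have e3 : t = g₁⁻¹ * (g₂⁻¹ * (g₂ * (g₁ * t * g₁⁻¹) * g₂⁻¹) * g₂) * g₁ := by group
    rw [e3, h]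
    group
  obtain ⟨g₃, hg₃, e⟩ := H_invol hH hsq2 hne
  refine ⟨g₃ * g₂ * g₁, Subgroup.mul_mem _ (Subgroup.mul_mem _ hg₃ hg₂) hg₁, ?_⟩
  have e4 : g₃ * g₂ * g₁ * t * (g₃ * g₂ * g₁)⁻¹ = g₃ * (g₂ * (g₁ * t * g₁⁻¹) * g₂⁻¹) * g₃⁻¹ := by
    group
  rw [e4]
  exact e

/-- Any two involutions of `G₂(q)`, `q` odd, are conjugate. -/
theorem invol_isConj [Fintype F] (hodd : Odd (Fintype.card F)) {s t : GL chevG2.Idx F}
    (hs : s ∈ chevG2.group F) (ht : t ∈ chevG2.group F) (hs2 : s * s = 1) (hs1 : s ≠ 1)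
    (ht2 : t * t = 1) (ht1 : t ≠ 1) :
    ∃ g ∈ chevG2.group F, g * s * g⁻¹ = t := by
  obtain ⟨g, hg, eg⟩ := invol_conj hodd hs hs2 hs1
  obtain ⟨g', hg', eg'⟩ := invol_conj hodd ht ht2 ht1
  have e : g * s * g⁻¹ = g' * t * g'⁻¹ := Units.ext (eg.trans eg'.symm)
  refine ⟨g'⁻¹ * g, Subgroup.mul_mem _ (Subgroup.inv_mem _ hg') hg, ?_⟩
  have e2 : g'⁻¹ * g * s * (g'⁻¹ * g)⁻¹ = g'⁻¹ * (g * s * g⁻¹) * g' := by group
  rw [e2, e]
  group

end Cfsg.Agent.Lib.Helper36.OddG2g
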