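import Mathlib
import Cfsg.Agent.Lib.Helper36.OddG2g

set_option autoImplicit false
set_option linter.unusedSimpArgs false
set_option linter.unusedSectionVars false
set_option linter.unusedVariables false

namespace Cfsg.Agent.Lib.Helper36.OddG2h

open Cfsg Cfsg.Lie Cfsg.Agent.Lib.Helper18.Fast Cfsg.Agent.Lib.Helper18.Grade
  Cfsg.Agent.Lib.Helper18.Facts Cfsg.Agent.Lib.Helper18.AllRoots Cfsg.Agent.Lib.Helper18.Loop
  Cfsg.Agent.Lib.Helper18.Weyl Cfsg.Agent.Lib.Helper18.RootSys Cfsg.Agent.Lib.Helper18.Orbit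
  Cfsg.Agent.Lib.Helper18.Units Cfsg.Agent.Lib.Helper18.Sub Cfsg.Agent.Lib.Helper18.Norm
  Cfsg.Agent.Lib.Helper18.HAll Cfsg.Agent.Lib.Helper18.Torus Cfsg.Agent.Lib.Helper18.Pos
  Cfsg.Agent.Lib.Helper18.WGroup Cfsg.Agent.Lib.Helper18.BNChev Cfsg.Agent.Lib.Helper18.Mono
  Cfsg.Agent.Lib.Helper18.BNPairC Cfsg.Agent.Lib.Helper18 Cfsg.Agent.Lib.Helper36.OddG2a
  Cfsg.Agent.Lib.Helper36.OddG2b Cfsg.Agent.Lib.Helper36.OddG2c Cfsg.Agent.Lib.Helper36.OddG2d
  Cfsg.Agent.Lib.Helper36.OddG2e Cfsg.Agent.Lib.Helper36.OddG2f Cfsg.Agent.Lib.Helper36.OddG2g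
  Cfsg.Agent.Lib.Helper18.Poly2 Cfsg.Agent.Lib.Helper19.SL2Hom

variable {F : Type*} [Field F]

/-- The roots on which the central involution acts trivially. -/
def sg (r : ℕ) : Bool := r == 1 || r == 3 || r == 8 || r == 10

set_option maxRecDepth 100000 in
theorem par_tab : ∀ r < 12,
    (carE FTabG2.fd 0 r + carE FTabG2.fd 1 r) % 2 = if sg r then 0 else 1 := by
  decide +kernel

/-- The constants of the central involution. -/
def ch (F : Type*) [Field F] (r : ℕ) : F := if sg r then 1 else -1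

theorem chi0_eq {r : ℕ} (hr : r < 12) : chi FTabG2.fd (fun _ => (-1 : F)) r = ch F r := by
  rw [chi_eval]
  have h := par_tab r hr
  rw [← zpow_add₀ (by norm_num : (-1 : F) ≠ 0)]
  unfold ch
  by_cases hs : sg r = true
  · rw [if_pos hs] at h ⊢
    exact Even.neg_one_zpow (Int.even_iff.mpr h)
  · rw [if_neg hs] at h ⊢
    exact Odd.neg_one_zpow (Int.odd_iff.mpr h)

/-- The matrix of the standard involution. -/
def IsZ (z : GL chevG2.Idx F) : Prop :=
  (z : Matrix chevG2.Idx chevG2.Idx F) = tor chevG2 FTabG2.fd (fun _ => (-1 : F))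

theorem z_mem_H {z : GL chevG2.Idx F} (hz : IsZ z) : z ∈ chevG2.diagonalSubgroup F :=
  mem_of_eq_tor cfG2.af z _ (fun _ => by norm_num) hz

theorem actsK_z {z : GL chevG2.Idx F} (hz : IsZ z) : ActsK z 0 (ch F) := by
  intro r hr
  have hc : ∀ i : ℕ, (fun _ : ℕ => (-1 : F)) i ≠ 0 := fun _ => by norm_num
  have hr' : r < chevG2.nroots := by rw [nroots_eq]; exact hr
  refine ⟨?_, fun t => ?_⟩
  · rw [← chi0_eq hr]; exact chi_ne_zero hc r
  · rw [xg_eq cfG2.af hr', wl_zero r hr, xg_eq cfG2.af hr', ← chi0_eq hr]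
    exact tor_conj_xU cfG2.af hc hz r hr' t

theorem z_conj {z : GL chevG2.Idx F} (hz : IsZ z) {r : ℕ} (hr : r < 12) (t : F) :
    z * xg cfG2.af F r t * z⁻¹ = xg cfG2.af F r (ch F r * t) := by
  have h := (actsK_z hz r hr).2 t
  rwa [wl_zero r hr] at h

theorem z_comm {z : GL chevG2.Idx F} (hz : IsZ z) {r : ℕ} (hr : r < 12) (hs : sg r = true) (t : F) :
    z * xg cfG2.af F r t = xg cfG2.af F r t * z := by
  have h := z_conj hz hr t
  unfold ch at h
  rw [if_pos hs, one_mul, mul_inv_eq_iff_eq_mul] at h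
  exact h

/-- An element of `H` is determined by its action on two root subgroups. -/
theorem H_ext {h₁ h₂ : GL chevG2.Idx F} (hh₁ : h₁ ∈ chevG2.diagonalSubgroup F)
    (hh₂ : h₂ ∈ chevG2.diagonalSubgroup F) {c c' : ℕ → F} (a₁ : ActsK h₁ 0 c)
    (a₂ : ActsK h₂ 0 c') (e9 : c 9 = c' 9) (e11 : c 11 = c' 11) : h₁ = h₂ := by
  obtain ⟨c₁, hc₁, e₁, b₁⟩ := actsK_H hh₁
  obtain ⟨c₂, hc₂, e₂, b₂⟩ := actsK_H hh₂
  have k9 : chi FTabG2.fd c₁ 9 = chi FTabG2.fd c₂ 9 := by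
    rw [const_unique (by norm_num) b₁ a₁ (r := 9) (by norm_num),
      const_unique (by norm_num) b₂ a₂ (r := 9) (by norm_num), e9]
  have k11 : chi FTabG2.fd c₁ 11 = chi FTabG2.fd c₂ 11 := by
    rw [const_unique (by norm_num) b₁ a₁ (r := 11) (by norm_num),
      const_unique (by norm_num) b₂ a₂ (r := 11) (by norm_num), e11]
  obtain ⟨-, -, -, -, c5, c6, -, -, -, -, c11, c12, -, -⟩ := car_tab
  simp only [chi_eval, c5, c6, c11, c12, zpow_one, zpow_zero, mul_one, one_mul] at k9 k11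
  apply Units.ext
  rw [e₁, e₂]
  exact tor_eq_of k9 k11

theorem actsK_inv {n : GL chevG2.Idx F} {k k' : ℕ} {c : ℕ → F} (hk' : k' < 12)
    (hinv : ∀ r < 12, wl k (wl k' r) = r) (h : ActsK n k c) :
    ActsK n⁻¹ k' (fun r => (c (wl k' r))⁻¹) := by
  intro r hr
  have hs : wl k' r < 12 := wl_lt k' hk' r hr
  obtain ⟨h1, h2⟩ := h (wl k' r) hs
  refine ⟨inv_ne_zero h1, fun t => ?_⟩
  have e := h2 ((c (wl k' r))⁻¹ * t)
  rw [hinv r hr, ← mul_assoc, mul_inv_cancel₀ h1, one_mul] at e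
  rw [← e]
  group

theorem H_comm {h₁ h₂ : GL chevG2.Idx F} (hh₁ : h₁ ∈ chevG2.diagonalSubgroup F)
    (hh₂ : h₂ ∈ chevG2.diagonalSubgroup F) : h₁ * h₂ = h₂ * h₁ := by
  obtain ⟨c₁, hc₁, e₁⟩ := exists_tor_of_mem cfG2.af h₁ hh₁
  obtain ⟨c₂, hc₂, e₂⟩ := exists_tor_of_mem cfG2.af h₂ hh₂
  apply Units.ext
  rw [Units.val_mul, Units.val_mul, e₁, e₂, tor_mul_tor, tor_mul_tor]
  apply tor_congr
  intro i _
  exact mul_comm _ _

set_option maxRecDepth 100000 in
theorem comm_ok : [(8, 10), (8, 1), (3, 10), (3, 1), (10, 8), (1, 8), (10, 3), (1, 3)].all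
    (fun p => chkComm FTabG2.fd p.1 p.2 []) = true := by decide +kernel

theorem xg_comm {r s : ℕ}
    (h : (r, s) ∈ [(8, 10), (8, 1), (3, 10), (3, 1), (10, 8), (1, 8), (10, 3), (1, 3)])
    (t u : F) : xg cfG2.af F r t * xg cfG2.af F s u = xg cfG2.af F s u * xg cfG2.af F r t := by
  have hc : chkComm FTabG2.fd r s [] = true := List.all_eq_true.mp comm_ok (r, s) h
  have hr : r < 12 := by
    simp only [List.mem_cons, Prod.mk.injEq, List.not_mem_nil, or_false] at h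
    omega
  have hs : s < 12 := by
    simp only [List.mem_cons, Prod.mk.injEq, List.not_mem_nil, or_false] at h
    omega
  have hr' : r < chevG2.nroots := by rw [nroots_eq]; exact hr
  have hs' : s < chevG2.nroots := by rw [nroots_eq]; exact hs
  have key := comm_of_chk (F := F) cfG2.af.agrees (by rw [An_eq]; exact hr) (by rw [An_eq]; exact hs)
    hc t u
  apply Units.ext
  rw [Units.val_mul, Units.val_mul, coe_xg cfG2.af hr', coe_xg cfG2.af hs', key]
  simp [termProd]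

end Cfsg.Agent.Lib.Helper36.OddG2h
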