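import Mathlib
import Cfsg.Agent.Lib.Helper36.OddG2h

set_option autoImplicit false
set_option linter.unusedSimpArgs false
set_option linter.unusedSectionVars false
set_option linter.unusedVariables false

namespace Cfsg.Agent.Lib.Helper36.OddG2i

open Cfsg Cfsg.Lie Cfsg.Agent.Lib.Helper18.Fast Cfsg.Agent.Lib.Helper18.Grade
  Cfsg.Agent.Lib.Helper18.Facts Cfsg.Agent.Lib.Helper18.AllRoots Cfsg.Agent.Lib.Helper18.Loop
  Cfsg.Agent.Lib.Helper18.Weyl Cfsg.Agent.Lib.Helper18.RootSys Cfsg.Agent.Lib.Helper18.Orbit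
  Cfsg.Agent.Lib.Helper18.Units Cfsg.Agent.Lib.Helper18.Sub Cfsg.Agent.Lib.Helper18.Norm
  Cfsg.Agent.Lib.Helper18.HAll Cfsg.Agent.Lib.Helper18.Torus Cfsg.Agent.Lib.Helper18.Pos
  Cfsg.Agent.Lib.Helper18.WGroup Cfsg.Agent.Lib.Helper18.BNChev Cfsg.Agent.Lib.Helper18.Mono
  Cfsg.Agent.Lib.Helper18.BNPairC Cfsg.Agent.Lib.Helper18 Cfsg.Agent.Lib.Helper36.OddG2a
  Cfsg.Agent.Lib.Helper36.OddG2b Cfsg.Agent.Lib.Helper36.OddG2c Cfsg.Agent.Lib.Helper36.OddG2d
  Cfsg.Agent.Lib.Helper36.OddG2e Cfsg.Agent.Lib.Helper36.OddG2f Cfsg.Agent.Lib.Helper36.OddG2g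
  Cfsg.Agent.Lib.Helper36.OddG2h Cfsg.Agent.Lib.Helper19.SL2Hom

variable {F : Type*} [Field F]

/-! ### Generation of `SL₂` -/

theorem sl2_gen (A : Matrix.SpecialLinearGroup (Fin 2) F) :
    A ∈ Subgroup.closure (Set.range (upper : F → Matrix.SpecialLinearGroup (Fin 2) F) ∪
      Set.range (lower : F → Matrix.SpecialLinearGroup (Fin 2) F)) := by
  have hu : ∀ t : F, upper t ∈ Subgroup.closure
      (Set.range (upper : F → Matrix.SpecialLinearGroup (Fin 2) F) ∪
        Set.range (lower : F → Matrix.SpecialLinearGroup (Fin 2) F)) :=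
    fun t => Subgroup.subset_closure (Or.inl ⟨t, rfl⟩)
  have hl : ∀ t : F, lower t ∈ Subgroup.closure
      (Set.range (upper : F → Matrix.SpecialLinearGroup (Fin 2) F) ∪
        Set.range (lower : F → Matrix.SpecialLinearGroup (Fin 2) F)) :=
    fun t => Subgroup.subset_closure (Or.inr ⟨t, rfl⟩)
  have key : ∀ B : Matrix.SpecialLinearGroup (Fin 2) F, B.1 1 0 ≠ 0 → B ∈ Subgroup.closure
      (Set.range (upper : F → Matrix.SpecialLinearGroup (Fin 2) F) ∪
        Set.range (lower : F → Matrix.SpecialLinearGroup (Fin 2) F)) := by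
    intro B hB
    rw [decomp B hB]
    exact Subgroup.mul_mem _ (Subgroup.mul_mem _ (hu _) (hl _)) (hu _)
  by_cases hc : A.1 1 0 = 0
  · have hdet := det_eq A
    have ha : A.1 0 0 ≠ 0 := by
      intro h0
      rw [h0, hc] at hdet
      simp at hdet
    have hB : (lower 1 * A).1 1 0 ≠ 0 := by
      have e : (lower (1 : F) * A).1 1 0 = A.1 0 0 + A.1 1 0 := by
        show ((!![1, 0; 1, 1] : Matrix (Fin 2) (Fin 2) F) * A.1) 1 0 = _
        simp [Matrix.mul_apply, Fin.sum_univ_two]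
      rw [e, hc, add_zero]
      exact ha
    have e : A = (lower 1)⁻¹ * (lower 1 * A) := by group
    rw [e]
    exact Subgroup.mul_mem _ (Subgroup.inv_mem _ (hl 1)) (key _ hB)
  · exact key A hc

theorem decomp' (g : Matrix.SpecialLinearGroup (Fin 2) F) (hb : g.1 0 1 ≠ 0) :
    g = lower ((g.1 1 1 - 1) / g.1 0 1) * upper (g.1 0 1) * lower ((g.1 0 0 - 1) / g.1 0 1) := by
  have hdet := det_eq g
  have key : g.1 = (lower ((g.1 1 1 - 1) / g.1 0 1)).1 * (upper (g.1 0 1)).1 *
      (lower ((g.1 0 0 - 1) / g.1 0 1)).1 := by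
    ext i j
    fin_cases i <;> fin_cases j
    · simp [upper, lower, Matrix.mul_apply, Fin.sum_univ_two]
      field_simp
      ring
    · simp [upper, lower, Matrix.mul_apply, Fin.sum_univ_two]
    · simp [upper, lower, Matrix.mul_apply, Fin.sum_univ_two]
      field_simp
      linear_combination (-1 : F) * hdet
    · simp [upper, lower, Matrix.mul_apply, Fin.sum_univ_two]
      field_simp
      ring
  exact Subtype.ext key

/-- Two homomorphisms of `SL₂` whose generators commute have commuting images. -/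
theorem comm_of_gen {Γ : Type*} [Group Γ] (φ ψ : Matrix.SpecialLinearGroup (Fin 2) F →* Γ)
    (h1 : ∀ t u : F, Commute (φ (upper t)) (ψ (upper u)))
    (h2 : ∀ t u : F, Commute (φ (upper t)) (ψ (lower u)))
    (h3 : ∀ t u : F, Commute (φ (lower t)) (ψ (upper u)))
    (h4 : ∀ t u : F, Commute (φ (lower t)) (ψ (lower u))) :
    ∀ A B : Matrix.SpecialLinearGroup (Fin 2) F, Commute (φ A) (ψ B) := by
  have step1 : ∀ (A : Matrix.SpecialLinearGroup (Fin 2) F) (u : F),
      Commute (φ A) (ψ (upper u)) ∧ Commute (φ A) (ψ (lower u)) := by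
    intro A u
    induction sl2_gen A using Subgroup.closure_induction with
    | mem x hx =>
      rcases hx with ⟨t, rfl⟩ | ⟨t, rfl⟩
      · exact ⟨h1 t u, h2 t u⟩
      · exact ⟨h3 t u, h4 t u⟩
    | one => rw [map_one]; exact ⟨Commute.one_left _, Commute.one_left _⟩
    | mul x y _ _ hx hy => rw [map_mul]; exact ⟨hx.1.mul_left hy.1, hx.2.mul_left hy.2⟩
    | inv x _ hx => rw [map_inv]; exact ⟨hx.1.inv_left, hx.2.inv_left⟩
  intro A B
  induction sl2_gen B using Subgroup.closure_induction with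
  | mem x hx =>
    rcases hx with ⟨t, rfl⟩ | ⟨t, rfl⟩
    · exact (step1 A t).1
    · exact (step1 A t).2
  | one => rw [map_one]; exact Commute.one_right _
  | mul x y _ _ hx hy => rw [map_mul]; exact hx.mul_right hy
  | inv x _ hx => rw [map_inv]; exact hx.inv_right

/-- The element `-1` of `SL₂`. -/
def negI (F : Type*) [Field F] : Matrix.SpecialLinearGroup (Fin 2) F :=
  (upper (-1) * lower 1 * upper (-1)) * (upper (-1) * lower 1 * upper (-1))

theorem negI_val : (negI F).1 = !![-1, 0; 0, -1] := by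
  show ((!![1, -1; 0, 1] : Matrix (Fin 2) (Fin 2) F) * !![1, 0; 1, 1] * !![1, -1; 0, 1]) *
    (!![1, -1; 0, 1] * !![1, 0; 1, 1] * !![1, -1; 0, 1]) = !![-1, 0; 0, -1]
  ext i j
  fin_cases i <;> fin_cases j <;> simp [Matrix.mul_apply, Fin.sum_univ_two]

theorem negI_sq : negI F * negI F = 1 := by
  apply Subtype.ext
  show (negI F).1 * (negI F).1 = 1
  rw [negI_val]
  ext i j
  fin_cases i <;> fin_cases j <;> simp [Matrix.mul_apply, Fin.sum_univ_two]

theorem negI_ne (h2 : (2 : F) ≠ 0) : negI F ≠ 1 := by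
  intro h
  have e : (negI F).1 0 0 = (1 : Matrix.SpecialLinearGroup (Fin 2) F).1 0 0 := by rw [h]
  rw [negI_val] at e
  simp at e
  apply h2
  linear_combination (-1 : F) * e

/-- The central elements of `SL₂`. -/
theorem central (A : Matrix.SpecialLinearGroup (Fin 2) F)
    (h : ∀ B : Matrix.SpecialLinearGroup (Fin 2) F, A * B = B * A) : A = 1 ∨ A = negI F := by
  have hdet := det_eq A
  have e1 : A.1 * (upper (1 : F)).1 = (upper (1 : F)).1 * A.1 := by
    have := congrArg Subtype.val (h (upper 1))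
    simpa only [Matrix.SpecialLinearGroup.coe_mul] using this
  have e2 : A.1 * (lower (1 : F)).1 = (lower (1 : F)).1 * A.1 := by
    have := congrArg Subtype.val (h (lower 1))
    simpa only [Matrix.SpecialLinearGroup.coe_mul] using this
  have c0 : A.1 1 0 = 0 := by
    have := congrFun (congrFun e1 0) 0
    simp [upper, Matrix.mul_apply, Fin.sum_univ_two] at this
    exact this
  have b0 : A.1 0 1 = 0 := by
    have := congrFun (congrFun e2 0) 0
    simp [lower, Matrix.mul_apply, Fin.sum_univ_two] at this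
    exact this
  have ad : A.1 0 0 = A.1 1 1 := by
    have := congrFun (congrFun e1 0) 1
    simp [upper, Matrix.mul_apply, Fin.sum_univ_two, b0] at this
    exact this
  rw [b0, zero_mul, sub_zero, ← ad] at hdet
  rcases mul_self_eq_one_iff.mp hdet with ha | ha
  · left
    apply Subtype.ext
    ext i j
    fin_cases i <;> fin_cases j <;> simp [c0, b0, ha, ← ad]
  · right
    apply Subtype.ext
    rw [negI_val]
    ext i j
    fin_cases i <;> fin_cases j <;> simp [c0, b0, ha, ← ad]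

/-! ### The rank one subgroups -/

/-- A homomorphism of `SL₂(F)` onto `⟨X_r, X_{-r}⟩`, `r` a positive root. -/
structure Phi (F : Type*) [Field F] (r r' : ℕ)
    (φ : Matrix.SpecialLinearGroup (Fin 2) F →* GL chevG2.Idx F) : Prop where
  hr : r < 12
  h6 : 6 ≤ r
  hr' : r' < 6
  hneg : chevG2.neg r = r'
  hu : ∀ t : F, φ (upper t) = xg cfG2.af F r t
  hl : ∀ t : F, φ (lower t) = xg cfG2.af F r' t

namespace Phi

variable {r r' : ℕ} {φ : Matrix.SpecialLinearGroup (Fin 2) F →* GL chevG2.Idx F}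

theorem mem (P : Phi F r r' φ) (A : Matrix.SpecialLinearGroup (Fin 2) F) :
    φ A ∈ chevG2.group F := by
  have hr'12 : r' < 12 := by have := P.hr'; omega
  induction sl2_gen A using Subgroup.closure_induction with
  | mem x hx =>
    rcases hx with ⟨t, rfl⟩ | ⟨t, rfl⟩
    · rw [P.hu]; exact xg_mem_group P.hr t
    · rw [P.hl]; exact xg_mem_group hr'12 t
  | one => rw [map_one]; exact Subgroup.one_mem _
  | mul x y _ _ hx hy => rw [map_mul]; exact Subgroup.mul_mem _ hx hy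
  | inv x _ hx => rw [map_inv]; exact Subgroup.inv_mem _ hx

theorem c_zero (P : Phi F r r' φ) {A : Matrix.SpecialLinearGroup (Fin 2) F} (h : φ A = 1) :
    A.1 1 0 = 0 := by
  by_contra hc
  have hr'12 : r' < 12 := by have := P.hr'; omega
  have h1 := congrArg φ (decomp A hc)
  rw [map_mul, map_mul, P.hu, P.hl, P.hu, h] at h1
  have hY : xg cfG2.af F r' (A.1 1 0) = (xg cfG2.af F r ((A.1 0 0 - 1) / A.1 1 0))⁻¹ * 1 *
      (xg cfG2.af F r ((A.1 1 1 - 1) / A.1 1 0))⁻¹ := by
    rw [h1]; group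
  have h3 : xg cfG2.af F r' (A.1 1 0) ∈ chevG2.posUnipotent F ⊓ chevG2.negUnipotent F := by
    refine ⟨?_, xg_mem_neg P.hr' _⟩
    rw [hY]
    exact Subgroup.mul_mem _ (Subgroup.mul_mem _ (Subgroup.inv_mem _ (xg_mem_pos P.hr P.h6 _))
      (Subgroup.one_mem _)) (Subgroup.inv_mem _ (xg_mem_pos P.hr P.h6 _))
  rw [pos_inf_neg cfG2, Subgroup.mem_bot] at h3
  exact xg_ne_one hr'12 hc h3

theorem b_zero (P : Phi F r r' φ) {A : Matrix.SpecialLinearGroup (Fin 2) F} (h : φ A = 1) :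
    A.1 0 1 = 0 := by
  by_contra hb
  have h1 := congrArg φ (decomp' A hb)
  rw [map_mul, map_mul, P.hl, P.hu, P.hl, h] at h1
  have hY : xg cfG2.af F r (A.1 0 1) = (xg cfG2.af F r' ((A.1 1 1 - 1) / A.1 0 1))⁻¹ * 1 *
      (xg cfG2.af F r' ((A.1 0 0 - 1) / A.1 0 1))⁻¹ := by
    rw [h1]; group
  have h3 : xg cfG2.af F r (A.1 0 1) ∈ chevG2.posUnipotent F ⊓ chevG2.negUnipotent F := by
    refine ⟨xg_mem_pos P.hr P.h6 _, ?_⟩
    rw [hY]
    exact Subgroup.mul_mem _ (Subgroup.mul_mem _ (Subgroup.inv_mem _ (xg_mem_neg P.hr' _))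
      (Subgroup.one_mem _)) (Subgroup.inv_mem _ (xg_mem_neg P.hr' _))
  rw [pos_inf_neg cfG2, Subgroup.mem_bot] at h3
  exact xg_ne_one P.hr hb h3

theorem a_sq (P : Phi F r r' φ) {A : Matrix.SpecialLinearGroup (Fin 2) F} (h : φ A = 1) :
    A.1 0 0 * A.1 0 0 = 1 := by
  have c0 := P.c_zero h
  have b0 := P.b_zero h
  have hdet := det_eq A
  rw [b0, zero_mul, sub_zero] at hdet
  have e : A * upper 1 = upper (A.1 0 0 * A.1 0 0) * A := by
    apply Subtype.ext
    show A.1 * (!![1, 1; 0, 1] : Matrix (Fin 2) (Fin 2) F) =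
      !![1, A.1 0 0 * A.1 0 0; 0, 1] * A.1
    ext i j
    fin_cases i <;> fin_cases j
    · simp [Matrix.mul_apply, Fin.sum_univ_two, c0, b0]
    · simp [Matrix.mul_apply, Fin.sum_univ_two, c0, b0]
      linear_combination (-(A.1 0 0)) * hdet
    · simp [Matrix.mul_apply, Fin.sum_univ_two, c0, b0]
    · simp [Matrix.mul_apply, Fin.sum_univ_two, c0, b0]
  have h2 := congrArg φ e
  rw [map_mul, map_mul, h, one_mul, mul_one, P.hu, P.hu] at h2
  exact (xg_inj P.hr h2).symm

theorem negI_eq (P : Phi F r r' φ) (hr12 : r < chevG2.nroots) :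
    φ (negI F) = hU cfG2.af F r hr12 (-1) := by
  have hr'12 : r' < chevG2.nroots := by rw [← P.hneg]; exact neg_lt cfG2.af hr12
  apply Units.ext
  simp only [negI, map_mul, P.hu, P.hl, Units.val_mul, coe_xg cfG2.af hr12, coe_xg cfG2.af hr'12,
    coe_hU]
  simp [ChevalleyDatum.hMat, ChevalleyDatum.hWord, ChevalleyDatum.nWord,
    ChevalleyDatum.wordMat, P.hneg, mul_assoc]

theorem neg_one_odd {m : ℤ} (hm : m % 2 = 1) : (-1 : F) ^ m = -1 :=
  Odd.neg_one_zpow (Int.odd_iff.mpr hm)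

theorem negI_eq_z (P : Phi F r r' φ) (p9 : pairE FTabG2.fd r 9 % 2 = 1)
    (p11 : pairE FTabG2.fd r 11 % 2 = 1) {z : GL chevG2.Idx F} (hz : IsZ z) :
    φ (negI F) = z := by
  have hr12 : r < chevG2.nroots := by rw [nroots_eq]; exact P.hr
  rw [P.negI_eq hr12]
  have hm1 : (-1 : F) ≠ 0 := by norm_num
  refine H_ext (hU_mem cfG2.af r hr12 hm1) (z_mem_H hz) (actsK_hU hr12 hm1) (actsK_z hz) ?_ ?_
  · show (-1 : F) ^ pairE FTabG2.fd r 9 = ch F 9
    rw [neg_one_odd p9]
    rfl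
  · show (-1 : F) ^ pairE FTabG2.fd r 11 = ch F 11
    rw [neg_one_odd p11]
    rfl

theorem negI_ne_one (P : Phi F r r' φ) (h2F : (2 : F) ≠ 0) (p9 : pairE FTabG2.fd r 9 % 2 = 1) :
    φ (negI F) ≠ 1 := by
  intro h
  have hr12 : r < chevG2.nroots := by rw [nroots_eq]; exact P.hr
  have hm1 : (-1 : F) ≠ 0 := by norm_num
  have a1 := actsK_hU hr12 hm1
  rw [← P.negI_eq hr12, h] at a1
  have a2 : ActsK (1 : GL chevG2.Idx F) 0 (fun _ => (1 : F)) := by
    intro s hs
    refine ⟨one_ne_zero, fun t => ?_⟩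
    rw [wl_zero s hs, one_mul, inv_one, mul_one, one_mul]
  have e := const_unique (by norm_num) a1 a2 (r := 9) (by norm_num)
  have e' : (-1 : F) ^ pairE FTabG2.fd r 9 = 1 := e
  rw [neg_one_odd p9] at e'
  apply h2F
  linear_combination (-1 : F) * e'

theorem inj (P : Phi F r r' φ) (h2F : (2 : F) ≠ 0) (p9 : pairE FTabG2.fd r 9 % 2 = 1) :
    Function.Injective φ := by
  rw [injective_iff_map_eq_one]
  intro A hA
  have c0 := P.c_zero hA
  have b0 := P.b_zero hA
  have hdet := det_eq A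
  rw [b0, zero_mul, sub_zero] at hdet
  rcases mul_self_eq_one_iff.mp (P.a_sq hA) with ha | ha
  · rw [ha, one_mul] at hdet
    apply Subtype.ext
    ext i j
    fin_cases i <;> fin_cases j <;> simp [c0, b0, ha, hdet]
  · exfalso
    rw [ha] at hdet
    have hd : A.1 1 1 = -1 := by linear_combination (-1 : F) * hdet
    have e : A = negI F := by
      apply Subtype.ext
      rw [negI_val]
      ext i j
      fin_cases i <;> fin_cases j <;> simp [c0, b0, ha, hd]
    rw [e] at hA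
    exact P.negI_ne_one h2F p9 hA

end Phi

set_option maxRecDepth 100000 in
theorem neg_tab : chevG2.neg 8 = 3 ∧ chevG2.neg 10 = 1 ∧ pairE FTabG2.fd 8 9 = 1 ∧
    pairE FTabG2.fd 8 11 = 3 ∧ pairE FTabG2.fd 10 9 = 1 ∧ pairE FTabG2.fd 10 11 = 1 := by
  decide +kernel

theorem exists_phi8 : ∃ φ : Matrix.SpecialLinearGroup (Fin 2) F →* GL chevG2.Idx F,
    Phi F 8 3 φ := by
  obtain ⟨φ, hu, hl⟩ := exists_phi (F := F) (r := 8) (r' := 3) (by norm_num) neg_tab.1
  exact ⟨φ, ⟨by norm_num, by norm_num, by norm_num, neg_tab.1, hu, hl⟩⟩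

theorem exists_phi10 : ∃ φ : Matrix.SpecialLinearGroup (Fin 2) F →* GL chevG2.Idx F,
    Phi F 10 1 φ := by
  obtain ⟨φ, hu, hl⟩ := exists_phi (F := F) (r := 10) (r' := 1) (by norm_num) neg_tab.2.1
  exact ⟨φ, ⟨by norm_num, by norm_num, by norm_num, neg_tab.2.1, hu, hl⟩⟩

/-- The two rank one subgroups commute. -/
theorem phi_comm {φ ψ : Matrix.SpecialLinearGroup (Fin 2) F →* GL chevG2.Idx F}
    (P : Phi F 8 3 φ) (Q : Phi F 10 1 ψ) (A B : Matrix.SpecialLinearGroup (Fin 2) F) :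
    Commute (φ A) (ψ B) := by
  apply comm_of_gen
  · intro t u
    rw [P.hu, Q.hu]
    exact xg_comm (by simp) t u
  · intro t u
    rw [P.hu, Q.hl]
    exact xg_comm (by simp) t u
  · intro t u
    rw [P.hl, Q.hu]
    exact xg_comm (by simp) t u
  · intro t u
    rw [P.hl, Q.hl]
    exact xg_comm (by simp) t u

end Cfsg.Agent.Lib.Helper36.OddG2i
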