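import Mathlib
import Cfsg.Agent.Lib.Helper36.OddG2i
import Cfsg.Agent.Lib.Helper38.SLCard

set_option autoImplicit false
set_option linter.unusedSimpArgs false
set_option linter.unusedSectionVars false
set_option linter.unusedVariables false

namespace Cfsg.Agent.Lib.Helper36.OddG2j

open Cfsg Cfsg.Agent.Lib.Helper36.OddG2i Cfsg.Agent.Lib.Helper19.SL2Hom

/-- The central product of two copies of `SL₂(F)` inside the centralizer of their common central
involution: the abstract part of the structure of an involution centralizer. -/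
theorem central_product {Γ : Type*} [Group Γ] {F : Type*} [Field F] [Fintype F]
    (h2F : (2 : F) ≠ 0) (z : Γ) (φ₁ φ₂ : Matrix.SpecialLinearGroup (Fin 2) F →* Γ)
    (inj₁ : Function.Injective φ₁) (inj₂ : Function.Injective φ₂)
    (comm : ∀ A B, Commute (φ₁ A) (φ₂ B))
    (hz₁ : φ₁ (negI F) = z) (hz₂ : φ₂ (negI F) = z)
    (hC : Nat.card (Subgroup.centralizer ({z} : Set Γ)) =
      Fintype.card F ^ 2 * (Fintype.card F ^ 2 - 1) ^ 2) :
    ∃ L₁ L₂ : Subgroup Γ, Nonempty (L₁ ≃* Matrix.SpecialLinearGroup (Fin 2) F) ∧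
      Nonempty (L₂ ≃* Matrix.SpecialLinearGroup (Fin 2) F) ∧
      (∀ x ∈ L₁, ∀ y ∈ L₂, x * y = y * x) ∧
      L₁ ⊓ L₂ = Subgroup.zpowers z ∧ L₁ ⊔ L₂ ≤ Subgroup.centralizer ({z} : Set Γ) ∧
      (L₁ ⊔ L₂).relIndex (Subgroup.centralizer ({z} : Set Γ)) = 2 := by
  have hsup : φ₁.range ⊔ φ₂.range ≤ Subgroup.centralizer ({z} : Set Γ) := by
    rw [sup_le_iff]
    constructor
    · rintro _ ⟨A, rfl⟩
      rw [Subgroup.mem_centralizer_iff]
      intro h hh
      rw [Set.mem_singleton_iff] at hh
      rw [hh, ← hz₂]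
      exact (comm A (negI F)).eq.symm
    · rintro _ ⟨B, rfl⟩
      rw [Subgroup.mem_centralizer_iff]
      intro h hh
      rw [Set.mem_singleton_iff] at hh
      rw [hh, ← hz₁]
      exact (comm (negI F) B).eq
  refine ⟨φ₁.range, φ₂.range, ⟨(MonoidHom.ofInjective inj₁).symm⟩,
    ⟨(MonoidHom.ofInjective inj₂).symm⟩, ?_, ?_, hsup, ?_⟩
  · rintro _ ⟨A, rfl⟩ _ ⟨B, rfl⟩
    exact (comm A B).eq
  · apply le_antisymm
    · rintro y ⟨⟨A, hA⟩, ⟨B, hB⟩⟩
      have hcen : ∀ B' : Matrix.SpecialLinearGroup (Fin 2) F, B * B' = B' * B := by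
        intro B'
        apply inj₂
        rw [map_mul, map_mul, hB, ← hA]
        exact (comm A B').eq
      rcases central B hcen with rfl | rfl
      · rw [map_one] at hB
        rw [← hB]
        exact Subgroup.one_mem _
      · rw [hz₂] at hB
        rw [← hB]
        exact Subgroup.mem_zpowers z
    · rw [Subgroup.zpowers_le]
      exact ⟨⟨negI F, hz₁⟩, ⟨negI F, hz₂⟩⟩
  · have hrange : (φ₁.noncommCoprod φ₂ comm).range = φ₁.range ⊔ φ₂.range :=
      MonoidHom.noncommCoprod_range φ₁ φ₂ comm
    have hker : ((φ₁.noncommCoprod φ₂ comm).ker : Set (Matrix.SpecialLinearGroup (Fin 2) F ×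
        Matrix.SpecialLinearGroup (Fin 2) F)) = {1, (negI F, negI F)} := by
      ext ⟨A, B⟩
      simp only [SetLike.mem_coe, MonoidHom.mem_ker, MonoidHom.noncommCoprod_apply,
        Set.mem_insert_iff, Set.mem_singleton_iff, Prod.mk_eq_one, Prod.mk.injEq]
      constructor
      · intro h
        have hA : φ₁ A = φ₂ B⁻¹ := by
          rw [map_inv]
          exact eq_inv_of_mul_eq_one_left h
        have hcen : ∀ A' : Matrix.SpecialLinearGroup (Fin 2) F, A * A' = A' * A := by
          intro A'
          apply inj₁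
          rw [map_mul, map_mul, hA]
          exact (comm A' B⁻¹).eq.symm
        rcases central A hcen with rfl | rfl
        · left
          refine ⟨rfl, ?_⟩
          rw [map_one, one_mul] at h
          apply inj₂
          rw [h, map_one]
        · right
          refine ⟨rfl, ?_⟩
          rw [hz₁, ← hz₂, ← map_mul] at h
          have h' : negI F * B = 1 := by
            apply inj₂
            rw [h, map_one]
          have h'' : negI F * B = negI F * negI F := by rw [h', negI_sq]
          exact mul_left_cancel h''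
      · rintro (⟨rfl, rfl⟩ | ⟨rfl, rfl⟩)
        · rw [map_one, map_one, one_mul]
        · rw [hz₂, ← hz₁, ← map_mul, negI_sq, map_one]
    have hne : (1 : Matrix.SpecialLinearGroup (Fin 2) F × Matrix.SpecialLinearGroup (Fin 2) F) ≠
        (negI F, negI F) := by
      intro h
      exact negI_ne h2F (congrArg Prod.fst h).symm
    have hkc : Nat.card (φ₁.noncommCoprod φ₂ comm).ker = 2 := by
      have e : Nat.card (φ₁.noncommCoprod φ₂ comm).ker =
          Set.ncard ((φ₁.noncommCoprod φ₂ comm).ker : Set (Matrix.SpecialLinearGroup (Fin 2) F ×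
            Matrix.SpecialLinearGroup (Fin 2) F)) := (Nat.card_coe_set_eq _)
      rw [e, hker, Set.ncard_pair hne]
    have h1 := Subgroup.card_mul_index (φ₁.noncommCoprod φ₂ comm).ker
    rw [Subgroup.index_ker, hkc, hrange, Nat.card_prod,
      Cfsg.Agent.Lib.Helper38.SLCard.card_SL2] at h1
    have h2 := Subgroup.relIndex_mul_relIndex ⊥ (φ₁.range ⊔ φ₂.range)
      (Subgroup.centralizer ({z} : Set Γ)) bot_le hsup
    rw [Subgroup.relIndex_bot_left, Subgroup.relIndex_bot_left, hC] at h2
    have hq : 2 ≤ Fintype.card F := Fintype.one_lt_card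
    generalize Nat.card ↥(φ₁.range ⊔ φ₂.range) = N at h1 h2
    generalize (φ₁.range ⊔ φ₂.range).relIndex (Subgroup.centralizer ({z} : Set Γ)) = R at h2
    have hq2 : 1 ≤ Fintype.card F ^ 2 - 1 := by
      have : 4 ≤ Fintype.card F ^ 2 := by nlinarith
      omega
    generalize Fintype.card F ^ 2 - 1 = m at h1 h2 hq2
    generalize Fintype.card F = q at h1 h2 hq
    have hN : 0 < N := by
      rcases Nat.eq_zero_or_pos N with h0 | h0
      · rw [h0] at h1
        have : 0 < q * m * (q * m) := by positivity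
        omega
      · exact h0
    have h3 : N * R = N * 2 := by
      rw [h2]
      have : q ^ 2 * m ^ 2 = q * m * (q * m) := by ring
      rw [this, ← h1]
      ring
    exact Nat.eq_of_mul_eq_mul_left hN h3

end Cfsg.Agent.Lib.Helper36.OddG2j
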