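import Mathlib
import Cfsg.Agent.Lib.Helper36.OddG2i

set_option autoImplicit false
set_option linter.unusedSimpArgs false
set_option linter.unusedSectionVars false
set_option linter.unusedVariables false

namespace Cfsg.Agent.Lib.Helper36.OddG2k

open Cfsg Cfsg.Lie Cfsg.Agent.Lib.Helper18.Fast Cfsg.Agent.Lib.Helper18.Grade
  Cfsg.Agent.Lib.Helper18.Facts Cfsg.Agent.Lib.Helper18.AllRoots Cfsg.Agent.Lib.Helper18.Loop
  Cfsg.Agent.Lib.Helper18.Weyl Cfsg.Agent.Lib.Helper18.RootSys Cfsg.Agent.Lib.Helper18.Orbit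
  Cfsg.Agent.Lib.Helper18.Units Cfsg.Agent.Lib.Helper18.Sub Cfsg.Agent.Lib.Helper18.Norm
  Cfsg.Agent.Lib.Helper18.HAll Cfsg.Agent.Lib.Helper18.Torus Cfsg.Agent.Lib.Helper18.Pos
  Cfsg.Agent.Lib.Helper18.WGroup Cfsg.Agent.Lib.Helper18.BNChev Cfsg.Agent.Lib.Helper18.Mono
  Cfsg.Agent.Lib.Helper18.BNPairC Cfsg.Agent.Lib.Helper18 Cfsg.Agent.Lib.Helper36.OddG2a
  Cfsg.Agent.Lib.Helper36.OddG2b Cfsg.Agent.Lib.Helper36.OddG2c Cfsg.Agent.Lib.Helper36.OddG2d
  Cfsg.Agent.Lib.Helper36.OddG2e Cfsg.Agent.Lib.Helper36.OddG2f Cfsg.Agent.Lib.Helper36.OddG2g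
  Cfsg.Agent.Lib.Helper36.OddG2h Cfsg.Agent.Lib.Helper18.BNAbs

variable {F : Type*} [Field F]

/-! ### The unipotent subgroup -/

set_option maxRecDepth 100000 in
theorem posRootsG2 : chevG2.posRoots = [6, 7, 8, 9, 10, 11] := by decide +kernel

/-- The ordered product over the positive roots. -/
noncomputable def PU (F : Type*) [Field F] (t : ℕ → F) : GL chevG2.Idx F :=
  xg cfG2.af F 6 (t 6) * xg cfG2.af F 7 (t 7) * xg cfG2.af F 8 (t 8) * xg cfG2.af F 9 (t 9) *
    xg cfG2.af F 10 (t 10) * xg cfG2.af F 11 (t 11)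

theorem cx {r : ℕ} (hr : r < 12) (t : F) :
    ((xg cfG2.af F r t : GL chevG2.Idx F) : Matrix chevG2.Idx chevG2.Idx F) = chevG2.x F r t :=
  coe_xg cfG2.af (by rw [nroots_eq]; exact hr) t

theorem coe_PU (t : ℕ → F) : ((PU F t : GL chevG2.Idx F) : Matrix chevG2.Idx chevG2.Idx F) =
    chevG2.wordMat F (chevG2.posRoots.map fun r => (r, t r)) := by
  rw [posRootsG2]
  simp only [PU, Units.val_mul, cx (show 6 < 12 by norm_num), cx (show 7 < 12 by norm_num),
    cx (show 8 < 12 by norm_num), cx (show 9 < 12 by norm_num), cx (show 10 < 12 by norm_num),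
    cx (show 11 < 12 by norm_num)]
  simp [ChevalleyDatum.wordMat, mul_assoc]

theorem exists_PU {v : GL chevG2.Idx F} (hv : v ∈ chevG2.posUnipotent F) :
    ∃ t : ℕ → F, v = PU F t := by
  obtain ⟨t, ht⟩ := Cfsg.Agent.Lib.Helper36.ChevU.exists_prod chevG2
    Cfsg.Agent.Lib.Helper36.ChevUG2.facts v hv
  exact ⟨t, Units.ext (by rw [ht, coe_PU])⟩

theorem PU_inj {t t' : ℕ → F} (h : PU F t = PU F t') {r : ℕ} (hr : r < 12) (h6 : 6 ≤ r) :
    t r = t' r := by
  have h' := congrArg Units.val h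
  rw [coe_PU, coe_PU] at h'
  exact Cfsg.Agent.Lib.Helper36.ChevU.prod_inj chevG2 Cfsg.Agent.Lib.Helper36.ChevUG2.facts t t' h'
    r (pos_ok r hr h6)

theorem PU_conj {z : GL chevG2.Idx F} (hz : IsZ z) (t : ℕ → F) :
    z * PU F t * z⁻¹ = PU F (fun r => ch F r * t r) := by
  simp only [PU]
  rw [← z_conj hz (show 6 < 12 by norm_num), ← z_conj hz (show 7 < 12 by norm_num),
    ← z_conj hz (show 8 < 12 by norm_num), ← z_conj hz (show 9 < 12 by norm_num),
    ← z_conj hz (show 10 < 12 by norm_num), ← z_conj hz (show 11 < 12 by norm_num)]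
  group

/-- The product of two elements of `X_8` and `X_10`. -/
noncomputable def P2 (F : Type*) [Field F] (p : F × F) : GL chevG2.Idx F :=
  xg cfG2.af F 8 p.1 * xg cfG2.af F 10 p.2

theorem P2_eq (p : F × F) :
    P2 F p = PU F (fun r => if r = 8 then p.1 else if r = 10 then p.2 else 0) := by
  simp [P2, PU, xg_zero hadd cfG2.af]

theorem P2_inj {p p' : F × F} (h : P2 F p = P2 F p') : p = p' := by
  rw [P2_eq, P2_eq] at h
  have h8 := PU_inj h (show 8 < 12 by norm_num) (by norm_num)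
  have h10 := PU_inj h (show 10 < 12 by norm_num) (by norm_num)
  simp at h8 h10
  exact Prod.ext h8 h10

theorem P2_mem_pos (p : F × F) : P2 F p ∈ chevG2.posUnipotent F :=
  Subgroup.mul_mem _ (xg_mem_pos (by norm_num) (by norm_num) _)
    (xg_mem_pos (by norm_num) (by norm_num) _)

theorem P2_comm {z : GL chevG2.Idx F} (hz : IsZ z) (p : F × F) : z * P2 F p = P2 F p * z := by
  unfold P2
  rw [← mul_assoc, z_comm hz (by norm_num) (by decide), mul_assoc,
    z_comm hz (by norm_num) (by decide), ← mul_assoc]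

/-- The centralizer of the involution in `U`. -/
theorem cent_U {z : GL chevG2.Idx F} (hz : IsZ z) (h2F : (2 : F) ≠ 0) {v : GL chevG2.Idx F}
    (hv : v ∈ chevG2.posUnipotent F) (hc : z * v = v * z) : ∃ p : F × F, v = P2 F p := by
  obtain ⟨t, rfl⟩ := exists_PU hv
  have e : PU F (fun r => ch F r * t r) = PU F t := by
    rw [← PU_conj hz, hc]
    group
  have k : ∀ r, r < 12 → 6 ≤ r → sg r = false → t r = 0 := by
    intro r hr h6 hs
    have h1 := PU_inj e hr h6
    have h1' : (-1 : F) * t r = t r := by simpa [ch, hs] using h1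
    have h2 : (2 : F) * t r = 0 := by linear_combination (-1 : F) * h1'
    rcases mul_eq_zero.mp h2 with h | h
    · exact absurd h h2F
    · exact h
  refine ⟨(t 8, t 10), ?_⟩
  simp [P2, PU, k 6 (by norm_num) (by norm_num) (by decide),
    k 7 (by norm_num) (by norm_num) (by decide), k 9 (by norm_num) (by norm_num) (by decide),
    k 11 (by norm_num) (by norm_num) (by decide), xg_zero hadd cfG2.af]

/-! ### The Weyl group of the centralizer -/

/-- The stabilizer of the involution in the Weyl group. -/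
def inW (k : ℕ) : Bool := k == 0 || k == 3 || k == 4 || k == 7

set_option maxRecDepth 100000 in
theorem w0_tab1 : ∀ k < 12, (∀ r < 12, sg (wl k r) = sg r) → inW k = true := by
  decide +kernel

set_option maxRecDepth 100000 in
theorem w0_tab2 : ∀ k < 12, inW k = true → (∀ r < 12, sg (wl k r) = sg r) ∧
    (∀ r < 12, wl k (wl k r) = r) ∧ mulK k k = 0 ∧ mulK (mulK k 0) k = 0 ∧ mulK k 0 < 12 := by
  decide +kernel

set_option maxRecDepth 100000 in
theorem w0_tab3 : ∀ k < 12, (∀ r < 12, 6 ≤ r → 6 ≤ wl k r) → k = 0 := by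
  decide +kernel

set_option maxRecDepth 100000 in
theorem w0_tab4 : ∀ k < 12, ∀ k' < 12, inW k = true → inW k' = true → mulK k k' = 0 → k = k' := by
  decide +kernel

theorem N_conj_H' {n h : GL chevG2.Idx F} (hn : n ∈ chevG2.monomialSubgroup F)
    (hh : h ∈ chevG2.diagonalSubgroup F) : n * h * n⁻¹ ∈ chevG2.diagonalSubgroup F :=
  (cfG2.rd (hadd (F := F))).N_conj_H (by rw [rd_N]; exact hn) h hh

theorem ch_ne (h2F : (2 : F) ≠ 0) {r s : ℕ} (h : ch F r = ch F s) : sg r = sg s := by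
  unfold ch at h
  by_cases h1 : sg r = true <;> by_cases h2 : sg s = true
  · rw [h1, h2]
  · exfalso
    rw [if_pos h1, if_neg h2] at h
    apply h2F
    linear_combination h
  · exfalso
    rw [if_neg h1, if_pos h2] at h
    apply h2F
    linear_combination (-1 : F) * h
  · simp only [Bool.not_eq_true] at h1 h2
    rw [h1, h2]

/-- Elements of `N` over the stabilizer of the involution commute with it. -/
theorem comm_z_of_acts {z : GL chevG2.Idx F} (hz : IsZ z) {n : GL chevG2.Idx F}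
    (hn : n ∈ chevG2.monomialSubgroup F) {k : ℕ} (hk : k < 12) (hW : inW k = true) {c : ℕ → F}
    (h : ActsK n k c) : z * n = n * z := by
  obtain ⟨hsg, hinv, -, hm, hm0⟩ := w0_tab2 k hk hW
  have a1 := actsK_mul hk (by norm_num) h (actsK_z hz)
  have a2 := actsK_mul hm0 hk a1 (actsK_inv hk hinv h)
  rw [hm] at a2
  have hy : n * z * n⁻¹ ∈ chevG2.diagonalSubgroup F := N_conj_H' hn (z_mem_H hz)
  have key : ∀ r < 12, c (wl 0 (wl k r)) * ch F (wl k r) * (c (wl k r))⁻¹ = ch F r := by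
    intro r hr
    have hs := wl_lt k hk r hr
    rw [wl_zero _ hs, mul_comm (c (wl k r)), mul_assoc, mul_inv_cancel₀ (h (wl k r) hs).1, mul_one]
    unfold ch
    rw [hsg r hr]
  have e : n * z * n⁻¹ = z :=
    H_ext hy (z_mem_H hz) a2 (actsK_z hz) (key 9 (by norm_num)) (key 11 (by norm_num))
  rw [mul_inv_eq_iff_eq_mul] at e
  exact e.symm

/-- An element of `N` commuting with the involution lies over its stabilizer. -/
theorem inW_of_comm {z : GL chevG2.Idx F} (hz : IsZ z) (h2F : (2 : F) ≠ 0) {n : GL chevG2.Idx F}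
    {k : ℕ} (hk : k < 12) {c : ℕ → F} (h : ActsK n k c) (hc : z * n = n * z) : inW k = true := by
  apply w0_tab1 k hk
  intro r hr
  have hs := wl_lt k hk r hr
  obtain ⟨c0, h1⟩ := h r hr
  have e1 : z * n * xg cfG2.af F r 1 * (z * n)⁻¹ = xg cfG2.af F (wl k r) (ch F (wl k r) * (c r * 1)) := by
    rw [← z_conj hz hs, ← h1 1]
    group
  have e2 : n * z * xg cfG2.af F r 1 * (n * z)⁻¹ = xg cfG2.af F (wl k r) (c r * (ch F r * 1)) := by
    rw [← h1 (ch F r * 1), ← z_conj hz hr]
    group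
  rw [hc, e2] at e1
  have e3 := xg_inj hs e1
  have e4 : ch F (wl k r) = ch F r := by
    have : c r * (ch F (wl k r) - ch F r) = 0 := by linear_combination (-1 : F) * e3
    rcases mul_eq_zero.mp this with h | h
    · exact absurd h c0
    · linear_combination h
  exact ch_ne h2F e4

/-- An element of `H` preserves the positive roots. -/
theorem zero_of_mem_H {n : GL chevG2.Idx F} (hn : n ∈ chevG2.diagonalSubgroup F) {k : ℕ}
    (hk : k < 12) {c : ℕ → F} (h : ActsK n k c) : k = 0 := by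
  apply w0_tab3 k hk
  intro r hr h6
  by_contra hlt
  have hlt' : wl k r < 6 := by omega
  obtain ⟨c₀, hc₀, -, a0⟩ := actsK_H hn
  obtain ⟨hc, h1⟩ := h r hr
  have h2 := h1 1
  have h3 := (a0 r hr).2 1
  rw [wl_zero r hr] at h3
  rw [h3] at h2
  have h4 : xg cfG2.af F r (chi FTabG2.fd c₀ r * 1) ∈
      chevG2.posUnipotent F ⊓ chevG2.negUnipotent F :=
    ⟨xg_mem_pos hr h6 _, by rw [h2]; exact xg_mem_neg hlt' _⟩
  rw [pos_inf_neg cfG2, Subgroup.mem_bot] at h4
  exact xg_ne_one hr (by rw [mul_one]; exact chi_ne_zero hc₀ r) h4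

end Cfsg.Agent.Lib.Helper36.OddG2k
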