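import Mathlib
import Cfsg.Agent.Lib.Helper36.OddG2k

set_option autoImplicit false
set_option linter.unusedSimpArgs false
set_option linter.unusedSectionVars false
set_option linter.unusedVariables false

namespace Cfsg.Agent.Lib.Helper36.OddG2l

open Cfsg Cfsg.Lie Cfsg.Agent.Lib.Helper18.Fast Cfsg.Agent.Lib.Helper18.Grade
  Cfsg.Agent.Lib.Helper18.Facts Cfsg.Agent.Lib.Helper18.AllRoots Cfsg.Agent.Lib.Helper18.Loop
  Cfsg.Agent.Lib.Helper18.Weyl Cfsg.Agent.Lib.Helper18.RootSys Cfsg.Agent.Lib.Helper18.Orbit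
  Cfsg.Agent.Lib.Helper18.Units Cfsg.Agent.Lib.Helper18.Sub Cfsg.Agent.Lib.Helper18.Norm
  Cfsg.Agent.Lib.Helper18.HAll Cfsg.Agent.Lib.Helper18.Torus Cfsg.Agent.Lib.Helper18.Pos
  Cfsg.Agent.Lib.Helper18.WGroup Cfsg.Agent.Lib.Helper18.BNChev Cfsg.Agent.Lib.Helper18.Mono
  Cfsg.Agent.Lib.Helper18.BNPairC Cfsg.Agent.Lib.Helper18 Cfsg.Agent.Lib.Helper36.OddG2a
  Cfsg.Agent.Lib.Helper36.OddG2b Cfsg.Agent.Lib.Helper36.OddG2c Cfsg.Agent.Lib.Helper36.OddG2d
  Cfsg.Agent.Lib.Helper36.OddG2e Cfsg.Agent.Lib.Helper36.OddG2f Cfsg.Agent.Lib.Helper36.OddG2g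
  Cfsg.Agent.Lib.Helper36.OddG2h Cfsg.Agent.Lib.Helper36.OddG2k Cfsg.Agent.Lib.Helper18.BNAbs
  Cfsg.Agent.Lib.Helper19.BruhatChev Cfsg.Agent.Lib.Helper19.BruhatAbs

variable {F : Type*} [Field F]

/-! ### Representatives of the Weyl group of the centralizer -/

noncomputable def n3 (F : Type*) [Field F] : GL chevG2.Idx F :=
  ng cfG2.af F 0 * ng cfG2.af F 1 * ng cfG2.af F 0

noncomputable def n4 (F : Type*) [Field F] : GL chevG2.Idx F :=
  ng cfG2.af F 1 * ng cfG2.af F 0 * ng cfG2.af F 1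

noncomputable def nk (F : Type*) [Field F] (k : ℕ) : GL chevG2.Idx F :=
  if k = 3 then n3 F else if k = 4 then n4 F else if k = 7 then n3 F * n4 F else 1

set_option maxRecDepth 100000 in
theorem mul_tab2 : mulK (mulK 1 2) 1 = 3 ∧ mulK (mulK 2 1) 2 = 4 ∧ mulK 3 4 = 7 ∧ mulK 1 2 < 12 ∧
    mulK 2 1 < 12 ∧ wl 3 10 = 1 ∧ wl 4 8 = 3 ∧ wl 7 8 = 3 ∧ wl 7 10 = 1 ∧ wl 3 8 = 8 ∧
    wl 4 10 = 10 := by decide +kernel

theorem acts_one : ActsK (1 : GL chevG2.Idx F) 0 (fun _ => (1 : F)) := by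
  intro s hs
  refine ⟨one_ne_zero, fun t => ?_⟩
  rw [wl_zero s hs, one_mul, inv_one, mul_one, one_mul]

theorem n3_spec : n3 F ∈ chevG2.monomialSubgroup F ∧ ∃ c : ℕ → F, ActsK (n3 F) 3 c := by
  obtain ⟨m1, m2, m3, m4, m5, -⟩ := mul_tab2
  refine ⟨Subgroup.mul_mem _ (Subgroup.mul_mem _ (ng_mem 0 (by norm_num)) (ng_mem 1 (by norm_num)))
    (ng_mem 0 (by norm_num)), ?_⟩
  have a := actsK_mul m4 (by norm_num) (actsK_mul (by norm_num) (by norm_num)
    (actsK_ng0 (F := F)) (actsK_ng1 (F := F))) (actsK_ng0 (F := F))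
  rw [m1] at a
  exact ⟨_, a⟩

theorem n4_spec : n4 F ∈ chevG2.monomialSubgroup F ∧ ∃ c : ℕ → F, ActsK (n4 F) 4 c := by
  obtain ⟨m1, m2, m3, m4, m5, -⟩ := mul_tab2
  refine ⟨Subgroup.mul_mem _ (Subgroup.mul_mem _ (ng_mem 1 (by norm_num)) (ng_mem 0 (by norm_num)))
    (ng_mem 1 (by norm_num)), ?_⟩
  have a := actsK_mul m5 (by norm_num) (actsK_mul (by norm_num) (by norm_num)
    (actsK_ng1 (F := F)) (actsK_ng0 (F := F))) (actsK_ng1 (F := F))
  rw [m2] at a
  exact ⟨_, a⟩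

theorem inW_cases {k : ℕ} (hW : inW k = true) : k = 0 ∨ k = 3 ∨ k = 4 ∨ k = 7 := by
  have h : ((k = 0 ∨ k = 3) ∨ k = 4) ∨ k = 7 := by simpa [inW] using hW
  rcases h with ((h | h) | h) | h
  exacts [Or.inl h, Or.inr (Or.inl h), Or.inr (Or.inr (Or.inl h)), Or.inr (Or.inr (Or.inr h))]

theorem inW_lt {k : ℕ} (hW : inW k = true) : k < 12 := by
  rcases inW_cases hW with rfl | rfl | rfl | rfl <;> norm_num

theorem nk_spec {k : ℕ} (hW : inW k = true) :
    nk F k ∈ chevG2.monomialSubgroup F ∧ ∃ c : ℕ → F, ActsK (nk F k) k c := by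
  rcases inW_cases hW with rfl | rfl | rfl | rfl
  · have e : nk F 0 = 1 := by simp [nk]
    rw [e]
    exact ⟨Subgroup.one_mem _, _, acts_one⟩
  · have e : nk F 3 = n3 F := by simp [nk]
    rw [e]
    exact n3_spec
  · have e : nk F 4 = n4 F := by simp [nk]
    rw [e]
    exact n4_spec
  · have e : nk F 7 = n3 F * n4 F := by simp [nk]
    rw [e]
    obtain ⟨h3, c3, a3⟩ := n3_spec (F := F)
    obtain ⟨h4, c4, a4⟩ := n4_spec (F := F)
    have a := actsK_mul (by norm_num) (by norm_num) a3 a4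
    rw [mul_tab2.2.2.1] at a
    exact ⟨Subgroup.mul_mem _ h3 h4, _, a⟩

/-! ### The parameters of the cells -/

/-- The element of the Weyl group attached to a parameter. -/
def idx {α : Type*} : Option α × Option α → ℕ
  | (none, none) => 0
  | (some _, none) => 3
  | (none, some _) => 4
  | (some _, some _) => 7

/-- The coordinates of the unipotent part attached to a parameter. -/
def cd {α : Type*} [Zero α] : Option α × Option α → α × α
  | (none, none) => (0, 0)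
  | (some c, none) => (0, c)
  | (none, some d) => (d, 0)
  | (some c, some d) => (d, c)

theorem idx_inW {α : Type*} (s : Option α × Option α) : inW (idx s) = true := by
  rcases s with ⟨_ | c, _ | d⟩ <;> rfl

theorem param_inj {α : Type*} [Zero α] {s s' : Option α × Option α} (h1 : idx s = idx s')
    (h2 : cd s = cd s') : s = s' := by
  rcases s with ⟨_ | c, _ | d⟩ <;> rcases s' with ⟨_ | c', _ | d'⟩ <;>
    simp [idx, cd] at h1 h2 ⊢ <;>
    first
      | exact h2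
      | exact ⟨h2.2, h2.1⟩

theorem xg_mem_umS {n : GL chevG2.Idx F} {k : ℕ} {c : ℕ → F} (h : ActsK n k c) {r : ℕ}
    (hr : r < 12) (h6 : 6 ≤ r) (hneg : wl k r < 6) (t : F) :
    xg cfG2.af F r t ∈ UmS chevG2 F n := by
  refine Subgroup.subset_closure ⟨r, t, pos_ok r hr h6, ?_, cx hr t⟩
  unfold ChevalleyDatum.rootSubgroup
  rw [MonoidHom.map_closure, Subgroup.closure_le]
  rintro _ ⟨g₀, ⟨t₀, ht₀⟩, rfl⟩
  have e : g₀ = xg cfG2.af F r t₀ := Units.ext (by rw [ht₀, cx hr])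
  rw [e]
  show n * xg cfG2.af F r t₀ * n⁻¹ ∈ _
  rw [(h r hr).2 t₀]
  exact xg_mem_neg hneg _

theorem P2_zero : P2 F (0, 0) = 1 := by
  simp [P2, xg_zero hadd cfG2.af]

theorem uu_mem (s : Option F × Option F) : P2 F (cd s) ∈ UmS chevG2 F (nk F (idx s)) := by
  obtain ⟨-, -, -, -, -, w1, w2, w3, w4, -, -⟩ := mul_tab2
  rcases s with ⟨_ | c, _ | d⟩
  · have e1 : cd ((none, none) : Option F × Option F) = (0, 0) := rfl
    rw [e1, P2_zero]
    exact Subgroup.one_mem _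
  · have e1 : cd ((none, some d) : Option F × Option F) = (d, 0) := rfl
    have e2 : idx ((none, some d) : Option F × Option F) = 4 := rfl
    rw [e1, e2]
    obtain ⟨-, c', a⟩ := nk_spec (F := F) (k := 4) (by decide)
    have e : P2 F (d, 0) = xg cfG2.af F 8 d := by simp [P2, xg_zero hadd cfG2.af]
    rw [e]
    exact xg_mem_umS a (by norm_num) (by norm_num) (by rw [w2]; norm_num) d
  · have e1 : cd ((some c, none) : Option F × Option F) = (0, c) := rfl
    have e2 : idx ((some c, none) : Option F × Option F) = 3 := rfl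
    rw [e1, e2]
    obtain ⟨-, c', a⟩ := nk_spec (F := F) (k := 3) (by decide)
    have e : P2 F (0, c) = xg cfG2.af F 10 c := by simp [P2, xg_zero hadd cfG2.af]
    rw [e]
    exact xg_mem_umS a (by norm_num) (by norm_num) (by rw [w1]; norm_num) c
  · have e1 : cd ((some c, some d) : Option F × Option F) = (d, c) := rfl
    have e2 : idx ((some c, some d) : Option F × Option F) = 7 := rfl
    rw [e1, e2]
    obtain ⟨-, c', a⟩ := nk_spec (F := F) (k := 7) (by decide)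
    exact Subgroup.mul_mem _ (xg_mem_umS a (by norm_num) (by norm_num) (by rw [w3]; norm_num) d)
      (xg_mem_umS a (by norm_num) (by norm_num) (by rw [w4]; norm_num) c)

theorem umS_conj_z {z : GL chevG2.Idx F} (hz : IsZ z) {n u : GL chevG2.Idx F}
    (hu : u ∈ UmS chevG2 F n) : z * u * z⁻¹ ∈ UmS chevG2 F n := by
  unfold UmS at hu ⊢
  refine RD.conj_closure_mem z ?_ hu
  rintro x ⟨r, t, hr, hX, hx⟩
  have hr12 : r < 12 := by
    have := hr.1
    rw [nroots_eq] at this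
    exact this
  have ex : x = xg cfG2.af F r t := Units.ext (by rw [hx, cx hr12])
  rw [ex, z_conj hz hr12]
  exact Subgroup.subset_closure ⟨r, ch F r * t, hr, hX, cx hr12 _⟩

/-! ### The parametrization of the centralizer -/

/-- The parametrization of the centralizer of the involution by its Bruhat cells. -/
noncomputable def Psi (F : Type*) [Field F]
    (x : ((F × F) × ↥(chevG2.diagonalSubgroup F)) × (Option F × Option F)) : GL chevG2.Idx F :=
  P2 F x.1.1 * (x.1.2 : GL chevG2.Idx F) * nk F (idx x.2) * P2 F (cd x.2)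

theorem Psi_mem (x : ((F × F) × ↥(chevG2.diagonalSubgroup F)) × (Option F × Option F)) :
    Psi F x ∈ chevG2.group F := by
  obtain ⟨hn, -⟩ := nk_spec (F := F) (idx_inW x.2)
  exact Subgroup.mul_mem _ (Subgroup.mul_mem _ (Subgroup.mul_mem _
    (posUnipotent_le chevG2 F (P2_mem_pos _)) (diagonalSubgroup_le cfG2.af F x.1.2.2))
    (monomialSubgroup_le cfG2.af F hn)) (posUnipotent_le chevG2 F (P2_mem_pos _))

theorem Psi_comm {z : GL chevG2.Idx F} (hz : IsZ z)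
    (x : ((F × F) × ↥(chevG2.diagonalSubgroup F)) × (Option F × Option F)) :
    z * Psi F x = Psi F x * z := by
  obtain ⟨hn, c, a⟩ := nk_spec (F := F) (idx_inW x.2)
  have h1 : Commute z (P2 F x.1.1) := P2_comm hz _
  have h2 : Commute z (x.1.2 : GL chevG2.Idx F) := H_comm (z_mem_H hz) x.1.2.2
  have h3 : Commute z (nk F (idx x.2)) :=
    comm_z_of_acts hz hn (inW_lt (idx_inW x.2)) (idx_inW x.2) a
  have h4 : Commute z (P2 F (cd x.2)) := P2_comm hz _
  exact (((h1.mul_right h2).mul_right h3).mul_right h4).eq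

theorem Psi_inj : Function.Injective (Psi F) := by
  rintro ⟨⟨p, h⟩, s⟩ ⟨⟨p', h'⟩, s'⟩ e
  simp only [Psi] at e
  obtain ⟨hn, c, a⟩ := nk_spec (F := F) (idx_inW s)
  obtain ⟨hn', c', a'⟩ := nk_spec (F := F) (idx_inW s')
  have hb : P2 F p * (h : GL chevG2.Idx F) ∈ chevG2.borelSubgroup F :=
    Subgroup.mul_mem _ (Subgroup.mem_sup_left (P2_mem_pos p)) (Subgroup.mem_sup_right h.2)
  have hb' : P2 F p' * (h' : GL chevG2.Idx F) ∈ chevG2.borelSubgroup F :=
    Subgroup.mul_mem _ (Subgroup.mem_sup_left (P2_mem_pos p')) (Subgroup.mem_sup_right h'.2)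
  obtain ⟨k1, k2⟩ := (normal_form cfG2 (hadd (F := F)) hinj).2 _ _ _ _ _ _ hb hb' hn hn'
    (uu_mem s) (uu_mem s') e
  have hk : idx s < 12 := inW_lt (idx_inW s)
  have hk' : idx s' < 12 := inW_lt (idx_inW s')
  have hidx : idx s = idx s' := by
    obtain ⟨-, hinv, -, -, -⟩ := w0_tab2 (idx s) hk (idx_inW s)
    have a1 := actsK_mul hk hk' (actsK_inv hk hinv a) a'
    have h0 := zero_of_mem_H k1 (mulK_ok _ hk _ hk').1 a1
    exact w0_tab4 _ hk _ hk' (idx_inW s) (idx_inW s') h0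
  have hnn : nk F (idx s) = nk F (idx s') := by rw [hidx]
  obtain ⟨e1, e2⟩ := k2 hnn
  have hs : s = s' := param_inj hidx (P2_inj e2)
  have e3 : (P2 F p')⁻¹ * P2 F p = (h' : GL chevG2.Idx F) * (h : GL chevG2.Idx F)⁻¹ := by
    calc (P2 F p')⁻¹ * P2 F p
        = (P2 F p')⁻¹ * (P2 F p * (h : GL chevG2.Idx F)) * (h : GL chevG2.Idx F)⁻¹ := by group
      _ = (P2 F p')⁻¹ * (P2 F p' * (h' : GL chevG2.Idx F)) * (h : GL chevG2.Idx F)⁻¹ := by
          rw [e1]
      _ = (h' : GL chevG2.Idx F) * (h : GL chevG2.Idx F)⁻¹ := by group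
  have h4 : (P2 F p')⁻¹ * P2 F p ∈ chevG2.posUnipotent F ⊓ chevG2.diagonalSubgroup F :=
    ⟨Subgroup.mul_mem _ (Subgroup.inv_mem _ (P2_mem_pos p')) (P2_mem_pos p), by
      rw [e3]; exact Subgroup.mul_mem _ h'.2 (Subgroup.inv_mem _ h.2)⟩
  rw [posUnipotent_inf_diagonal cfG2.af cfG2.pw, Subgroup.mem_bot] at h4
  have hp : P2 F p = P2 F p' := by
    calc P2 F p = P2 F p' * ((P2 F p')⁻¹ * P2 F p) := by group
      _ = P2 F p' := by rw [h4, mul_one]
  have hpp : p = p' := P2_inj hp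
  have hh : (h : GL chevG2.Idx F) = h' := by
    rw [hp] at e1
    exact mul_left_cancel e1
  have hh' : h = h' := Subtype.ext hh
  rw [hpp, hs, hh']

theorem Psi_surj {z : GL chevG2.Idx F} (hz : IsZ z) (h2F : (2 : F) ≠ 0) {g : GL chevG2.Idx F}
    (hg : g ∈ chevG2.group F) (hc : z * g = g * z) : ∃ x, Psi F x = g := by
  obtain ⟨b, hb, n, hn, u, hu, e⟩ := (normal_form cfG2 (hadd (F := F)) hinj).1 g hg
  have hzH := z_mem_H hz
  have hzB : z ∈ chevG2.borelSubgroup F := Subgroup.mem_sup_right hzH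
  have hu' : z * u * z⁻¹ ∈ UmS chevG2 F n := umS_conj_z hz hu
  have hh2 : z * n * z⁻¹ * n⁻¹ ∈ chevG2.diagonalSubgroup F := by
    have h1 := N_conj_H' hn (Subgroup.inv_mem _ hzH)
    have e' : z * n * z⁻¹ * n⁻¹ = z * (n * z⁻¹ * n⁻¹) := by group
    rw [e']
    exact Subgroup.mul_mem _ hzH h1
  have hb2 : z * b * z⁻¹ * (z * n * z⁻¹ * n⁻¹) ∈ chevG2.borelSubgroup F :=
    Subgroup.mul_mem _ (Subgroup.mul_mem _ (Subgroup.mul_mem _ hzB hb) (Subgroup.inv_mem _ hzB))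
      (Subgroup.mem_sup_right hh2)
  have e2 : b * n * u = z * b * z⁻¹ * (z * n * z⁻¹ * n⁻¹) * n * (z * u * z⁻¹) := by
    have e' : z * b * z⁻¹ * (z * n * z⁻¹ * n⁻¹) * n * (z * u * z⁻¹) = z * (b * n * u) * z⁻¹ := by
      group
    rw [e', ← e, hc]
    group
  obtain ⟨-, k2⟩ := (normal_form cfG2 (hadd (F := F)) hinj).2 _ _ _ _ _ _ hb hb2 hn hn hu hu' e2
  obtain ⟨e3, e4⟩ := k2 rfl
  have hcu : z * u = u * z := by
    have h1 := e4
    rw [eq_mul_inv_iff_mul_eq] at h1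
    exact h1.symm
  have hbB : b ∈ (cfG2.rd (hadd (F := F))).B := by rw [rd_B]; exact hb
  obtain ⟨v, hv, h₀, hh₀, rfl⟩ :=
    RD.exists_mul_of_mem_sup' (cfG2.rd (hadd (F := F))).H_le_normalizer_U hbB
  have hh₀' : h₀ ∈ chevG2.diagonalSubgroup F := hh₀
  have hzv : z * v * z⁻¹ ∈ chevG2.posUnipotent F := by
    have h1 := (cfG2.rd (hadd (F := F))).H_conj_U hzH hv
    rwa [rd_U] at h1
  rw [rd_U] at hv
  have hzh : z * h₀ * z⁻¹ = h₀ := by
    rw [H_comm hzH hh₀']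
    group
  have e6 : z * (v * h₀) * z⁻¹ = (z * v * z⁻¹) * h₀ := by
    calc z * (v * h₀) * z⁻¹ = (z * v * z⁻¹) * (z * h₀ * z⁻¹) := by group
      _ = (z * v * z⁻¹) * h₀ := by rw [hzh]
  have e5 : (z * v * z⁻¹)⁻¹ * v = h₀ * (z * n * z⁻¹ * n⁻¹) * h₀⁻¹ := by
    calc (z * v * z⁻¹)⁻¹ * v = (z * v * z⁻¹)⁻¹ * (v * h₀) * h₀⁻¹ := by group
      _ = (z * v * z⁻¹)⁻¹ * (z * (v * h₀) * z⁻¹ * (z * n * z⁻¹ * n⁻¹)) * h₀⁻¹ := by rw [← e3]
      _ = h₀ * (z * n * z⁻¹ * n⁻¹) * h₀⁻¹ := by rw [e6]; group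
  have h4 : (z * v * z⁻¹)⁻¹ * v ∈ chevG2.posUnipotent F ⊓ chevG2.diagonalSubgroup F :=
    ⟨Subgroup.mul_mem _ (Subgroup.inv_mem _ hzv) hv, by
      rw [e5]
      exact Subgroup.mul_mem _ (Subgroup.mul_mem _ hh₀' hh2) (Subgroup.inv_mem _ hh₀')⟩
  rw [posUnipotent_inf_diagonal cfG2.af cfG2.pw, Subgroup.mem_bot] at h4
  have hcv : z * v = v * z := by
    have h1 : z * v * z⁻¹ = v := by
      calc z * v * z⁻¹ = z * v * z⁻¹ * ((z * v * z⁻¹)⁻¹ * v) := by rw [h4, mul_one]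
        _ = v := by group
    rw [mul_inv_eq_iff_eq_mul] at h1
    exact h1
  have hcn : z * n = n * z := by
    rw [h4] at e5
    have h1 : z * n * z⁻¹ * n⁻¹ = 1 := by
      calc z * n * z⁻¹ * n⁻¹ = h₀⁻¹ * (h₀ * (z * n * z⁻¹ * n⁻¹) * h₀⁻¹) * h₀ := by group
        _ = 1 := by rw [← e5]; group
    calc z * n = (z * n * z⁻¹ * n⁻¹) * n * z := by group
      _ = n * z := by rw [h1, one_mul]
  obtain ⟨k, hk, c, a⟩ := exists_actsK hn
  have hW := inW_of_comm hz h2F hk a hcn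
  obtain ⟨p, rfl⟩ := cent_U hz h2F hv hcv
  obtain ⟨q, hq⟩ := cent_U hz h2F (umS_le_pos n hu) hcu
  obtain ⟨hnk, c', a'⟩ := nk_spec (F := F) hW
  obtain ⟨hsg, hinv, hkk, -, -⟩ := w0_tab2 k hk hW
  have a'' := actsK_mul hk hk a (actsK_inv hk hinv a')
  rw [hkk] at a''
  have hh'' : n * (nk F k)⁻¹ ∈ chevG2.diagonalSubgroup F :=
    mem_H_of_acts0 (Subgroup.mul_mem _ hn (Subgroup.inv_mem _ hnk)) a''
  have hneg := umS_conj n hu
  have hconj : n * u * n⁻¹ =
      xg cfG2.af F (wl k 8) (c 8 * q.1) * xg cfG2.af F (wl k 10) (c 10 * q.2) := by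
    rw [hq, ← (a 8 (by norm_num)).2, ← (a 10 (by norm_num)).2]
    unfold P2
    group
  obtain ⟨-, -, -, -, -, w1, w2, w3, w4, w5, w6⟩ := mul_tab2
  have hs : ∃ s : Option F × Option F, idx s = k ∧ cd s = q := by
    rcases inW_cases hW with rfl | rfl | rfl | rfl
    · refine ⟨(none, none), rfl, ?_⟩
      have hnH : n ∈ chevG2.diagonalSubgroup F := mem_H_of_acts0 hn a
      have h1 : n * u * n⁻¹ ∈ chevG2.posUnipotent F := by
        have h2 := (cfG2.rd (hadd (F := F))).H_conj_U hnH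
          (by rw [rd_U]; exact umS_le_pos n hu : u ∈ (cfG2.rd (hadd (F := F))).U)
        rwa [rd_U] at h2
      have h3 : n * u * n⁻¹ ∈ chevG2.posUnipotent F ⊓ chevG2.negUnipotent F := ⟨h1, hneg⟩
      rw [pos_inf_neg cfG2, Subgroup.mem_bot] at h3
      have hu1 : u = 1 := by
        calc u = n⁻¹ * (n * u * n⁻¹) * n := by group
          _ = 1 := by rw [h3]; group
      apply P2_inj
      rw [← hq, hu1]
      exact P2_zero
    · refine ⟨(some q.2, none), rfl, ?_⟩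
      rw [w5, w1] at hconj
      have h1 : xg cfG2.af F 8 (c 8 * q.1) ∈ chevG2.posUnipotent F ⊓ chevG2.negUnipotent F := by
        refine ⟨xg_mem_pos (by norm_num) (by norm_num) _, ?_⟩
        have e7 : xg cfG2.af F 8 (c 8 * q.1) = n * u * n⁻¹ * (xg cfG2.af F 1 (c 10 * q.2))⁻¹ := by
          rw [hconj]
          group
        rw [e7]
        exact Subgroup.mul_mem _ hneg (Subgroup.inv_mem _ (xg_mem_neg (by norm_num) _))
      rw [pos_inf_neg cfG2, Subgroup.mem_bot] at h1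
      have h2 : c 8 * q.1 = 0 := by
        by_contra h
        exact xg_ne_one (by norm_num) h h1
      have h3 : q.1 = 0 := (mul_eq_zero.mp h2).resolve_left (a 8 (by norm_num)).1
      exact Prod.ext h3.symm rfl
    · refine ⟨(none, some q.1), rfl, ?_⟩
      rw [w2, w6] at hconj
      have h1 : xg cfG2.af F 10 (c 10 * q.2) ∈ chevG2.posUnipotent F ⊓ chevG2.negUnipotent F := by
        refine ⟨xg_mem_pos (by norm_num) (by norm_num) _, ?_⟩
        have e7 : xg cfG2.af F 10 (c 10 * q.2) =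
            (xg cfG2.af F 3 (c 8 * q.1))⁻¹ * (n * u * n⁻¹) := by
          rw [hconj]
          group
        rw [e7]
        exact Subgroup.mul_mem _ (Subgroup.inv_mem _ (xg_mem_neg (by norm_num) _)) hneg
      rw [pos_inf_neg cfG2, Subgroup.mem_bot] at h1
      have h2 : c 10 * q.2 = 0 := by
        by_contra h
        exact xg_ne_one (by norm_num) h h1
      have h3 : q.2 = 0 := (mul_eq_zero.mp h2).resolve_left (a 10 (by norm_num)).1
      exact Prod.ext rfl h3.symm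
    · exact ⟨(some q.2, some q.1), rfl, rfl⟩
  obtain ⟨s, hs1, hs2⟩ := hs
  refine ⟨((p, ⟨h₀ * (n * (nk F k)⁻¹), Subgroup.mul_mem _ hh₀' hh''⟩), s), ?_⟩
  simp only [Psi]
  rw [hs1, hs2, e, hq]
  group

end Cfsg.Agent.Lib.Helper36.OddG2l
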