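import Mathlib
import Cfsg.Agent.Lib.Helper36.OddG2l
import Cfsg.Agent.Lib.Helper36.OddG2j

set_option autoImplicit false
set_option linter.unusedSimpArgs false
set_option linter.unusedSectionVars false
set_option linter.unusedVariables false

namespace Cfsg.Agent.Lib.Helper36.OddG2m

open Cfsg Cfsg.Lie Cfsg.Agent.Lib.Helper18.Fast Cfsg.Agent.Lib.Helper18.Grade
  Cfsg.Agent.Lib.Helper18.Facts Cfsg.Agent.Lib.Helper18.AllRoots Cfsg.Agent.Lib.Helper18.Loop
  Cfsg.Agent.Lib.Helper18.Weyl Cfsg.Agent.Lib.Helper18.RootSys Cfsg.Agent.Lib.Helper18.Orbit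
  Cfsg.Agent.Lib.Helper18.Units Cfsg.Agent.Lib.Helper18.Sub Cfsg.Agent.Lib.Helper18.Norm
  Cfsg.Agent.Lib.Helper18.HAll Cfsg.Agent.Lib.Helper18.Torus Cfsg.Agent.Lib.Helper18.Pos
  Cfsg.Agent.Lib.Helper18.WGroup Cfsg.Agent.Lib.Helper18.BNChev Cfsg.Agent.Lib.Helper18.Mono
  Cfsg.Agent.Lib.Helper18.BNPairC Cfsg.Agent.Lib.Helper18 Cfsg.Agent.Lib.Helper36.OddG2a
  Cfsg.Agent.Lib.Helper36.OddG2b Cfsg.Agent.Lib.Helper36.OddG2c Cfsg.Agent.Lib.Helper36.OddG2d
  Cfsg.Agent.Lib.Helper36.OddG2e Cfsg.Agent.Lib.Helper36.OddG2f Cfsg.Agent.Lib.Helper36.OddG2g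
  Cfsg.Agent.Lib.Helper36.OddG2h Cfsg.Agent.Lib.Helper36.OddG2i Cfsg.Agent.Lib.Helper36.OddG2j
  Cfsg.Agent.Lib.Helper36.OddG2k Cfsg.Agent.Lib.Helper36.OddG2l
  Cfsg.Agent.Lib.Helper18.HOrder Cfsg.Agent.Lib.Helper18.HOrderTab

variable {F : Type*} [Field F]

theorem prodG2' (k : ℕ) : (∏ j : Fin TabG2.fd.rank, Nat.gcd k (natOf dG2 j)) = 1 := by
  show (∏ j : Fin 2, Nat.gcd k (natOf dG2 j)) = 1
  simp [Fin.prod_univ_succ, natOf, dG2]

theorem card_H [Fintype F] :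
    Nat.card (chevG2.diagonalSubgroup F) = (Fintype.card F - 1) ^ 2 := by
  have h := card_diag (F := F) RTabG2.afacts hokG2
  rw [prodG2', one_mul] at h
  have h' : (Fintype.card F - 1) ^ chevG2.rank = (Fintype.card F - 1) ^ 2 := by rw [rank_eq]
  exact h.trans h'

/-- The order of the centralizer of the standard involution. -/
theorem card_cent [Fintype F] (h2F : (2 : F) ≠ 0) {z : GL chevG2.Idx F} (hz : IsZ z) :
    Nat.card {g : GL chevG2.Idx F // g ∈ chevG2.group F ∧ z * g = g * z} =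
      Fintype.card F ^ 2 * (Fintype.card F ^ 2 - 1) ^ 2 := by
  have e : (((F × F) × ↥(chevG2.diagonalSubgroup F)) × (Option F × Option F)) ≃
      {g : GL chevG2.Idx F // g ∈ chevG2.group F ∧ z * g = g * z} :=
    Equiv.ofBijective (fun x => ⟨Psi F x, Psi_mem x, Psi_comm hz x⟩)
      ⟨fun x y h => Psi_inj (congrArg Subtype.val h), fun y => by
        obtain ⟨x, hx⟩ := Psi_surj hz h2F y.2.1 y.2.2
        exact ⟨x, Subtype.ext hx⟩⟩
  rw [← Nat.card_congr e, Nat.card_prod, Nat.card_prod, Nat.card_prod, Nat.card_prod, card_H,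
    Nat.card_eq_fintype_card (α := Option F), Fintype.card_option,
    Nat.card_eq_fintype_card (α := F)]
  have hq : 1 ≤ Fintype.card F := Fintype.card_pos
  obtain ⟨p, hp⟩ : ∃ p, Fintype.card F = p + 1 := ⟨Fintype.card F - 1, by omega⟩
  rw [hp]
  have e1 : (p + 1) ^ 2 - 1 = p * (p + 2) := by
    apply Nat.sub_eq_of_eq_add
    ring
  rw [e1, Nat.add_sub_cancel]
  ring

theorem card_centralizer [Fintype F] (h2F : (2 : F) ≠ 0) {z : GL chevG2.Idx F}
    (hzG : z ∈ chevG2.group F) (hz : IsZ z) :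
    Nat.card (Subgroup.centralizer ({⟨z, hzG⟩} : Set ↥(chevG2.group F))) =
      Fintype.card F ^ 2 * (Fintype.card F ^ 2 - 1) ^ 2 := by
  rw [← card_cent h2F hz]
  apply Nat.card_congr
  exact {
    toFun := fun x => ⟨(x.1 : GL chevG2.Idx F), x.1.2, by
      have h := Subgroup.mem_centralizer_iff.mp x.2 ⟨z, hzG⟩ rfl
      exact congrArg Subtype.val h⟩
    invFun := fun y => ⟨⟨y.1, y.2.1⟩, by
      rw [Subgroup.mem_centralizer_iff]
      intro h hh
      rw [Set.mem_singleton_iff] at hh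
      rw [hh]
      exact Subtype.ext y.2.2⟩
    left_inv := fun x => rfl
    right_inv := fun y => rfl }

theorem card_centralizer_conj {Γ : Type*} [Group Γ] (γ t : Γ) :
    Nat.card (Subgroup.centralizer ({γ * t * γ⁻¹} : Set Γ)) =
      Nat.card (Subgroup.centralizer ({t} : Set Γ)) := by
  apply Nat.card_congr
  exact {
    toFun := fun x => ⟨γ⁻¹ * x.1 * γ, by
      have hx := Subgroup.mem_centralizer_iff.mp x.2 (γ * t * γ⁻¹) rfl
      rw [Subgroup.mem_centralizer_iff]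
      intro h hh
      rw [Set.mem_singleton_iff] at hh
      rw [hh]
      calc t * (γ⁻¹ * x.1 * γ) = γ⁻¹ * (γ * t * γ⁻¹ * x.1) * γ := by group
        _ = γ⁻¹ * (x.1 * (γ * t * γ⁻¹)) * γ := by rw [hx]
        _ = γ⁻¹ * x.1 * γ * t := by group⟩
    invFun := fun y => ⟨γ * y.1 * γ⁻¹, by
      have hy := Subgroup.mem_centralizer_iff.mp y.2 t rfl
      rw [Subgroup.mem_centralizer_iff]
      intro h hh
      rw [Set.mem_singleton_iff] at hh
      rw [hh]
      calc γ * t * γ⁻¹ * (γ * y.1 * γ⁻¹) = γ * (t * y.1) * γ⁻¹ := by group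
        _ = γ * (y.1 * t) * γ⁻¹ := by rw [hy]
        _ = γ * y.1 * γ⁻¹ * (γ * t * γ⁻¹) := by group⟩
    left_inv := fun x => Subtype.ext (by
      show γ * (γ⁻¹ * x.1 * γ) * γ⁻¹ = x.1
      group)
    right_inv := fun y => Subtype.ext (by
      show γ⁻¹ * (γ * y.1 * γ⁻¹) * γ = y.1
      group) }

/-- The centralizer of an involution of `G₂(q)`, `q` odd. -/
theorem invol_cent [Fintype F] (hF : Odd (Fintype.card F)) (t : ↥(chevG2.group F))
    (ht : orderOf t = 2) :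
    Nat.card (Subgroup.centralizer ({t} : Set ↥(chevG2.group F))) =
        Fintype.card F ^ 2 * (Fintype.card F ^ 2 - 1) ^ 2 ∧
      ∃ L₁ L₂ : Subgroup ↥(chevG2.group F),
        Nonempty (L₁ ≃* Matrix.SpecialLinearGroup (Fin 2) F) ∧
        Nonempty (L₂ ≃* Matrix.SpecialLinearGroup (Fin 2) F) ∧
        (∀ x ∈ L₁, ∀ y ∈ L₂, x * y = y * x) ∧ L₁ ⊓ L₂ = Subgroup.zpowers t ∧
        L₁ ⊔ L₂ ≤ Subgroup.centralizer ({t} : Set ↥(chevG2.group F)) ∧
        (L₁ ⊔ L₂).relIndex (Subgroup.centralizer ({t} : Set ↥(chevG2.group F))) = 2 := by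
  have h2F : (2 : F) ≠ 0 := by
    apply Ring.two_ne_zero
    intro hch
    have h1 := FiniteField.even_card_of_char_two hch
    have h2 := Nat.odd_iff.mp hF
    omega
  have ht2 : t * t = 1 := by
    have h := pow_orderOf_eq_one t
    rw [ht, pow_two] at h
    exact h
  have ht1 : t ≠ 1 := by
    intro h
    rw [h, orderOf_one] at ht
    omega
  have ht2' : (t : GL chevG2.Idx F) * (t : GL chevG2.Idx F) = 1 := by
    have h := congrArg Subtype.val ht2
    simpa using h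
  have ht1' : (t : GL chevG2.Idx F) ≠ 1 := fun h => ht1 (Subtype.ext h)
  obtain ⟨g, hg, hzg⟩ := invol_conj hF t.2 ht2' ht1'
  have hz : IsZ (((⟨g, hg⟩ : ↥(chevG2.group F)) * t * (⟨g, hg⟩ : ↥(chevG2.group F))⁻¹ :
      ↥(chevG2.group F)) : GL chevG2.Idx F) := hzg
  have hC : Nat.card (Subgroup.centralizer ({t} : Set ↥(chevG2.group F))) =
      Fintype.card F ^ 2 * (Fintype.card F ^ 2 - 1) ^ 2 := by
    rw [← card_centralizer_conj (⟨g, hg⟩ : ↥(chevG2.group F)) t]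
    exact card_centralizer h2F
      ((⟨g, hg⟩ : ↥(chevG2.group F)) * t * (⟨g, hg⟩ : ↥(chevG2.group F))⁻¹).2 hz
  refine ⟨hC, ?_⟩
  obtain ⟨φ, P⟩ := exists_phi8 (F := F)
  obtain ⟨ψ, Q⟩ := exists_phi10 (F := F)
  obtain ⟨-, -, p1, p2, p3, p4⟩ := neg_tab
  have p89 : pairE FTabG2.fd 8 9 % 2 = 1 := by rw [p1]; rfl
  have p811 : pairE FTabG2.fd 8 11 % 2 = 1 := by rw [p2]; rfl
  have p109 : pairE FTabG2.fd 10 9 % 2 = 1 := by rw [p3]; rfl
  have p1011 : pairE FTabG2.fd 10 11 % 2 = 1 := by rw [p4]; rfl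
  refine central_product h2F t
    ((MulAut.conj (⟨g, hg⟩ : ↥(chevG2.group F))⁻¹).toMonoidHom.comp
      (φ.codRestrict (chevG2.group F) P.mem))
    ((MulAut.conj (⟨g, hg⟩ : ↥(chevG2.group F))⁻¹).toMonoidHom.comp
      (ψ.codRestrict (chevG2.group F) Q.mem)) ?_ ?_ ?_ ?_ ?_ hC
  · intro A B hAB
    have h1 := (MulAut.conj (⟨g, hg⟩ : ↥(chevG2.group F))⁻¹).injective hAB
    exact P.inj h2F p89 (congrArg Subtype.val h1)
  · intro A B hAB
    have h1 := (MulAut.conj (⟨g, hg⟩ : ↥(chevG2.group F))⁻¹).injective hAB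
    exact Q.inj h2F p109 (congrArg Subtype.val h1)
  · intro A B
    have h := phi_comm P Q A B
    have h' : Commute (φ.codRestrict (chevG2.group F) P.mem A)
        (ψ.codRestrict (chevG2.group F) Q.mem B) := Subtype.ext h.eq
    exact h'.map (MulAut.conj (⟨g, hg⟩ : ↥(chevG2.group F))⁻¹).toMonoidHom
  · have h1 : φ.codRestrict (chevG2.group F) P.mem (negI F) =
        (⟨g, hg⟩ : ↥(chevG2.group F)) * t * (⟨g, hg⟩ : ↥(chevG2.group F))⁻¹ :=
      Subtype.ext (P.negI_eq_z p89 p811 hz)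
    show (⟨g, hg⟩ : ↥(chevG2.group F))⁻¹ * φ.codRestrict (chevG2.group F) P.mem (negI F) *
      (⟨g, hg⟩ : ↥(chevG2.group F))⁻¹⁻¹ = t
    rw [h1]
    group
  · have h1 : ψ.codRestrict (chevG2.group F) Q.mem (negI F) =
        (⟨g, hg⟩ : ↥(chevG2.group F)) * t * (⟨g, hg⟩ : ↥(chevG2.group F))⁻¹ :=
      Subtype.ext (Q.negI_eq_z p109 p1011 hz)
    show (⟨g, hg⟩ : ↥(chevG2.group F))⁻¹ * ψ.codRestrict (chevG2.group F) Q.mem (negI F) *
      (⟨g, hg⟩ : ↥(chevG2.group F))⁻¹⁻¹ = t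
    rw [h1]
    group

end Cfsg.Agent.Lib.Helper36.OddG2m
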