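import Mathlib
import Cfsg.Agent.Lib.Helper18.ParAll

set_option autoImplicit false
set_option linter.unusedSimpArgs false
set_option linter.unusedSectionVars false
set_option linter.unusedVariables false

/-!
Root elements conjugate under the Borel subgroup belong to the same root, and an element of the
Weyl group fixing every positive root outside of a proper parabolic subsystem is trivial.
-/

namespace Cfsg.Agent.Lib.Helper36.ParCen1

open Cfsg Cfsg.Lie Cfsg.Agent.Lib.Helper18.Fast Cfsg.Agent.Lib.Helper18.Grade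
  Cfsg.Agent.Lib.Helper18.Facts Cfsg.Agent.Lib.Helper18.AllRoots Cfsg.Agent.Lib.Helper18.Loop
  Cfsg.Agent.Lib.Helper18.Weyl Cfsg.Agent.Lib.Helper18.RootSys Cfsg.Agent.Lib.Helper18.Orbit
  Cfsg.Agent.Lib.Helper18.Units Cfsg.Agent.Lib.Helper18.Sub Cfsg.Agent.Lib.Helper18.Norm
  Cfsg.Agent.Lib.Helper18.HAll Cfsg.Agent.Lib.Helper18.Torus Cfsg.Agent.Lib.Helper18.Pos
  Cfsg.Agent.Lib.Helper18.WGroup Cfsg.Agent.Lib.Helper18.BNChev Cfsg.Agent.Lib.Helper18.Mono
  Cfsg.Agent.Lib.Helper18.BNPairC Cfsg.Agent.Lib.Helper18.UOrd Cfsg.Agent.Lib.Helper18.Cox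
  Cfsg.Agent.Lib.Helper18.Long Cfsg.Agent.Lib.Helper18.Core Cfsg.Agent.Lib.Helper18.Conj
  Cfsg.Agent.Lib.Helper18.RFact Cfsg.Agent.Lib.Helper18.BNCell Cfsg.Agent.Lib.Helper18.Vec
  Cfsg.Agent.Lib.Helper18.XMat Cfsg.Agent.Lib.Helper18.Cells Cfsg.Agent.Lib.Helper18.Cox2
  Cfsg.Agent.Lib.Helper18.Cells2 Cfsg.Agent.Lib.Helper18.Cox3 Cfsg.Agent.Lib.Helper18.HOrder
  Cfsg.Agent.Lib.Helper18.HOrderTab Cfsg.Agent.Lib.Helper18.Tri Cfsg.Agent.Lib.Helper18.Par
  Cfsg.Agent.Lib.Helper18.Par2 Cfsg.Agent.Lib.Helper18.Par3 Cfsg.Agent.Lib.Helper18.Par4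

variable {A : FData} {D : ChevalleyDatum} {F : Type*} [Field F] {X : WD} {m : ℕ → ℕ → ℤ}
  {w : ℕ → ℤ} {N : ℕ} {ord rnk : ℕ → ℕ} {bz : ℕ → ℕ → ℤ} {w' : ℕ → ℤ} {c : ℤ} {fw : ℕ → ℕ → ℤ}

/-! ### Entries of root elements -/

/-- The entries of `x_s(t)` between two indices of the Cartan part. -/
theorem x_entry_hh (hF : AFacts A D) {s : ℕ} (hs : s < A.n) (j i : Fin D.rank) (t : F) :
    D.x F s t (Sum.inl j) (Sum.inl i) = if j = i then 1 else 0 := by
  have hs' : s < D.nroots := lt_nroots hF hs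
  rw [x_eq_xMat hs', xMat_apply hF.agrees]
  have hn := hF.agrees.n_eq
  have hrk := hF.agrees.rank_eq
  have e1 : enc D (Sum.inl i : D.Idx) = A.n + i.val := by
    simp only [enc]
    omega
  have e2 : enc D (Sum.inl j : D.Idx) = A.n + j.val := by
    simp only [enc]
    omega
  rw [e1, e2]
  unfold FData.xcol
  have hi := i.isLt
  have hj := j.isLt
  rw [if_neg (by omega), if_pos (by omega)]
  by_cases hji : j = i
  · subst hji
    rw [if_pos rfl, List.filter_cons_of_pos (by simp), List.filter_cons_of_neg (by simp; omega)]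
    simp
  · have hne : ¬ (i.val = j.val) := fun h => hji (Fin.ext h.symm)
    rw [if_neg hji, List.filter_cons_of_neg (by simp; omega),
      List.filter_cons_of_neg (by simp; omega)]
    simp

/-- The column of `e_{-r}` in `x_r(t)`, away from the row of `e_r`. -/
theorem x_entry_col (hF : AFacts A D) {r : ℕ} (hr : r < A.n) (k : Fin D.nroots)
    (hk : k.val ≠ r) (t : F) :
    D.x F r t (Sum.inr k) (Sum.inr ⟨A.neg r, lt_nroots hF (hF.agrees.neg_lt r hr)⟩) =
      if k.val = A.neg r then 1 else 0 := by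
  have hr' : r < D.nroots := lt_nroots hF hr
  rw [x_eq_xMat hr', xMat_apply hF.agrees]
  have hn := hF.agrees.n_eq
  have h1 : A.neg r < A.n := hF.agrees.neg_lt r hr
  have h2 : A.neg r ≠ r := hF.sym.neg_ne r hr
  have e1 : enc D (Sum.inr ⟨A.neg r, lt_nroots hF h1⟩ : D.Idx) = A.neg r := rfl
  have e2 : enc D (Sum.inr k : D.Idx) = k.val := rfl
  rw [e1, e2]
  unfold FData.xcol
  rw [if_pos h1, if_neg h2, if_pos rfl]
  have hk' := k.isLt
  have e3 : ((List.range A.rank).map (fun i => (A.n + i, 1, A.cor r i))).filter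
      (fun e : ℕ × ℕ × ℤ => e.1 = k.val) = [] := by
    rw [List.filter_eq_nil_iff]
    intro e he
    rw [List.mem_map] at he
    obtain ⟨i, hi, rfl⟩ := he
    simp
    omega
  by_cases hkn : k.val = A.neg r
  · rw [if_pos hkn, List.filter_cons_of_pos (by simp [hkn]),
      List.filter_cons_of_neg (by simp; omega), e3]
    simp
  · rw [if_neg hkn, List.filter_cons_of_neg (by simp; omega),
      List.filter_cons_of_neg (by simp; omega), e3]
    simp

/-- Comparison of the entries in the row of `h_j` and the column of `e_{-r}` of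
`b x_r(t) = x_s(ε) b` for a triangular matrix `b`. -/
theorem entry_eq (hF : AFacts A D) (hw : PosW A w) {r s : ℕ} (hr : r < A.n) (hs : s < A.n)
    (hpos : PosA A r) (t ε : F) (b : Matrix D.Idx D.Idx F) (hb : Tri (lev D A w) b)
    (hb1 : ∀ j : Fin D.rank, b (Sum.inl j) (Sum.inl j) = 1)
    (h : b * D.x F r t = D.x F s ε * b) (j : Fin D.rank) :
    ((A.cor r j : ℤ) : F) * t = ((A.cor s j : ℤ) : F) * ε *
      b (Sum.inr ⟨A.neg s, lt_nroots hF (hF.agrees.neg_lt s hs)⟩)
        (Sum.inr ⟨A.neg r, lt_nroots hF (hF.agrees.neg_lt r hr)⟩) := by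
  have hn := hF.agrees.n_eq
  have h1 := congrFun (congrFun h (Sum.inl j))
    (Sum.inr ⟨A.neg r, lt_nroots hF (hF.agrees.neg_lt r hr)⟩)
  rw [Matrix.mul_apply, Matrix.mul_apply, Fintype.sum_sum_type, Fintype.sum_sum_type] at h1
  have hlev0 : ∀ i : Fin D.rank, lev D A w (Sum.inl i) = 0 := fun i =>
    lamE_of_ge w (by simp only [enc]; omega)
  have L1 : ∑ i : Fin D.rank, b (Sum.inl j) (Sum.inl i) *
      D.x F r t (Sum.inl i) (Sum.inr ⟨A.neg r, lt_nroots hF (hF.agrees.neg_lt r hr)⟩) =
        ((A.cor r j : ℤ) : F) * t := by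
    rw [Finset.sum_eq_single j]
    · rw [hb1 j, one_mul, x_entry_h hF hr j t]
    · intro i _ hij
      rw [hb (Sum.inl j) (Sum.inl i) (fun e => hij (Sum.inl.inj e).symm)
        (by rw [hlev0, hlev0]), zero_mul]
    · intro h'
      exact absurd (Finset.mem_univ j) h'
  have L2 : ∑ k : Fin D.nroots, b (Sum.inl j) (Sum.inr k) *
      D.x F r t (Sum.inr k) (Sum.inr ⟨A.neg r, lt_nroots hF (hF.agrees.neg_lt r hr)⟩) =
        b (Sum.inl j) (Sum.inr ⟨A.neg r, lt_nroots hF (hF.agrees.neg_lt r hr)⟩) := by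
    rw [Finset.sum_eq_single ⟨A.neg r, lt_nroots hF (hF.agrees.neg_lt r hr)⟩]
    · rw [x_entry_col hF hr _ (hF.sym.neg_ne r hr) t, if_pos rfl, mul_one]
    · intro k _ hk
      by_cases hkr : k.val = r
      · have hle : lev D A w (Sum.inl j) ≤ lev D A w (Sum.inr k) := by
          rw [hlev0]
          show 0 ≤ lamE A w k.val
          rw [hkr]
          exact le_of_lt ((hw r hr).1 hpos)
        rw [hb _ _ (by simp) hle, zero_mul]
      · rw [x_entry_col hF hr k hkr t, if_neg (fun h' => hk (Fin.ext h')), mul_zero]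
    · intro h'
      exact absurd (Finset.mem_univ _) h'
  have R1 : ∑ i : Fin D.rank, D.x F s ε (Sum.inl j) (Sum.inl i) *
      b (Sum.inl i) (Sum.inr ⟨A.neg r, lt_nroots hF (hF.agrees.neg_lt r hr)⟩) =
        b (Sum.inl j) (Sum.inr ⟨A.neg r, lt_nroots hF (hF.agrees.neg_lt r hr)⟩) := by
    rw [Finset.sum_eq_single j]
    · rw [x_entry_hh hF hs, if_pos rfl, one_mul]
    · intro i _ hij
      rw [x_entry_hh hF hs, if_neg (Ne.symm hij), zero_mul]
    · intro h'
      exact absurd (Finset.mem_univ j) h'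
  have R2 : ∑ k : Fin D.nroots, D.x F s ε (Sum.inl j) (Sum.inr k) *
      b (Sum.inr k) (Sum.inr ⟨A.neg r, lt_nroots hF (hF.agrees.neg_lt r hr)⟩) =
        ((A.cor s j : ℤ) : F) * ε *
          b (Sum.inr ⟨A.neg s, lt_nroots hF (hF.agrees.neg_lt s hs)⟩)
            (Sum.inr ⟨A.neg r, lt_nroots hF (hF.agrees.neg_lt r hr)⟩) := by
    rw [Finset.sum_eq_single ⟨A.neg s, lt_nroots hF (hF.agrees.neg_lt s hs)⟩]
    · rw [x_entry_h hF hs j ε]
    · intro k _ hk
      have hk' : k.val < A.n := lt_n hF k.isLt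
      have hkn : A.neg k.val < A.n := hF.agrees.neg_lt _ hk'
      have hne : A.neg k.val ≠ s := by
        intro e
        apply hk
        apply Fin.ext
        show k.val = A.neg s
        rw [← e, hF.sym.neg_neg _ hk']
      have h0 := x_entry_h_ne hF hkn hs hne j ε
      have ek : (⟨A.neg (A.neg k.val), lt_nroots hF (hF.agrees.neg_lt _ hkn)⟩ : Fin D.nroots) =
          k := Fin.ext (hF.sym.neg_neg _ hk')
      rw [ek] at h0
      rw [h0, zero_mul]
    · intro h'
      exact absurd (Finset.mem_univ _) h'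
  rw [L1, L2, R1, R2] at h1
  linear_combination h1

/-- If `b x_r(t) = x_s(ε) b` with `b` triangular, `t ≠ 0` and `r` positive, then `s = r` or
`s` has smaller level than `r`. -/
theorem root_le (hF : AFacts A D) (hw : PosW A w) (hU : UFacts A w' N ord rnk bz) {r s : ℕ}
    (hr : r < A.n) (hs : s < A.n) (hpos : PosA A r) {t : F} (ht : t ≠ 0) (ε : F)
    (b : Matrix D.Idx D.Idx F) (hb : Tri (lev D A w) b)
    (hb1 : ∀ j : Fin D.rank, b (Sum.inl j) (Sum.inl j) = 1)
    (h : b * D.x F r t = D.x F s ε * b) : s = r ∨ lamE A w s < lamE A w r := by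
  by_contra hcon
  push Not at hcon
  obtain ⟨hne, hle⟩ := hcon
  have hz : b (Sum.inr ⟨A.neg s, lt_nroots hF (hF.agrees.neg_lt s hs)⟩)
      (Sum.inr ⟨A.neg r, lt_nroots hF (hF.agrees.neg_lt r hr)⟩) = 0 := by
    apply hb
    · intro e
      have e' : A.neg s = A.neg r := by
        have := Sum.inr.inj e
        exact congrArg Fin.val this
      apply hne
      rw [← hF.sym.neg_neg s hs, e', hF.sym.neg_neg r hr]
    · show lamE A w (A.neg s) ≤ lamE A w (A.neg r)
      rw [lamE_neg hF w hs, lamE_neg hF w hr]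
      omega
  have hent : ∀ j < A.rank, ((A.cor r j : ℤ) : F) * t = 0 := by
    intro j hj
    have hj' : j < D.rank := by rw [hF.agrees.rank_eq]; exact hj
    have h0 := entry_eq hF hw hr hs hpos t ε b hb hb1 h ⟨j, hj'⟩
    rw [hz, mul_zero] at h0
    exact h0
  have hb' := hU.bez r hr
  have : ((1 : ℤ) : F) * t = 0 := by
    rw [← hb']
    push_cast
    rw [Finset.sum_mul]
    apply Finset.sum_eq_zero
    intro j hj
    rw [mul_assoc, hent j (Finset.mem_range.mp hj), mul_zero]
  exact ht (by simpa using this)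

/-- The entries of an element of `B` on the diagonal of the Cartan part are `1`. -/
theorem borel_diag_h (hF : AFacts A D) (hw : PosW A w) {β : GL D.Idx F}
    (hβ : β ∈ D.borelSubgroup F) (j : Fin D.rank) :
    (β : Matrix D.Idx D.Idx F) (Sum.inl j) (Sum.inl j) = 1 := by
  obtain ⟨u, hu, h, hh, rfl⟩ := exists_mul_of_mem_sup (diag_le_normalizer_pos hF) hβ
  have hu' : UTri (lev D A w) (u : Matrix D.Idx D.Idx F) := posUnipotent_le_utri hF hw hu
  have hh' : Tri (lev D A w) (h : Matrix D.Idx D.Idx F) := diagonalSubgroup_le_tri hF _ hh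
  obtain ⟨c', _, e⟩ := exists_tor_of_mem hF h hh
  rw [Units.val_mul, Tri.mul_diag hu'.1 hh', hu'.2, one_mul, e]
  unfold tor
  rw [Matrix.diagonal_apply_eq]
  apply chi_of_ge
  have hn := hF.agrees.n_eq
  simp only [enc]
  omega

section

variable (hC : CFacts A D X m w) (hU : UFacts A w' N ord rnk bz)
  (hadd : ∀ r < D.nroots, ∀ t u : F, D.x F r t * D.x F r u = D.x F r (t + u))
  (hinj : ∀ r < D.nroots, ∀ t : F, D.x F r t = 1 → t = 0)

include hC hU hadd hinj in
/-- A conjugate under `B` of a root element of a positive root `r` that is a non-trivial root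
element belongs to the same root. -/
theorem root_eq_of_conj {r s : ℕ} (hr : r < A.n) (hs : s < A.n) (hpos : PosA A r) {a : F}
    (ha : a ≠ 0) {β : GL D.Idx F} (hβ : β ∈ D.borelSubgroup F)
    (h : β * xg hC.af F r 1 * β⁻¹ = xg hC.af F s a) : s = r := by
  have hF := hC.af
  have hw := hC.pw
  have hr' := lt_nroots hF hr
  have hs' := lt_nroots hF hs
  have hxB : xg hF F r (1 : F) ∈ D.borelSubgroup F :=
    Subgroup.mem_sup_left (xg_pos_mem hF hr hpos 1)
  have hsB : xg hF F s a ∈ D.borelSubgroup F := by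
    rw [← h]
    exact Subgroup.mul_mem _ (Subgroup.mul_mem _ hβ hxB) (Subgroup.inv_mem _ hβ)
  have hposs : PosA A s := by
    rcases hC.pos_or_neg s hs' with h1 | h1
    · exact (posA_iff hF hs).mpr h1
    · exact absurd (neg_root_not_borel hC hinj hs h1 hsB) ha
  have hβi : β⁻¹ ∈ D.borelSubgroup F := Subgroup.inv_mem _ hβ
  have t1 : Tri (lev D A w) (β : Matrix D.Idx D.Idx F) := borelSubgroup_le_tri hF hw hβ
  have t2 : Tri (lev D A w) ((β⁻¹ : GL D.Idx F) : Matrix D.Idx D.Idx F) :=
    borelSubgroup_le_tri hF hw hβi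
  have m1 : (β : Matrix D.Idx D.Idx F) * D.x F r 1 = D.x F s a * (β : Matrix D.Idx D.Idx F) := by
    have h0 : β * xg hF F r 1 = xg hF F s a * β := by
      rw [← h]
      group
    have h1 := congrArg (fun g : GL D.Idx F => (g : Matrix D.Idx D.Idx F)) h0
    simp only [Units.val_mul] at h1
    rwa [coe_xg hF hr', coe_xg hF hs'] at h1
  have m2 : ((β⁻¹ : GL D.Idx F) : Matrix D.Idx D.Idx F) * D.x F s a =
      D.x F r 1 * ((β⁻¹ : GL D.Idx F) : Matrix D.Idx D.Idx F) := by
    have h0 : β⁻¹ * xg hF F s a = xg hF F r 1 * β⁻¹ := by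
      rw [← h]
      group
    have h1 := congrArg (fun g : GL D.Idx F => (g : Matrix D.Idx D.Idx F)) h0
    simp only [Units.val_mul] at h1
    rwa [coe_xg hF hr', coe_xg hF hs'] at h1
  have k1 := root_le hF hw hU hr hs hpos one_ne_zero a _ t1 (borel_diag_h hF hw hβ) m1
  have k2 := root_le hF hw hU hs hr hposs ha 1 _ t2 (borel_diag_h hF hw hβi) m2
  rcases k1 with k1 | k1
  · exact k1
  · rcases k2 with k2 | k2
    · exact k2.symm
    · omega

end

/-! ### The Weyl group element fixing the positive roots outside of a proper subsystem -/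

section rs

open Finset

variable {R : Type} [Fintype R] [DecidableEq R] {l : ℕ} (P : RS R l)

/-- An element of the Weyl group fixing every positive root outside of the subsystem of a proper
subset `J` is trivial, when every two fundamental roots are linked by a root. -/
theorem fix_eq_one (hT : P.Triv) (J : Set ℕ)
    (hK : ∀ i < l, ∀ j < l, i ≠ j → ∃ r : R, 0 < P.c r i ∧ P.p r (P.α j) ≠ 0)
    (hJ : ∃ i, i < l ∧ i ∉ J) {σ : Equiv.Perm R} (hσ : σ ∈ P.W Set.univ)
    (hfix : ∀ r, P.pos r → ¬ P.inJ J r → σ r = r) : σ = 1 := by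
  apply hT σ hσ
  have hα : ∀ j ∈ (Set.univ : Set ℕ), j < l → P.pos (σ (P.α j)) := by
    intro j _ hj
    by_cases hjJ : j ∈ J
    · obtain ⟨i, hi, hiJ⟩ := hJ
      have hij : i ≠ j := fun e => hiJ (e ▸ hjJ)
      obtain ⟨r, hr, hp⟩ := hK i hi j hj hij
      have hpos : P.pos r := P.pos_of_coord hi hr
      have hnJ : ¬ P.inJ J r := fun h => by
        have := h i hi hiJ
        omega
      have hpos' : P.pos (P.s j r) := P.pos_of_not_inJ (P.s_mem hjJ hj) hpos hnJ
      have hnJ' : ¬ P.inJ J (P.s j r) := fun h => hnJ ((P.inJ_apply (P.s_mem hjJ hj)).mp h)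
      have e1 := hfix r hpos hnJ
      have e2 := hfix _ hpos' hnJ'
      intro k hk
      have h1 := P.c_lin hσ (P.s j r) k hk
      have h2 := P.c_lin hσ r k hk
      rw [e2] at h1
      rw [e1] at h2
      have h3 : ∑ i' ∈ range l, P.c (P.s j r) i' * P.c (σ (P.α i')) k =
          ∑ i' ∈ range l, P.c r i' * P.c (σ (P.α i')) k - P.p r (P.α j) * P.c (σ (P.α j)) k := by
        have e3 : ∀ i' ∈ range l, P.c (P.s j r) i' * P.c (σ (P.α i')) k =
            P.c r i' * P.c (σ (P.α i')) k -
              (if i' = j then P.p r (P.α j) * P.c (σ (P.α j)) k else 0) := by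
          intro i' hi'
          rw [P.c_s j hj r i' (mem_range.mp hi')]
          by_cases e : i' = j
          · subst e
            rw [if_pos rfl, if_pos rfl]
            unfold RS.p
            ring
          · rw [if_neg e, if_neg e]
            ring
        rw [Finset.sum_congr rfl e3, Finset.sum_sub_distrib, Finset.sum_ite_eq' (range l) j,
          if_pos (mem_range.mpr hj)]
      have h4 := P.c_s j hj r k hk
      have h5 : P.p r (P.α j) * P.c (σ (P.α j)) k = if k = j then P.p r (P.α j) else 0 := by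
        have h6 : (∑ k' ∈ range l, P.c r k' * P.a k' (P.α j)) = P.p r (P.α j) := rfl
        rw [h6] at h4
        linarith
      by_cases e : k = j
      · rw [if_pos e] at h5
        have : P.c (σ (P.α j)) k = 1 := by
          have h7 : P.p r (P.α j) * (P.c (σ (P.α j)) k - 1) = 0 := by linarith
          rcases mul_eq_zero.mp h7 with h8 | h8
          · exact absurd h8 hp
          · linarith
        omega
      · rw [if_neg e] at h5
        rcases mul_eq_zero.mp h5 with h8 | h8
        · exact absurd h8 hp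
        · omega
    · have hnJ : ¬ P.inJ J (P.α j) := fun h => by
        have := h j hj hjJ
        rw [P.c_α j hj j hj, if_pos rfl] at this
        omega
      rw [hfix (P.α j) (P.pos_α hj) hnJ]
      exact P.pos_α hj
  intro r hr
  exact P.pos_lin hσ hα hr (fun k _ hk => absurd (Set.mem_univ k) hk)

end rs

/-! ### The table fact -/

/-- Connectivity: for every two distinct fundamental roots `p_i`, `p_j` there is a root `r` with
positive `i`-th coordinate that is moved by the reflection in `p_j`. -/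
structure KFacts (A : FData) : Prop where
  conn : ∀ i < A.rank, ∀ j < A.rank, i ≠ j → ∃ r < A.n, 0 < A.cor r i ∧
    ∑ k ∈ Finset.range A.rank, A.cor r k * A.car k (A.simple j) ≠ 0

/-- Check of the connectivity at `i`. -/
def chkK (A : FData) (i : ℕ) : Bool :=
  (List.range A.rank).all (fun j => Nat.beq i j || (List.range A.n).any (fun r =>
    decide (0 < A.cor r i) &&
      decide (sumL A.rank (fun k => A.cor r k * A.car k (A.simple j)) ≠ 0)))

theorem KFacts.of_checks {A : FData} (h : ∀ i < A.rank, chkK A i = true) : KFacts A := by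
  constructor
  intro i hi j hj hij
  have h1 := h i hi
  unfold chkK at h1
  rw [List.all_eq_true] at h1
  have h2 := h1 j (List.mem_range.mpr hj)
  rw [Bool.or_eq_true] at h2
  rcases h2 with h2 | h2
  · exact absurd (Nat.eq_of_beq_eq_true h2) hij
  · rw [List.any_eq_true] at h2
    obtain ⟨r, hr, e⟩ := h2
    rw [Bool.and_eq_true, decide_eq_true_eq, decide_eq_true_eq, sumL_eq] at e
    exact ⟨r, List.mem_range.mp hr, e.1, e.2⟩

end Cfsg.Agent.Lib.Helper36.ParCen1
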