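import Mathlib
import Cfsg.Agent.Lib.Helper36.ParCen1

set_option autoImplicit false

/-!
The connectivity table fact `KFacts` for the seven types, together with the other table facts
used for the parabolic subgroups.
-/

namespace Cfsg.Agent.Lib.Helper36.ParCenK

open Cfsg Cfsg.Lie Cfsg.Agent.Lib.Helper18 Cfsg.Agent.Lib.Helper18.Fast
  Cfsg.Agent.Lib.Helper18.Facts
  Cfsg.Agent.Lib.Helper18.AllRoots Cfsg.Agent.Lib.Helper18.Weyl Cfsg.Agent.Lib.Helper18.Pos
  Cfsg.Agent.Lib.Helper18.Loop Cfsg.Agent.Lib.Helper18.UOrd Cfsg.Agent.Lib.Helper18.HOrderTab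
  Cfsg.Agent.Lib.Helper18.RFact Cfsg.Agent.Lib.Helper18.Par Cfsg.Agent.Lib.Helper18.BNPairC
  Cfsg.Agent.Lib.Helper36.ParCen1

set_option maxRecDepth 100000 in
theorem kG2_ok : allB 2 (chkK FTabG2.fd) = true := by decide +kernel

theorem kG2 : KFacts FTabG2.fd := KFacts.of_checks (fun i (hi : i < 2) => allB_imp kG2_ok i hi)

set_option maxRecDepth 100000 in
theorem kB2_ok : allB 2 (chkK FTabB2.fd) = true := by decide +kernel

theorem kB2 : KFacts FTabB2.fd := KFacts.of_checks (fun i (hi : i < 2) => allB_imp kB2_ok i hi)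

set_option maxRecDepth 100000 in
theorem kD4_ok : allB 4 (chkK FTabD4.fd) = true := by decide +kernel

theorem kD4 : KFacts FTabD4.fd := KFacts.of_checks (fun i (hi : i < 4) => allB_imp kD4_ok i hi)

set_option maxRecDepth 100000 in
theorem kF4_ok : allB 4 (chkK FTabF4.fd) = true := by decide +kernel

theorem kF4 : KFacts FTabF4.fd := KFacts.of_checks (fun i (hi : i < 4) => allB_imp kF4_ok i hi)

set_option maxRecDepth 100000 in
theorem kE6_ok : allB 6 (chkK FTabE6.fd) = true := by decide +kernel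

theorem kE6 : KFacts FTabE6.fd := KFacts.of_checks (fun i (hi : i < 6) => allB_imp kE6_ok i hi)

set_option maxRecDepth 100000 in
theorem kE7_ok : allB 7 (chkK FTabE7.fd) = true := by decide +kernel

theorem kE7 : KFacts FTabE7.fd := KFacts.of_checks (fun i (hi : i < 7) => allB_imp kE7_ok i hi)

set_option maxRecDepth 100000 in
theorem kE8_ok : allB 8 (chkK FTabE8.fd) = true := by decide +kernel

theorem kE8 : KFacts FTabE8.fd := KFacts.of_checks (fun i (hi : i < 8) => allB_imp kE8_ok i hi)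

/-- All the table facts used for the centralizer of the unipotent radical of a parabolic
subgroup. -/
theorem exists_kfacts (D : ChevalleyDatum)
    (hD : D ∈ [chevG2, chevB2, chevD4, chevF4, chevE6, chevE7, chevE8]) :
    ∃ (A : FData) (X : WD) (m : ℕ → ℕ → ℤ) (w w' : ℕ → ℤ) (N : ℕ) (ord rnk : ℕ → ℕ)
      (bz : ℕ → ℕ → ℤ) (c : ℤ) (fw : ℕ → ℕ → ℤ), CFacts A D X m w ∧ RFacts A X ∧
        UFacts A w' N ord rnk bz ∧ 0 < A.n ∧ DFacts A ∧ JFacts A c fw ∧ KFacts A := by
  simp only [List.mem_cons, List.not_mem_nil, or_false] at hD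
  rcases hD with rfl | rfl | rfl | rfl | rfl | rfl | rfl
  · exact ⟨_, _, _, _, _, _, _, _, _, _, _, CAll.cfG2, ChainAll.rG2, UAll.uG2, by decide,
      ParAll.dG2, ParAll.jG2, kG2⟩
  · exact ⟨_, _, _, _, _, _, _, _, _, _, _, CAll.cfB2, ChainAll.rB2, UAll.uB2, by decide,
      ParAll.dB2, ParAll.jB2, kB2⟩
  · exact ⟨_, _, _, _, _, _, _, _, _, _, _, CAll.cfD4, ChainAll.rD4, UAll.uD4, by decide,
      ParAll.dD4, ParAll.jD4, kD4⟩
  · exact ⟨_, _, _, _, _, _, _, _, _, _, _, CAll.cfF4, ChainAll.rF4, UAll.uF4, by decide,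
      ParAll.dF4, ParAll.jF4, kF4⟩
  · exact ⟨_, _, _, _, _, _, _, _, _, _, _, CAll.cfE6, ChainAll.rE6, UAll.uE6, by decide,
      ParAll.dE6, ParAll.jE6, kE6⟩
  · exact ⟨_, _, _, _, _, _, _, _, _, _, _, CAll.cfE7, ChainAll.rE7, UAll.uE7, by decide,
      ParAll.dE7, ParAll.jE7, kE7⟩
  · exact ⟨_, _, _, _, _, _, _, _, _, _, _, CAll.cfE8, ChainAll.rE8, UAll.uE8, by decide,
      ParAll.dE8, ParAll.jE8, kE8⟩

end Cfsg.Agent.Lib.Helper36.ParCenK
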