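import Mathlib
import Cfsg.Agent.Lib.Helper36.ParCenK

set_option autoImplicit false
set_option linter.unusedSimpArgs false
set_option linter.unusedSectionVars false
set_option linter.unusedVariables false

/-!
The centralizer in a proper parabolic subgroup `P_J` of its unipotent radical `U_J` lies in `U`.
-/

namespace Cfsg.Agent.Lib.Helper36.ParCen2

open Cfsg Cfsg.Lie Cfsg.Agent.Lib.Helper18.Fast Cfsg.Agent.Lib.Helper18.Grade
  Cfsg.Agent.Lib.Helper18.Facts Cfsg.Agent.Lib.Helper18.AllRoots Cfsg.Agent.Lib.Helper18.Loop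
  Cfsg.Agent.Lib.Helper18.Weyl Cfsg.Agent.Lib.Helper18.RootSys Cfsg.Agent.Lib.Helper18.Orbit
  Cfsg.Agent.Lib.Helper18.Units Cfsg.Agent.Lib.Helper18.Sub Cfsg.Agent.Lib.Helper18.Norm
  Cfsg.Agent.Lib.Helper18.HAll Cfsg.Agent.Lib.Helper18.Torus Cfsg.Agent.Lib.Helper18.Pos
  Cfsg.Agent.Lib.Helper18.WGroup Cfsg.Agent.Lib.Helper18.BNChev Cfsg.Agent.Lib.Helper18.Mono
  Cfsg.Agent.Lib.Helper18.BNPairC Cfsg.Agent.Lib.Helper18.UOrd Cfsg.Agent.Lib.Helper18.Cox
  Cfsg.Agent.Lib.Helper18.Long Cfsg.Agent.Lib.Helper18.Core Cfsg.Agent.Lib.Helper18.Conj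
  Cfsg.Agent.Lib.Helper18.RFact Cfsg.Agent.Lib.Helper18.BNCell Cfsg.Agent.Lib.Helper18.Vec
  Cfsg.Agent.Lib.Helper18.XMat Cfsg.Agent.Lib.Helper18.Cells Cfsg.Agent.Lib.Helper18.Cox2
  Cfsg.Agent.Lib.Helper18.Cells2 Cfsg.Agent.Lib.Helper18.Cox3 Cfsg.Agent.Lib.Helper18.HOrder
  Cfsg.Agent.Lib.Helper18.HOrderTab Cfsg.Agent.Lib.Helper18.Tri Cfsg.Agent.Lib.Helper18.Par
  Cfsg.Agent.Lib.Helper18.Par2 Cfsg.Agent.Lib.Helper18.Par3 Cfsg.Agent.Lib.Helper18.Par4
  Cfsg.Agent.Lib.Helper36.ParCen1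

variable {A : FData} {D : ChevalleyDatum} {F : Type*} [Field F] {X : WD} {m : ℕ → ℕ → ℤ}
  {w : ℕ → ℤ} {N : ℕ} {ord rnk : ℕ → ℕ} {bz : ℕ → ℕ → ℤ} {w' : ℕ → ℤ} {c : ℤ} {fw : ℕ → ℕ → ℤ}

/-- Conjugation by an element of the normalizer. -/
theorem conj_mem_of_normalizer {G : Type*} [Group G] {K : Subgroup G} {g x : G}
    (hg : g ∈ Subgroup.normalizer (K : Set G)) (hx : x ∈ K) : g * x * g⁻¹ ∈ K :=
  (Subgroup.mem_set_normalizer_iff.mp hg x).mp hx

/-- The elements of `P_J` centralizing `U_J`. -/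
def cen (D : ChevalleyDatum) (F : Type*) [Field F] (J : Set ℕ) : Subgroup (GL D.Idx F) :=
  Subgroup.centralizer (D.unipotentRadical F J : Set (GL D.Idx F)) ⊓ D.parabolicSubgroup F J

section

variable (hC : CFacts A D X m w) (hR : RFacts A X) (hU : UFacts A w' N ord rnk bz) (hn : 0 < A.n)
  (hDs : DFacts A) (hJf : JFacts A c fw) (hK : KFacts A)
  (hadd : ∀ r < D.nroots, ∀ t u : F, D.x F r t * D.x F r u = D.x F r (t + u))
  (hinj : ∀ r < D.nroots, ∀ t : F, D.x F r t = 1 → t = 0)

include hC hR hU hn hK hadd hinj in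
/-- An element of the group centralizing the unipotent radical of a proper parabolic subgroup
lies in `B`. -/
theorem cent_le_borel (J : Set ℕ) (hJ : ∃ i, i < A.rank ∧ i ∉ J) {g : GL D.Idx F}
    (hgG : g ∈ D.group F)
    (hcen : g ∈ Subgroup.centralizer (D.unipotentRadical F J : Set (GL D.Idx F))) :
    g ∈ D.borelSubgroup F := by
  have hF := hC.af
  have hPN := par_le_normalizer hC hR hU hn hadd (F := F) J
  obtain ⟨b, hb, n, hn', b', hb', rfl⟩ := bruhat hC hadd hinj hgG
  obtain ⟨wd, hwd, h, hh, rfl⟩ := N_word hC hn'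
  have hbP : b ∈ D.parabolicSubgroup F J := le_sup_left (b := Subgroup.closure _) hb
  have hb'P : b' ∈ D.parabolicSubgroup F J := le_sup_left (b := Subgroup.closure _) hb'
  obtain ⟨c', hc', e⟩ := exists_tor_of_mem hF h hh
  have hfix : ∀ r : Fin A.n, (rs hC hR hU hn).pos r → ¬ (rs hC hR hU hn).inJ J r →
      (rs hC hR hU hn).wprod wd r = r := by
    intro r hpos hJr
    have hr' := lt_nroots hF r.isLt
    have hx : xg hF F r.val 1 ∈ D.unipotentRadical F J := xg_mem_rad hF r.isLt hpos hJr 1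
    have hu : b'⁻¹ * xg hF F r.val 1 * b'⁻¹⁻¹ ∈ D.unipotentRadical F J :=
      conj_mem_of_normalizer (Subgroup.inv_mem _ (hPN hb'P)) hx
    have hcomm := Subgroup.mem_centralizer_iff.mp hcen _ hu
    obtain ⟨ε, hε, he⟩ := nw_conj (F := F) hF hC.wf (plain wd) (plain_lt hwd) r.isLt
    have htor := tor_conj_xU hF hc' e r.val hr' 1
    rw [← xg_eq hF hr', ← xg_eq hF hr'] at htor
    have key : (b' * b)⁻¹ * xg hF F r.val 1 * ((b' * b)⁻¹)⁻¹ =
        xg hF F (wperm X wd r.val) (ε * (chi A c' r.val * 1)) := by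
      have h1 := he (chi A c' r.val * 1)
      rw [plain_fst] at h1
      rw [← h1, ← htor]
      calc (b' * b)⁻¹ * xg hF F r.val 1 * ((b' * b)⁻¹)⁻¹
          = b⁻¹ * ((b'⁻¹ * xg hF F r.val 1 * b'⁻¹⁻¹) * (b * (nw hF F (plain wd) * h) * b')) *
              b'⁻¹ * h⁻¹ * (nw hF F (plain wd))⁻¹ := by group
        _ = b⁻¹ * ((b * (nw hF F (plain wd) * h) * b') * (b'⁻¹ * xg hF F r.val 1 * b'⁻¹⁻¹)) *
              b'⁻¹ * h⁻¹ * (nw hF F (plain wd))⁻¹ := by rw [hcomm]
        _ = nw hF F (plain wd) * (h * xg hF F r.val 1 * h⁻¹) * (nw hF F (plain wd))⁻¹ := by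
            group
    have hlt : wperm X wd r.val < A.n := wperm_lt hC.wf hwd r.isLt
    have hne : ε * (chi A c' r.val * 1) ≠ 0 :=
      mul_ne_zero hε (mul_ne_zero (chi_ne_zero hc' _) one_ne_zero)
    have h2 := root_eq_of_conj hC hU hadd hinj r.isLt hlt hpos hne
      (Subgroup.inv_mem _ (Subgroup.mul_mem _ hb' hb)) key
    apply Fin.ext
    rw [wprod_val hC hR hU hn hwd]
    exact h2
  have hK' : ∀ i < A.rank, ∀ j < A.rank, i ≠ j → ∃ r : Fin A.n,
      0 < (rs hC hR hU hn).c r i ∧ (rs hC hR hU hn).p r ((rs hC hR hU hn).α j) ≠ 0 := by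
    intro i hi j hj hij
    obtain ⟨r, hr, h1, h2⟩ := hK.conn i hi j hj hij
    refine ⟨⟨r, hr⟩, h1, ?_⟩
    have e2 : (rs hC hR hU hn).p ⟨r, hr⟩ ((rs hC hR hU hn).α j) =
        ∑ k ∈ Finset.range A.rank, A.cor r k * A.car k (A.simple j) := by
      unfold RS.p
      apply Finset.sum_congr rfl
      intro k _
      show A.cor r k * A.car k ((rs hC hR hU hn).α j).val = _
      rw [rs_α hC hR hU hn hj]
    rw [e2]
    exact h2
  have hone := fix_eq_one (rs hC hR hU hn) (triv hC hR hU hn hadd hinj) J hK' hJ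
    ((rs hC hR hU hn).wprod_mem hwd) hfix
  have hid : ∀ r < A.n, wperm X ((plain wd).map Prod.fst) r = r := by
    intro r hr
    rw [plain_fst, ← wprod_val hC hR hU hn hwd ⟨r, hr⟩, hone]
    rfl
  have hnH := mem_H_of_id hC hR hU hn hadd hinj (plain_lt hwd) hid
  exact Subgroup.mul_mem _ (Subgroup.mul_mem _ hb
    (Subgroup.mem_sup_right (Subgroup.mul_mem _ hnH hh))) hb'

include hC hR hU hn hadd in
/-- `C_{P_J}(U_J)` is normalized by `P_J`. -/
theorem cen_conj (J : Set ℕ) {g x : GL D.Idx F} (hg : g ∈ D.parabolicSubgroup F J)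
    (hx : x ∈ cen D F J) : g * x * g⁻¹ ∈ cen D F J := by
  have hPN := par_le_normalizer hC hR hU hn hadd (F := F) J
  refine ⟨?_, Subgroup.mul_mem _ (Subgroup.mul_mem _ hg hx.2) (Subgroup.inv_mem _ hg)⟩
  show g * x * g⁻¹ ∈ Subgroup.centralizer (D.unipotentRadical F J : Set (GL D.Idx F))
  rw [Subgroup.mem_centralizer_iff]
  intro u hu
  have hu' : g⁻¹ * u * g⁻¹⁻¹ ∈ D.unipotentRadical F J :=
    conj_mem_of_normalizer (Subgroup.inv_mem _ (hPN hg)) hu
  have h1 := Subgroup.mem_centralizer_iff.mp hx.1 _ hu'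
  calc u * (g * x * g⁻¹) = g * (g⁻¹ * u * g⁻¹⁻¹ * x) * g⁻¹ := by group
    _ = g * (x * (g⁻¹ * u * g⁻¹⁻¹)) * g⁻¹ := by rw [h1]
    _ = g * x * g⁻¹ * u := by group

include hC hR hU hn hK hadd hinj in
/-- `C_{P_J}(U_J) ≤ U` for a proper subset `J`. -/
theorem cen_le_unip (J : Set ℕ) (hJ : ∃ i, i < A.rank ∧ i ∉ J) :
    cen D F J ≤ D.posUnipotent F := by
  have hF := hC.af
  have hw := hC.pw
  intro g hg
  have hcB : ∀ y ∈ cen D F J, y ∈ D.borelSubgroup F := fun y hy =>
    cent_le_borel hC hR hU hn hK hadd hinj J hJ (par_le_group hC J hy.2) hy.1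
  have hgB := hcB g hg
  obtain ⟨u, hu, h, hh, rfl⟩ := exists_mul_of_mem_sup (diag_le_normalizer_pos hF) hgB
  obtain ⟨c', hc', e⟩ := exists_tor_of_mem hF h hh
  have hu' : UTri (lev D A w) (u : Matrix D.Idx D.Idx F) := posUnipotent_le_utri hF hw hu
  have hh' : Tri (lev D A w) (h : Matrix D.Idx D.Idx F) := diagonalSubgroup_le_tri hF _ hh
  -- the character of `h` is trivial on the positive roots outside of the subsystem
  have s1 : ∀ r < A.n, PosA A r → ¬ InJ A J r → chi A c' r = 1 := by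
    intro r hr hpos hJr
    have hr' := lt_nroots hF hr
    have hx : xg hF F r 1 ∈ D.unipotentRadical F J := xg_mem_rad hF hr hpos hJr 1
    have hcomm := Subgroup.mem_centralizer_iff.mp hg.1 _ hx
    have m1 : ((u * h : GL D.Idx F) : Matrix D.Idx D.Idx F) * D.x F r 1 =
        D.x F r 1 * ((u * h : GL D.Idx F) : Matrix D.Idx D.Idx F) := by
      have h1 := congrArg (fun g : GL D.Idx F => (g : Matrix D.Idx D.Idx F)) hcomm
      simp only [Units.val_mul] at h1
      rw [coe_xg hF hr'] at h1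
      rw [Units.val_mul]
      exact h1.symm
    have t1 : Tri (lev D A w) ((u * h : GL D.Idx F) : Matrix D.Idx D.Idx F) :=
      borelSubgroup_le_tri hF hw hgB
    have hent := entry_eq hF hw hr hr hpos 1 1 _ t1 (borel_diag_h hF hw hgB) m1
    have hd : ((u * h : GL D.Idx F) : Matrix D.Idx D.Idx F)
        (Sum.inr ⟨A.neg r, lt_nroots hF (hF.agrees.neg_lt r hr)⟩)
        (Sum.inr ⟨A.neg r, lt_nroots hF (hF.agrees.neg_lt r hr)⟩) = chi A c' (A.neg r) := by
      rw [Units.val_mul, Tri.mul_diag hu'.1 hh', hu'.2, one_mul, e]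
      unfold tor
      rw [Matrix.diagonal_apply_eq]
      rfl
    have hb' := hU.bez r hr
    have h1 : chi A c' (A.neg r) = 1 := by
      have h2 : ((1 : ℤ) : F) = ((1 : ℤ) : F) * chi A c' (A.neg r) := by
        rw [← hb']
        push_cast
        rw [Finset.sum_mul]
        apply Finset.sum_congr rfl
        intro j hj
        have hj' : j < D.rank := by rw [hF.agrees.rank_eq]; exact Finset.mem_range.mp hj
        have h3 : ((A.cor r j : ℤ) : F) * 1 = ((A.cor r j : ℤ) : F) * 1 * chi A c' (A.neg r) := by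
          have h4 := hent ⟨j, hj'⟩
          rw [hd] at h4
          exact h4
        linear_combination ((bz r j : ℤ) : F) * h3
      simpa using h2.symm
    have h4 := chi_neg hF hr' c'
    rw [neg_eq_fast hF hr', h1] at h4
    exact inv_eq_one.mp h4.symm
  -- hence `h` centralizes `U_J`
  have s2 : h ∈ cen D F J := by
    refine ⟨?_, H_le_par J hh⟩
    show h ∈ Subgroup.centralizer (D.unipotentRadical F J : Set (GL D.Idx F))
    rw [Subgroup.mem_centralizer_iff]
    intro x hx
    have hle : D.unipotentRadical F J ≤ Subgroup.centralizer ({h} : Set (GL D.Idx F)) := by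
      unfold ChevalleyDatum.unipotentRadical
      rw [Subgroup.closure_le]
      rintro y ⟨r, t, hr, hJr, hy⟩
      have hr' : r < A.n := lt_n hF hr.1
      have ey : y = xU hF F r hr.1 t := Units.ext (by rw [hy, coe_xU])
      have hχ := s1 r hr' ((posA_iff hF hr').mpr hr)
        (fun h' => hJr ((inRootSub_iff hF J hr.1).mpr h'))
      have h1 := tor_conj_xU hF hc' e r hr.1 t
      rw [hχ, one_mul] at h1
      show y ∈ Subgroup.centralizer ({h} : Set (GL D.Idx F))
      rw [Subgroup.mem_centralizer_iff]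
      intro z hz
      rw [Set.mem_singleton_iff] at hz
      rw [hz, ey]
      exact mul_inv_eq_iff_eq_mul.mp h1
    have h2 := Subgroup.mem_centralizer_iff.mp (hle hx) h (Set.mem_singleton h)
    exact h2.symm
  -- the character of `h` is trivial on the fundamental roots
  have s3 : ∀ j < A.rank, chi A c' (A.simple j) = 1 := by
    intro j hj
    have hsl := hF.sfacts.simple_lt j hj
    have hsl' := lt_nroots hF hsl
    have hpos : PosA A (A.simple j) := by
      intro k hk
      rw [hR.cα j hj k hk]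
      split_ifs <;> omega
    by_cases hjJ : j ∈ J
    · by_contra hχ
      have hxP : xg hF F (A.simple j) 1 ∈ D.parabolicSubgroup F J :=
        U_le_par J (xg_pos_mem hF hsl hpos 1)
      have hy : h * (xg hF F (A.simple j) 1 * h⁻¹ * (xg hF F (A.simple j) 1)⁻¹) ∈ cen D F J :=
        Subgroup.mul_mem _ s2 (cen_conj hC hR hU hn hadd J hxP (Subgroup.inv_mem _ s2))
      have htor := tor_conj_xU hF hc' e (A.simple j) hsl' 1
      rw [← xg_eq hF hsl', ← xg_eq hF hsl'] at htor
      have ey : h * (xg hF F (A.simple j) 1 * h⁻¹ * (xg hF F (A.simple j) 1)⁻¹) =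
          xg hF F (A.simple j) (chi A c' (A.simple j) * 1 + -1) := by
        rw [xg_add hadd hF, xg_neg hadd hF, ← htor]
        group
      rw [ey] at hy
      have hnP : ng hF F j ∈ D.parabolicSubgroup F J := ng_mem_par hC hjJ hj
      have hz := cen_conj hC hR hU hn hadd J hnP hy
      obtain ⟨ε, hε, he⟩ := nw_conj (F := F) hF hC.wf [(j, false)] (by simp [hj]) hsl
      have h1 := he (chi A c' (A.simple j) * 1 + -1)
      have e3 : nw hF F [(j, false)] = ng hF F j := by simp [nw]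
      have e4 : wperm X ([(j, false)].map Prod.fst) (A.simple j) = A.neg (A.simple j) := by
        show X.W j (A.simple j) = _
        exact (hC.wf.self j hj).1
      rw [e3, e4] at h1
      rw [h1] at hz
      have hzB := hcB _ hz
      have hnl : A.neg (A.simple j) < A.n := hF.agrees.neg_lt _ hsl
      have hneg : D.IsNegRoot (A.neg (A.simple j)) := by
        rw [isNegRoot_iff hF (lt_nroots hF hnl)]
        intro k hk
        rw [hF.sym.cor_neg _ hsl k hk, hR.cα j hj k hk]
        split_ifs <;> omega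
      have h0 := neg_root_not_borel hC hinj hnl hneg hzB
      rcases mul_eq_zero.mp h0 with h5 | h5
      · exact hε h5
      · apply hχ
        linear_combination h5
    · apply s1 _ hsl hpos
      intro hI
      have := hI j hj hjJ
      rw [hR.cα j hj j hj, if_pos rfl] at this
      omega
  -- hence on all roots
  have s4 : ∀ s < A.n, chi A c' s = 1 := by
    intro s hs
    unfold chi chiN
    have e1 : ∀ i ∈ Finset.range A.rank, c' i ^ carE A i s =
        ∏ k ∈ Finset.range A.rank, (c' i ^ cartanZ A i k) ^ m s k := by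
      intro i hi
      have : carE A i s = A.car i s := by simp [carE, hs]
      rw [this, hC.mf.root s hs i (Finset.mem_range.mp hi), zpow_sum_aux (hc' i)]
      apply Finset.prod_congr rfl
      intro k _
      rw [zpow_mul]
    rw [Finset.prod_congr rfl e1, Finset.prod_comm]
    apply Finset.prod_eq_one
    intro k hk
    rw [Finset.prod_zpow]
    have e2 : ∏ i ∈ Finset.range A.rank, c' i ^ cartanZ A i k = chi A c' (A.simple k) := by
      unfold chi chiN
      apply Finset.prod_congr rfl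
      intro i _
      have : carE A i (A.simple k) = A.car i (A.simple k) := by
        simp [carE, hF.sfacts.simple_lt k (Finset.mem_range.mp hk)]
      rw [this]
      rfl
    rw [e2, s3 k (Finset.mem_range.mp hk), one_zpow]
  have s5 : h = 1 := by
    apply Units.ext
    rw [e, Units.val_one]
    unfold tor
    rw [← Matrix.diagonal_one]
    congr 1
    funext b
    rcases b with i | s
    · apply chi_of_ge
      have hn' := hF.agrees.n_eq
      simp only [enc]
      omega
    · exact s4 _ (lt_n hF s.isLt)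
  rw [s5, mul_one]
  exact hu

end

end Cfsg.Agent.Lib.Helper36.ParCen2
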