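import Mathlib
import Cfsg.Agent.Lib.Helper36.ParCen2
import Cfsg.Agent.Lib.Helper48.CharPGfs
import Cfsg.Agent.Lib.Helper78.Fitting

set_option autoImplicit false
set_option linter.unusedSimpArgs false
set_option linter.unusedSectionVars false
set_option linter.unusedVariables false

/-!
The generalized Fitting subgroup of a proper parabolic subgroup of a Chevalley group over a
finite field of characteristic `p` is a `p`-group.
-/

namespace Cfsg.Agent.Lib.Helper36.ParCen3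

open Cfsg Cfsg.Lie Cfsg.Agent.Lib.Helper18.Fast Cfsg.Agent.Lib.Helper18.Grade
  Cfsg.Agent.Lib.Helper18.Facts Cfsg.Agent.Lib.Helper18.AllRoots Cfsg.Agent.Lib.Helper18.Loop
  Cfsg.Agent.Lib.Helper18.Weyl Cfsg.Agent.Lib.Helper18.RootSys Cfsg.Agent.Lib.Helper18.Orbit
  Cfsg.Agent.Lib.Helper18.Units Cfsg.Agent.Lib.Helper18.Sub Cfsg.Agent.Lib.Helper18.Norm
  Cfsg.Agent.Lib.Helper18.HAll Cfsg.Agent.Lib.Helper18.Torus Cfsg.Agent.Lib.Helper18.Pos
  Cfsg.Agent.Lib.Helper18.WGroup Cfsg.Agent.Lib.Helper18.BNChev Cfsg.Agent.Lib.Helper18.Mono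
  Cfsg.Agent.Lib.Helper18.BNPairC Cfsg.Agent.Lib.Helper18.UOrd Cfsg.Agent.Lib.Helper18.Cox
  Cfsg.Agent.Lib.Helper18.Long Cfsg.Agent.Lib.Helper18.Core Cfsg.Agent.Lib.Helper18.Conj
  Cfsg.Agent.Lib.Helper18.RFact Cfsg.Agent.Lib.Helper18.BNCell Cfsg.Agent.Lib.Helper18.Vec
  Cfsg.Agent.Lib.Helper18.XMat Cfsg.Agent.Lib.Helper18.Cells Cfsg.Agent.Lib.Helper18.Cox2
  Cfsg.Agent.Lib.Helper18.Cells2 Cfsg.Agent.Lib.Helper18.Cox3 Cfsg.Agent.Lib.Helper18.HOrder
  Cfsg.Agent.Lib.Helper18.HOrderTab Cfsg.Agent.Lib.Helper18.Tri Cfsg.Agent.Lib.Helper18.Par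
  Cfsg.Agent.Lib.Helper18.Par2 Cfsg.Agent.Lib.Helper18.Par3 Cfsg.Agent.Lib.Helper18.Par4
  Cfsg.Agent.Lib.Helper36.ParCen1 Cfsg.Agent.Lib.Helper36.ParCen2

/-- If a finite subgroup `P` has a normal subgroup `V` contained in a `p`-subgroup `U` that
contains the centralizer of `V` in `P`, then `F*(P)` is a `p`-group. -/
theorem gfs_isPGroup_of_cen {G : Type*} [Group G] (p : ℕ) [Fact p.Prime] (P V U : Subgroup G)
    [Finite P] (hVP : V ≤ P) (hnorm : P ≤ Subgroup.normalizer (V : Set G)) (hVU : V ≤ U)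
    (hUp : IsPGroup p U) (hcen : Subgroup.centralizer (V : Set G) ⊓ P ≤ U) :
    IsPGroup p ↥(Cfsg.generalizedFittingSubgroup ↥P) := by
  have hVn : (V.subgroupOf P).Normal :=
    (Subgroup.normal_subgroupOf_iff_le_normalizer hVP).mpr hnorm
  have hVp : IsPGroup p ↥(V.subgroupOf P) := (hUp.to_le hVU).comap_subtype
  have h1 : V.subgroupOf P ≤ Cfsg.pCore p ↥P :=
    Cfsg.Agent.Lib.Helper78.Fitting.le_pCore hVn hVp
  have hCn : (Subgroup.centralizer ((V.subgroupOf P : Subgroup ↥P) : Set ↥P)).Normal :=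
    Subgroup.normal_centralizer
  have hCle : Subgroup.centralizer ((V.subgroupOf P : Subgroup ↥P) : Set ↥P) ≤
      U.subgroupOf P := by
    intro y hy
    rw [Subgroup.mem_subgroupOf]
    apply hcen
    refine ⟨?_, y.2⟩
    show (y : G) ∈ Subgroup.centralizer (V : Set G)
    rw [Subgroup.mem_centralizer_iff]
    intro v hv
    have h0 := Subgroup.mem_centralizer_iff.mp hy ⟨v, hVP hv⟩ (Subgroup.mem_subgroupOf.mpr hv)
    exact congrArg Subtype.val h0
  have hCp : IsPGroup p ↥(Subgroup.centralizer ((V.subgroupOf P : Subgroup ↥P) : Set ↥P)) :=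
    (hUp.comap_subtype (K := P)).to_le hCle
  have h2 : Subgroup.centralizer ((V.subgroupOf P : Subgroup ↥P) : Set ↥P) ≤ Cfsg.pCore p ↥P :=
    Cfsg.Agent.Lib.Helper78.Fitting.le_pCore hCn hCp
  have h3 : Subgroup.centralizer (Cfsg.pCore p ↥P : Set ↥P) ≤ Cfsg.pCore p ↥P :=
    (Subgroup.centralizer_le (SetLike.coe_subset_coe.mpr h1)).trans h2
  rw [Cfsg.Agent.Lib.Helper48.CharPGfs.gfs_eq_pCore_of_centralizer_le p h3]
  exact Cfsg.Agent.Lib.Helper78.Fitting.pCore_isPGroup p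

variable {A : FData} {D : ChevalleyDatum} {F : Type*} [Field F] {X : WD} {m : ℕ → ℕ → ℤ}
  {w : ℕ → ℤ} {N : ℕ} {ord rnk : ℕ → ℕ} {bz : ℕ → ℕ → ℤ} {w' : ℕ → ℤ} {c : ℤ} {fw : ℕ → ℕ → ℤ}

section

variable (hC : CFacts A D X m w) (hR : RFacts A X) (hU : UFacts A w' N ord rnk bz) (hn : 0 < A.n)
  (hK : KFacts A)
  (hadd : ∀ r < D.nroots, ∀ t u : F, D.x F r t * D.x F r u = D.x F r (t + u))
  (hinj : ∀ r < D.nroots, ∀ t : F, D.x F r t = 1 → t = 0)

include hC hR hU hn hK hadd hinj in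
/-- `F*(P_J)` is a `p`-group for a proper subset `J`. -/
theorem gfs_par [Fintype F] (p : ℕ) [Fact p.Prime] [CharP F p] (J : Set ℕ)
    (hJ : ∃ i, i < A.rank ∧ i ∉ J) :
    IsPGroup p ↥(Cfsg.generalizedFittingSubgroup ↥(D.parabolicSubgroup F J)) := by
  have hF := hC.af
  have hUp : IsPGroup p ↥(D.posUnipotent F) := by
    obtain ⟨k, -, hk⟩ := FiniteField.card F p
    apply IsPGroup.of_card (n := (k : ℕ) * N)
    rw [card_U hC hadd hU, hk, pow_mul]
  have hVU : D.unipotentRadical F J ≤ D.posUnipotent F := by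
    apply Subgroup.closure_mono
    rintro g ⟨r, t, hr, _, hg⟩
    exact ⟨r, t, hr, hg⟩
  have hVP : D.unipotentRadical F J ≤ D.parabolicSubgroup F J := hVU.trans (U_le_par J)
  exact gfs_isPGroup_of_cen p _ _ _ hVP (par_le_normalizer hC hR hU hn hadd J) hVU hUp
    (cen_le_unip hC hR hU hn hK hadd hinj J hJ)

end

end Cfsg.Agent.Lib.Helper36.ParCen3
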