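import Cfsg.Agent.Lib.Helper36.ReeRep7
import Cfsg.Agent.Lib.Helper36.ReeCyc
import Cfsg.Agent.Lib.Helper36.LinCent

/-!
In the Ree group `²G₂(q)`, `q = 3^(2m+1)`, `m ≥ 1`: the centralizer of an element of prime order `p`,
`p > 3` not dividing `q² - 1`, is abelian (from the faithful 7-dimensional representation).
-/

set_option autoImplicit false

namespace Cfsg.Agent.Lib.Helper36.ReeCent

open Cfsg Cfsg.Lie

/-- arithmetic facts for a prime `p > 3` dividing the order of `²G₂(q)` but not `q² - 1` -/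
theorem prime_facts {K : Type*} [Field K] [Fintype K] {m : ℕ}
    (hK : Fintype.card K = 3 ^ (2 * m + 1)) {p : ℕ} [Fact p.Prime] (hp : 3 < p)
    (hA : ¬ p ∣ 3 ^ (2 * m + 1) - 1) (hB : ¬ p ∣ 3 ^ (2 * m + 1) + 1)
    (hdvd : p ∣ (3 ^ (2 * m + 1)) ^ 3 * (3 ^ (2 * m + 1) - 1) * ((3 ^ (2 * m + 1)) ^ 3 + 1)) :
    ¬ p ∣ Fintype.card K ∧ (p : K) ≠ 0 ∧
      ∀ j, 0 < j → j < 6 → ¬ p ∣ Fintype.card K ^ j - 1 := by
  have hpp : p.Prime := Fact.out
  obtain ⟨q, hq⟩ : ∃ q : ℕ, q = 3 ^ (2 * m + 1) := ⟨_, rfl⟩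
  rw [← hq] at hK hA hB hdvd
  have hq3 : 3 ≤ q := by
    rw [hq]
    calc 3 = 3 ^ 1 := by norm_num
      _ ≤ 3 ^ (2 * m + 1) := Nat.pow_le_pow_right (by norm_num) (by omega)
  have h3K : (3 : K) = 0 := by
    have := Nat.cast_card_eq_zero K
    rw [hK, hq] at this
    push_cast at this
    exact (pow_eq_zero_iff (by omega)).1 this
  have hpq : ¬ p ∣ q := by
    intro h
    rw [hq] at h
    have := (Nat.prime_dvd_prime_iff_eq hpp Nat.prime_three).1 (hpp.dvd_of_dvd_pow h)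
    omega
  have hpK : (p : K) ≠ 0 := by
    intro h0
    have hc : Nat.Coprime p 3 := (Nat.coprime_primes hpp Nat.prime_three).2 (by omega)
    obtain ⟨a, b, hab⟩ := Nat.isCoprime_iff_coprime.2 hc
    have := congrArg (Int.cast : ℤ → K) hab
    push_cast at this
    rw [h0, h3K] at this
    simp at this
  refine ⟨by rw [hK]; exact hpq, hpK, ?_⟩
  have hdvd' : p ^ 1 ∣ q ^ 3 * (q - 1) * (q ^ 3 + 1) := by rwa [pow_one]
  rcases Cfsg.Agent.Lib.Helper36.ReeCyc.arith_cases (by omega) hp hpq hdvd' with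
    h | ⟨_, h⟩ | h | ⟨_, _, hx⟩
  · rw [pow_one] at h; exact absurd h hA
  · rw [pow_one] at h; exact absurd h hB
  · omega
  · rw [hK]; exact Cfsg.Agent.Lib.Helper36.ReeCyc.no_small_order (by omega) hp hA hB hx

variable {K : Type*} [Field K] [Fintype K] {m : ℕ}

/-- elements commuting with an element of order `p` commute -/
theorem commute_of_commute (hm : 1 ≤ m) (hK : Fintype.card K = 3 ^ (2 * m + 1)) {p : ℕ}
    [Fact p.Prime] (hp : 3 < p) (hA : ¬ p ∣ 3 ^ (2 * m + 1) - 1) (hB : ¬ p ∣ 3 ^ (2 * m + 1) + 1)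
    (x : ↥(twistedG2 K (3 ^ m))) (hx : orderOf x = p) {a b : ↥(twistedG2 K (3 ^ m))}
    (ha : Commute a x) (hb : Commute b x) : Commute a b := by
  obtain ⟨ρ, hρ⟩ := Cfsg.Agent.Lib.Helper36.ReeRep7.faithful7 hm hK
  have hdvd : p ∣ Nat.card ↥(twistedG2 K (3 ^ m)) := by
    rw [← hx]; exact orderOf_dvd_natCard x
  rw [Cfsg.Agent.S1069.result hK] at hdvd
  obtain ⟨h1, h2, h3⟩ := prime_facts hK hp hA hB hdvd
  exact Cfsg.Agent.Lib.Helper36.LinCent.commute_of_faithful7 ρ hρ h1 h2 h3 x hx ha hb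

/-- the centralizer of an element of order `p` is abelian -/
theorem centralizer_comm (hm : 1 ≤ m) (hK : Fintype.card K = 3 ^ (2 * m + 1)) {p : ℕ}
    [Fact p.Prime] (hp : 3 < p) (hA : ¬ p ∣ 3 ^ (2 * m + 1) - 1) (hB : ¬ p ∣ 3 ^ (2 * m + 1) + 1)
    (x : ↥(twistedG2 K (3 ^ m))) (hx : orderOf x = p) :
    ∀ a ∈ Subgroup.centralizer ({x} : Set ↥(twistedG2 K (3 ^ m))),
      ∀ b ∈ Subgroup.centralizer ({x} : Set ↥(twistedG2 K (3 ^ m))), a * b = b * a := by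
  intro a ha b hb
  rw [Subgroup.mem_centralizer_iff] at ha hb
  exact (commute_of_commute hm hK hp hA hB x hx (a := a) (b := b)
    (ha x rfl).symm (hb x rfl).symm).eq

end Cfsg.Agent.Lib.Helper36.ReeCent
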