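import Mathlib
import Cfsg.Agent.Lib.Helper18.Ree27
import Cfsg.Agent.Lib.Helper36.ChevBC

set_option autoImplicit false

/-!
# S2127 / FROB: the field automorphism `t ↦ t ^ 3` of the Ree group `²G₂(q)`

The entrywise Frobenius map of `GL` maps the generators of `twistedG2 K e` to generators, hence
restricts to an injective endomorphism of the finite group `twistedG2 K e`.
-/

namespace Cfsg.Agent.Lib.Helper36.ReeOutFROB

open Cfsg Cfsg.Lie Cfsg.Agent.Lib.Helper18 Cfsg.Agent.Lib.Helper18.Ree1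
  Cfsg.Agent.Lib.Helper18.Ree2 Cfsg.Agent.Lib.Helper18.Ree4 Cfsg.Agent.Lib.Helper18.Ree5
  Cfsg.Agent.Lib.Helper18.Ree7 Cfsg.Agent.Lib.Helper36

section gen
variable {K : Type*} [Field K]

/-- the entrywise map of a ring endomorphism on a word element -/
theorem glMap_wg (f : K →+* K) (w : List (ℕ × K)) :
    Matrix.GeneralLinearGroup.map (n := chevG2.Idx) f (wg K w) =
      wg K (w.map fun p => (p.1, f p.2)) := by
  apply Units.ext
  rw [ChevBC.coe_glMap, coe_wg, coe_wg, ChevBC.wordMat_map]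

theorem map_reeWordU (f : K →+* K) (e : ℕ) (t u v : K) :
    (reeWordU e t u v).map (fun p => (p.1, f p.2)) = reeWordU e (f t) (f u) (f v) := by
  simp [reeWordU, map_add, map_pow]

theorem map_reeWordV (f : K →+* K) (e : ℕ) (t u v : K) :
    (reeWordV e t u v).map (fun p => (p.1, f p.2)) = reeWordV e (f t) (f u) (f v) := by
  unfold reeWordV
  rw [← map_reeWordU f e t u v]
  unfold ChevalleyDatum.negWord
  rw [List.map_map, List.map_map]
  apply List.map_congr_left
  intro p _
  simp [map_neg]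

theorem map_hWord (f : K →+* K) (r : ℕ) (t : K) :
    (chevG2.hWord r t).map (fun p => (p.1, f p.2)) = chevG2.hWord r (f t) := by
  simp [ChevalleyDatum.hWord, ChevalleyDatum.nWord, map_neg, map_inv₀]

theorem glMap_hx (f : K →+* K) (r : ℕ) (t : K) :
    Matrix.GeneralLinearGroup.map (n := chevG2.Idx) f (hx K r t) = hx K r (f t) := by
  unfold hx
  rw [glMap_wg, map_hWord]

theorem map_twisted_le (f : K →+* K) (e : ℕ) :
    (twistedG2 K e).map (Matrix.GeneralLinearGroup.map (n := chevG2.Idx) f) ≤ twistedG2 K e := by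
  rw [Subgroup.map_le_iff_le_comap]
  unfold twistedG2 ChevalleyDatum.genSubgroup
  rw [Subgroup.closure_le]
  rintro g ⟨w, ⟨t, u, v, hw⟩, hg⟩
  apply Subgroup.subset_closure
  refine ⟨w.map fun p => (p.1, f p.2), ⟨f t, f u, f v, ?_⟩, ?_⟩
  · rcases hw with rfl | rfl
    · left
      exact map_reeWordU f e t u v
    · right
      exact map_reeWordV f e t u v
  · rw [ChevBC.coe_glMap, hg, ChevBC.wordMat_map]

end gen

theorem main {K : Type*} [Field K] [Fintype K] {m : ℕ} (hK : Fintype.card K = 3 ^ (2 * m + 1))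
    (φ : K →+* K) (hφ : ∀ x, φ x = x ^ 3 ^ m) :
    ∃ F : MulAut ↥(Cfsg.Lie.twistedG2 K (3 ^ m)),
      (∀ (g : ↥(Cfsg.Lie.twistedG2 K (3 ^ m))) (t u v : K),
        (g : GL Cfsg.Lie.chevG2.Idx K) = Ree2.reeU φ t u v →
        ((F g : ↥(Cfsg.Lie.twistedG2 K (3 ^ m))) : GL Cfsg.Lie.chevG2.Idx K) =
          Ree2.reeU φ (t ^ 3) (u ^ 3) (v ^ 3)) ∧
      (∀ (g : ↥(Cfsg.Lie.twistedG2 K (3 ^ m))) (s : K), s ≠ 0 →
        (g : GL Cfsg.Lie.chevG2.Idx K) = Ree7.eta φ s →
        ((F g : ↥(Cfsg.Lie.twistedG2 K (3 ^ m))) : GL Cfsg.Lie.chevG2.Idx K) =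
          Ree7.eta φ (s ^ 3)) := by
  classical
  haveI := Ree4.charP3 hK
  have hle := map_twisted_le (frobenius K 3) (3 ^ m)
  have hmem : ∀ g : ↥(twistedG2 K (3 ^ m)),
      ((Matrix.GeneralLinearGroup.map (n := chevG2.Idx) (frobenius K 3)).comp
        (twistedG2 K (3 ^ m)).subtype) g ∈ twistedG2 K (3 ^ m) :=
    fun g => hle (Subgroup.mem_map_of_mem _ g.2)
  have hinj : Function.Injective
      (((Matrix.GeneralLinearGroup.map (n := chevG2.Idx) (frobenius K 3)).comp
        (twistedG2 K (3 ^ m)).subtype).codRestrict _ hmem) := by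
    intro a b hab
    have h := congrArg Subtype.val hab
    exact Subtype.ext (ChevBC.glMap_injective (frobenius K 3) chevG2 h)
  have hbij := Finite.injective_iff_bijective.mp hinj
  refine ⟨MulEquiv.ofBijective _ hbij, ?_, ?_⟩
  · intro g t u v hg
    show Matrix.GeneralLinearGroup.map (n := chevG2.Idx) (frobenius K 3)
      (g : GL chevG2.Idx K) = _
    rw [hg, ← wg_reeWordU hφ, glMap_wg, map_reeWordU, wg_reeWordU hφ]
    simp only [frobenius_def]
  · intro g s _ hg
    show Matrix.GeneralLinearGroup.map (n := chevG2.Idx) (frobenius K 3)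
      (g : GL chevG2.Idx K) = _
    rw [hg]
    unfold eta
    rw [map_mul, glMap_hx, glMap_hx, frobenius_def, frobenius_def, map_pow]

end Cfsg.Agent.Lib.Helper36.ReeOutFROB
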