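import Mathlib
import Cfsg.Agent.Lib.Helper18.Cox3

set_option autoImplicit false

/-!
Combinatorics of minimal coset representatives in the abstract root systems `RS` of helper18:
`W = W^J · W_J` with additive lengths, the longest element, and the alternating sum
`∑_J (-1)^|J| W^J(q) = q^N`.
-/

namespace Cfsg.Agent.Lib.Helper36.StCox

open Finset Cfsg.Agent.Lib.Helper18.Cox

variable {R : Type} [Fintype R] [DecidableEq R] {l : ℕ} (P : RS R l)

/-- Minimal coset representatives of `W / W_J`. -/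
def Min (J : Set ℕ) (σ : Equiv.Perm R) : Prop :=
  σ ∈ P.W Set.univ ∧ ∀ j ∈ J, j < l → P.pos (σ (P.α j))

theorem ell'_one : P.ell' 1 = 0 := (P.ell'_eq_zero_iff 1).mpr (fun _ hr => hr)

theorem eq_one_of_pos (hT : P.Triv) {J : Set ℕ} {τ : Equiv.Perm R} (hτ : τ ∈ P.W J)
    (h : ∀ j ∈ J, j < l → P.pos (τ (P.α j))) : τ = 1 := by
  apply hT τ (P.W_le_univ J hτ)
  intro r hr
  by_cases hJ : P.inJ J r
  · exact P.pos_lin hτ h hr hJ
  · exact P.pos_of_not_inJ hτ hr hJ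

theorem exists_desc (hT : P.Triv) {J : Set ℕ} {τ : Equiv.Perm R} (hτ : τ ∈ P.W J) (hne : τ ≠ 1) :
    ∃ j ∈ J, j < l ∧ ¬ P.pos (τ (P.α j)) := by
  by_contra hc
  apply hne
  apply eq_one_of_pos P hT hτ
  intro j hj hjl
  by_contra hp
  exact hc ⟨j, hj, hjl, hp⟩

theorem inJ_neg {J : Set ℕ} {r : R} (h : P.inJ J r) : P.inJ J (P.neg r) := by
  intro k hk hkJ
  rw [P.c_neg r k hk, h k hk hkJ, neg_zero]

theorem ell'_mul (hT : P.Triv) {J : Set ℕ} {σ : Equiv.Perm R} (hσ : Min P J σ) :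
    ∀ n : ℕ, ∀ τ ∈ P.W J, P.ell' τ = n → P.ell' (σ * τ) = P.ell' σ + n := by
  intro n
  induction n with
  | zero =>
    intro τ hτ h0
    have h1 : τ = 1 := hT τ (P.W_le_univ J hτ) ((P.ell'_eq_zero_iff τ).mp h0)
    rw [h1, mul_one, add_zero]
  | succ n ih =>
    intro τ hτ hn
    have hne : τ ≠ 1 := by
      rintro rfl
      rw [ell'_one] at hn
      omega
    obtain ⟨j, hjJ, hj, hneg⟩ := exists_desc P hT hτ hne
    have h1 := P.ell'_of_neg hτ hj hjJ hneg
    have hτ' : τ * P.s j ∈ P.W J := Subgroup.mul_mem _ hτ (P.s_mem hjJ hj)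
    have h2 := ih (τ * P.s j) hτ' (by omega)
    have h3 : P.pos ((σ * (τ * P.s j)) (P.α j)) := by
      rw [Equiv.Perm.mul_apply, Equiv.Perm.mul_apply, P.s_α j hj, P.neg_comm hτ]
      apply P.pos_lin hσ.1 hσ.2
      · exact (P.pos_neg _).mpr hneg
      · exact inJ_neg P ((P.inJ_apply hτ).mpr (Cfsg.Agent.Lib.Helper18.Cox2.inJ_α P hjJ hj))
    have h4 := P.ell'_mul_s (Subgroup.mul_mem _ hσ.1 (P.W_le_univ J hτ')) hj h3
    have h5 : σ * (τ * P.s j) * P.s j = σ * τ := by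
      rw [mul_assoc, mul_assoc, P.s_mul_s hj, mul_one]
    rw [h5] at h4
    rw [h4, h2]
    omega

theorem exists_factor (J : Set ℕ) : ∀ n : ℕ, ∀ w ∈ P.W Set.univ, P.ell' w = n →
    ∃ σ τ, Min P J σ ∧ τ ∈ P.W J ∧ w = σ * τ := by
  intro n
  induction n using Nat.strong_induction_on with
  | _ n ih =>
    intro w hw hn
    by_cases hmin : ∀ j ∈ J, j < l → P.pos (w (P.α j))
    · exact ⟨w, 1, ⟨hw, hmin⟩, Subgroup.one_mem _, (mul_one w).symm⟩
    · have hex : ∃ j ∈ J, j < l ∧ ¬ P.pos (w (P.α j)) := by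
        by_contra hc
        apply hmin
        intro j hj hjl
        by_contra hp
        exact hc ⟨j, hj, hjl, hp⟩
      obtain ⟨j, hjJ, hj, hneg⟩ := hex
      have h1 := P.ell'_of_neg hw hj (Set.mem_univ j) hneg
      have hw' : w * P.s j ∈ P.W Set.univ :=
        Subgroup.mul_mem _ hw (P.s_mem (Set.mem_univ j) hj)
      obtain ⟨σ, τ, hσ, hτ, e⟩ := ih (P.ell' (w * P.s j)) (by omega) (w * P.s j) hw' rfl
      refine ⟨σ, τ * P.s j, hσ, Subgroup.mul_mem _ hτ (P.s_mem hjJ hj), ?_⟩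
      rw [← mul_assoc, ← e, mul_assoc, P.s_mul_s hj, mul_one]

theorem factor_unique (hT : P.Triv) {J : Set ℕ} {σ σ' τ τ' : Equiv.Perm R} (hσ : Min P J σ)
    (hσ' : Min P J σ') (hτ : τ ∈ P.W J) (hτ' : τ' ∈ P.W J) (e : σ * τ = σ' * τ') :
    σ = σ' ∧ τ = τ' := by
  have hρ : τ * τ'⁻¹ ∈ P.W J := Subgroup.mul_mem _ hτ (Subgroup.inv_mem _ hτ')
  have hρ' : τ' * τ⁻¹ ∈ P.W J := Subgroup.mul_mem _ hτ' (Subgroup.inv_mem _ hτ)
  have e1 : σ' = σ * (τ * τ'⁻¹) := by
    rw [← mul_assoc, e, mul_assoc, mul_inv_cancel, mul_one]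
  have e2 : σ = σ' * (τ' * τ⁻¹) := by
    rw [← mul_assoc, ← e, mul_assoc, mul_inv_cancel, mul_one]
  have h1 := ell'_mul P hT hσ _ _ hρ rfl
  have h2 := ell'_mul P hT hσ' _ _ hρ' rfl
  rw [← e1] at h1
  rw [← e2] at h2
  have h3 : P.ell' (τ * τ'⁻¹) = 0 := by omega
  have h4 : τ * τ'⁻¹ = 1 := hT _ (P.W_le_univ J hρ) ((P.ell'_eq_zero_iff _).mp h3)
  have h5 : τ = τ' := by rwa [mul_inv_eq_one] at h4
  refine ⟨?_, h5⟩
  subst h5
  exact mul_right_cancel e

open Classical in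
/-- `W(q) = W^J(q) · W_J(q)`. -/
theorem sum_factor (hT : P.Triv) (J : Set ℕ) (q : ℕ) :
    ∑ w ∈ univ.filter (fun w => w ∈ P.W Set.univ), q ^ P.ell' w =
      (∑ σ ∈ univ.filter (fun σ => Min P J σ), q ^ P.ell' σ) *
        ∑ τ ∈ univ.filter (fun τ => τ ∈ P.W J), q ^ P.ell' τ := by
  rw [Finset.sum_mul_sum, ← Finset.sum_product']
  symm
  apply Finset.sum_bij (fun (p : Equiv.Perm R × Equiv.Perm R) _ => p.1 * p.2)
  · intro p hp
    rw [mem_product, mem_filter, mem_filter] at hp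
    rw [mem_filter]
    exact ⟨mem_univ _, Subgroup.mul_mem _ hp.1.2.1 (P.W_le_univ J hp.2.2)⟩
  · intro p hp p' hp' e
    rw [mem_product, mem_filter, mem_filter] at hp hp'
    obtain ⟨h1, h2⟩ := factor_unique P hT hp.1.2 hp'.1.2 hp.2.2 hp'.2.2 e
    exact Prod.ext h1 h2
  · intro w hw
    rw [mem_filter] at hw
    obtain ⟨σ, τ, hσ, hτ, e⟩ := exists_factor P J _ w hw.2 rfl
    refine ⟨(σ, τ), ?_, e.symm⟩
    rw [mem_product, mem_filter, mem_filter]
    exact ⟨⟨mem_univ _, hσ⟩, mem_univ _, hτ⟩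
  · intro p hp
    rw [mem_product, mem_filter, mem_filter] at hp
    rw [ell'_mul P hT hp.1.2 _ _ hp.2.2 rfl, pow_add]

open Classical in
theorem sum_ell_eq (J : Set ℕ) (q : ℕ) :
    ∑ τ ∈ univ.filter (fun τ => τ ∈ P.W J), q ^ P.ell τ =
      ∑ τ ∈ univ.filter (fun τ => τ ∈ P.W J), q ^ P.ell' τ := by
  apply Finset.sum_bij (fun (τ : Equiv.Perm R) _ => τ⁻¹)
  · intro τ hτ
    rw [mem_filter] at hτ ⊢
    exact ⟨mem_univ _, Subgroup.inv_mem _ hτ.2⟩
  · intro a _ b _ e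
    exact inv_injective e
  · intro τ hτ
    rw [mem_filter] at hτ
    refine ⟨τ⁻¹, ?_, inv_inv τ⟩
    rw [mem_filter]
    exact ⟨mem_univ _, Subgroup.inv_mem _ hτ.2⟩
  · intro τ _
    rfl

theorem neg_of_simple_neg {σ : Equiv.Perm R} (hσ : σ ∈ P.W Set.univ)
    (h : ∀ j < l, ¬ P.pos (σ (P.α j))) {r : R} (hr : P.pos r) : ¬ P.pos (σ r) := by
  intro hp
  obtain ⟨k, hk, hne⟩ := P.nz (σ r)
  have h1 : P.c (σ r) k ≤ 0 := by
    rw [P.c_lin hσ r k hk]
    apply Finset.sum_nonpos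
    intro j hj
    rw [mem_range] at hj
    exact mul_nonpos_of_nonneg_of_nonpos (hr j hj) (P.nonpos_of_not_pos (h j hj) k hk)
  have h2 := hp k hk
  omega

theorem pos_of_simple_neg {σ : Equiv.Perm R} (hσ : σ ∈ P.W Set.univ)
    (h : ∀ j < l, ¬ P.pos (σ (P.α j))) {r : R} (hr : ¬ P.pos r) : P.pos (σ r) := by
  have h1 : P.pos (P.neg r) := (P.pos_neg r).mpr hr
  have h2 := neg_of_simple_neg P hσ h h1
  rw [P.neg_comm hσ, P.pos_neg] at h2
  exact not_not.mp h2

open Classical in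
theorem exists_longest : ∃ σ ∈ P.W Set.univ, ∀ j < l, ¬ P.pos (σ (P.α j)) := by
  have hne : (univ.filter (fun σ : Equiv.Perm R => σ ∈ P.W Set.univ)).Nonempty :=
    ⟨1, by rw [mem_filter]; exact ⟨mem_univ _, Subgroup.one_mem _⟩⟩
  obtain ⟨σ, hσ, hmax⟩ := Finset.exists_max_image _ (fun σ => P.ell' σ) hne
  rw [mem_filter] at hσ
  refine ⟨σ, hσ.2, ?_⟩
  intro j hj hp
  have h1 := P.ell'_mul_s hσ.2 hj hp
  have h2 := hmax (σ * P.s j) (by
    rw [mem_filter]
    exact ⟨mem_univ _, Subgroup.mul_mem _ hσ.2 (P.s_mem (Set.mem_univ j) hj)⟩)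
  omega

open Classical in
/-- Half of the roots are positive. -/
theorem two_mul_card_pos : 2 * (univ.filter (fun r => P.pos r)).card = Fintype.card R := by
  obtain ⟨σ, hσ, h⟩ := exists_longest P
  have e1 : (univ.filter (fun r => P.pos r)).card = (univ.filter (fun r => ¬ P.pos r)).card := by
    apply le_antisymm
    · apply Finset.card_le_card_of_injOn σ
      · intro r hr
        have hr' : P.pos r := (mem_filter.mp (Finset.mem_coe.mp hr)).2
        exact Finset.mem_coe.mpr (mem_filter.mpr ⟨mem_univ _, neg_of_simple_neg P hσ h hr'⟩)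
      · exact σ.injective.injOn
    · apply Finset.card_le_card_of_injOn σ
      · intro r hr
        have hr' : ¬ P.pos r := (mem_filter.mp (Finset.mem_coe.mp hr)).2
        exact Finset.mem_coe.mpr (mem_filter.mpr ⟨mem_univ _, pos_of_simple_neg P hσ h hr'⟩)
      · exact σ.injective.injOn
  have e2 := Finset.card_filter_add_card_filter_not (s := (univ : Finset R)) (fun r => P.pos r)
  rw [Finset.card_univ] at e2
  omega

open Classical in
theorem ell'_longest {σ : Equiv.Perm R} (hσ : σ ∈ P.W Set.univ)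
    (h : ∀ j < l, ¬ P.pos (σ (P.α j))) :
    P.ell' σ = (univ.filter (fun r => P.pos r)).card := by
  unfold RS.ell'
  apply congrArg Finset.card
  ext r
  simp only [mem_filter, mem_univ, true_and]
  exact ⟨fun h' => h'.1, fun h' => ⟨h', neg_of_simple_neg P hσ h h'⟩⟩

theorem longest_unique (hT : P.Triv) {σ σ' : Equiv.Perm R} (hσ : σ ∈ P.W Set.univ)
    (hσ' : σ' ∈ P.W Set.univ) (h : ∀ j < l, ¬ P.pos (σ (P.α j)))
    (h' : ∀ j < l, ¬ P.pos (σ' (P.α j))) : σ' = σ := by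
  have h1 : σ⁻¹ * σ' = 1 := by
    apply hT _ (Subgroup.mul_mem _ (Subgroup.inv_mem _ hσ) hσ')
    intro r hr
    by_contra hc
    have h2 := pos_of_simple_neg P hσ h hc
    rw [Equiv.Perm.mul_apply, RS.perm_apply_inv] at h2
    exact neg_of_simple_neg P hσ' h' hr h2
  exact (inv_mul_eq_one.mp h1).symm

open Classical in
/-- The alternating sum of the Poincaré polynomials of the sets of minimal coset
representatives is `q ^ N`. -/
theorem alt_sum (hT : P.Triv) (q : ℕ) :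
    ∑ J ∈ (range l).powerset, (-1 : ℤ) ^ J.card *
        ((∑ σ ∈ univ.filter (fun σ => Min P (↑J : Set ℕ) σ), q ^ P.ell' σ : ℕ) : ℤ) =
      (q : ℤ) ^ (univ.filter (fun r => P.pos r)).card := by
  have e1 : ∀ J ∈ (range l).powerset,
      (-1 : ℤ) ^ J.card *
        ((∑ σ ∈ univ.filter (fun σ => Min P (↑J : Set ℕ) σ), q ^ P.ell' σ : ℕ) : ℤ) =
      ∑ σ ∈ univ.filter (fun σ => σ ∈ P.W Set.univ),
        (if J ⊆ (range l).filter (fun j => P.pos (σ (P.α j))) then (-1 : ℤ) ^ J.card else 0) *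
          (q : ℤ) ^ P.ell' σ := by
    intro J hJ
    rw [mem_powerset] at hJ
    rw [Nat.cast_sum, Finset.mul_sum, Finset.sum_filter, Finset.sum_filter]
    apply Finset.sum_congr rfl
    intro σ _
    have hiff : Min P (↑J : Set ℕ) σ ↔
        (σ ∈ P.W Set.univ ∧ J ⊆ (range l).filter (fun j => P.pos (σ (P.α j)))) := by
      constructor
      · rintro ⟨h1, h2⟩
        refine ⟨h1, fun j hj => ?_⟩
        rw [mem_filter]
        exact ⟨hJ hj, h2 j (Finset.mem_coe.mpr hj) (mem_range.mp (hJ hj))⟩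
      · rintro ⟨h1, h2⟩
        refine ⟨h1, fun j hj _ => ?_⟩
        have h3 := h2 (Finset.mem_coe.mp hj)
        rw [mem_filter] at h3
        exact h3.2
    by_cases hW : σ ∈ P.W Set.univ
    · by_cases hsub : J ⊆ (range l).filter (fun j => P.pos (σ (P.α j)))
      · rw [if_pos (hiff.mpr ⟨hW, hsub⟩), if_pos hW, if_pos hsub, Nat.cast_pow]
      · rw [if_neg (fun h => hsub (hiff.mp h).2), if_pos hW, if_neg hsub, zero_mul]
    · rw [if_neg (fun h => hW h.1), if_neg hW]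
  rw [Finset.sum_congr rfl e1, Finset.sum_comm]
  have e2 : ∀ σ ∈ univ.filter (fun σ : Equiv.Perm R => σ ∈ P.W Set.univ),
      ∑ J ∈ (range l).powerset,
        (if J ⊆ (range l).filter (fun j => P.pos (σ (P.α j))) then (-1 : ℤ) ^ J.card else 0) *
          (q : ℤ) ^ P.ell' σ =
      (if ∀ j < l, ¬ P.pos (σ (P.α j)) then (q : ℤ) ^ P.ell' σ else 0) := by
    intro σ _
    rw [← Finset.sum_mul, ← Finset.sum_filter]
    have hfil : (range l).powerset.filter
        (fun J => J ⊆ (range l).filter (fun j => P.pos (σ (P.α j)))) =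
        ((range l).filter (fun j => P.pos (σ (P.α j)))).powerset := by
      ext J
      rw [mem_filter, mem_powerset, mem_powerset]
      exact ⟨fun h => h.2, fun h => ⟨h.trans (Finset.filter_subset _ _), h⟩⟩
    rw [hfil, Finset.sum_powerset_neg_one_pow_card]
    have hemp : (range l).filter (fun j => P.pos (σ (P.α j))) = ∅ ↔
        ∀ j < l, ¬ P.pos (σ (P.α j)) := by
      rw [Finset.filter_eq_empty_iff]
      exact ⟨fun h j hj => h (mem_range.mpr hj), fun h j hj => h j (mem_range.mp hj)⟩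
    by_cases hc : (range l).filter (fun j => P.pos (σ (P.α j))) = ∅
    · rw [if_pos hc, if_pos (hemp.mp hc), one_mul]
    · rw [if_neg hc, if_neg (fun h => hc (hemp.mpr h)), zero_mul]
  rw [Finset.sum_congr rfl e2, ← Finset.sum_filter]
  obtain ⟨σ₀, hσ₀, h₀⟩ := exists_longest P
  have hsing : (univ.filter (fun σ : Equiv.Perm R => σ ∈ P.W Set.univ)).filter
      (fun σ => ∀ j < l, ¬ P.pos (σ (P.α j))) = {σ₀} := by
    ext σ
    rw [mem_filter, mem_filter, mem_singleton]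
    constructor
    · rintro ⟨⟨_, h1⟩, h2⟩
      exact longest_unique P hT hσ₀ h1 h₀ h2
    · rintro rfl
      exact ⟨⟨mem_univ _, hσ₀⟩, h₀⟩
  rw [hsing, Finset.sum_singleton, ell'_longest P hσ₀ h₀]

end Cfsg.Agent.Lib.Helper36.StCox
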