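import Mathlib
import Cfsg.Agent.Lib.Helper36.StCox

set_option autoImplicit false

/-!
More on minimal coset representatives in the abstract root systems `RS` of helper18: tails of
reduced words of minimal representatives, and the pointwise alternating sum
`∑_J (-1)^|J| [σ ∈ W^J] = [σ = w₀]`.
-/

namespace Cfsg.Agent.Lib.Helper36.StCox2

open Finset Cfsg.Agent.Lib.Helper18.Cox Cfsg.Agent.Lib.Helper36.StCox

variable {R : Type} [Fintype R] [DecidableEq R] {l : ℕ} (P : RS R l)

theorem neg_neg_α {i : ℕ} (hi : i < l) : P.neg (P.neg (P.α i)) = P.α i := by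
  have h1 := P.s_neg i hi (P.α i)
  rw [P.s_α i hi] at h1
  have h2 := P.s_sq i hi (P.α i)
  rw [P.s_α i hi] at h2
  exact h1.symm.trans h2

/-- If `s_i ρ` is a minimal coset representative and longer than `ρ`, then `ρ` is minimal. -/
theorem min_tail {J : Set ℕ} {i : ℕ} (hi : i < l) {ρ : Equiv.Perm R} (hρ : ρ ∈ P.W Set.univ)
    (hmin : Min P J (P.s i * ρ)) (hpos : P.pos (ρ⁻¹ (P.α i))) : Min P J ρ := by
  refine ⟨hρ, ?_⟩
  intro j hj hjl
  by_contra hc
  have h1 : P.pos (P.s i (ρ (P.α j))) := hmin.2 j hj hjl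
  have h2 : P.pos (P.neg (ρ (P.α j))) := (P.pos_neg _).mpr hc
  by_cases he : P.neg (ρ (P.α j)) = P.α i
  · have h3 : ρ⁻¹ (P.α i) = P.neg (P.α j) := by
      rw [← he, P.neg_comm (Subgroup.inv_mem _ hρ), RS.perm_inv_apply]
    rw [h3, P.pos_neg] at hpos
    exact hpos (P.pos_α hjl)
  · have h4 := (P.pos_s hi h2 he).1
    rw [P.s_neg i hi, P.pos_neg] at h4
    exact h4 h1

/-- If `s_i ρ` is a minimal coset representative and longer than `ρ`, then `s_i ρ τ` is longer
than `ρ τ` for every `τ ∈ W_J`. -/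
theorem pos_inv_mul {J : Set ℕ} {i : ℕ} (hi : i < l) {ρ τ : Equiv.Perm R}
    (hmin : Min P J (P.s i * ρ)) (hpos : P.pos (ρ⁻¹ (P.α i))) (hτ : τ ∈ P.W J) :
    P.pos ((ρ * τ)⁻¹ (P.α i)) := by
  rw [mul_inv_rev, Equiv.Perm.mul_apply]
  apply P.pos_of_not_inJ (Subgroup.inv_mem _ hτ) hpos
  intro hJ
  have h1 := P.pos_lin hmin.1 hmin.2 hpos hJ
  rw [Equiv.Perm.mul_apply, RS.perm_apply_inv, P.s_α i hi, P.pos_neg] at h1
  exact h1 (P.pos_α hi)

open Classical in
/-- The pointwise alternating sum over the sets of minimal coset representatives. -/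
theorem alt_point {σ : Equiv.Perm R} (hσ : σ ∈ P.W Set.univ) :
    ∑ J ∈ (range l).powerset,
        (-1 : ℤ) ^ J.card * (if Min P (↑J : Set ℕ) σ then (1 : ℤ) else 0) =
      if ∀ j < l, ¬ P.pos (σ (P.α j)) then 1 else 0 := by
  have e1 : ∀ J ∈ (range l).powerset,
      (-1 : ℤ) ^ J.card * (if Min P (↑J : Set ℕ) σ then (1 : ℤ) else 0) =
      if J ⊆ (range l).filter (fun j => P.pos (σ (P.α j))) then (-1 : ℤ) ^ J.card else 0 := by
    intro J hJ
    rw [mem_powerset] at hJ
    have hiff : Min P (↑J : Set ℕ) σ ↔ J ⊆ (range l).filter (fun j => P.pos (σ (P.α j))) := by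
      constructor
      · rintro ⟨h1, h2⟩ j hj
        rw [mem_filter]
        exact ⟨hJ hj, h2 j (Finset.mem_coe.mpr hj) (mem_range.mp (hJ hj))⟩
      · intro h2
        refine ⟨hσ, fun j hj _ => ?_⟩
        have h3 := h2 (Finset.mem_coe.mp hj)
        rw [mem_filter] at h3
        exact h3.2
    by_cases hsub : J ⊆ (range l).filter (fun j => P.pos (σ (P.α j)))
    · rw [if_pos (hiff.mpr hsub), if_pos hsub, mul_one]
    · rw [if_neg (fun h => hsub (hiff.mp h)), if_neg hsub, mul_zero]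
  rw [Finset.sum_congr rfl e1, ← Finset.sum_filter]
  have hfil : (range l).powerset.filter
      (fun J => J ⊆ (range l).filter (fun j => P.pos (σ (P.α j)))) =
      ((range l).filter (fun j => P.pos (σ (P.α j)))).powerset := by
    ext J
    rw [mem_filter, mem_powerset, mem_powerset]
    exact ⟨fun h => h.2, fun h => ⟨h.trans (Finset.filter_subset _ _), h⟩⟩
  rw [hfil, Finset.sum_powerset_neg_one_pow_card]
  have hemp : (range l).filter (fun j => P.pos (σ (P.α j))) = ∅ ↔
      ∀ j < l, ¬ P.pos (σ (P.α j)) := by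
    rw [Finset.filter_eq_empty_iff]
    exact ⟨fun h j hj => h (mem_range.mpr hj), fun h j hj => h j (mem_range.mp hj)⟩
  by_cases hc : (range l).filter (fun j => P.pos (σ (P.α j))) = ∅
  · rw [if_pos hc, if_pos (hemp.mp hc)]
  · rw [if_neg hc, if_neg (fun h => hc (hemp.mpr h))]

theorem longest_inv {σ : Equiv.Perm R} (hσ : σ ∈ P.W Set.univ)
    (h : ∀ j < l, ¬ P.pos (σ (P.α j))) {r : R} (hr : P.pos r) : ¬ P.pos (σ⁻¹ r) := by
  intro hp
  have h1 := neg_of_simple_neg P hσ h hp
  rw [RS.perm_apply_inv] at h1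
  exact h1 hr

theorem wprod_append (a b : List ℕ) : P.wprod (a ++ b) = P.wprod a * P.wprod b := by
  simp [RS.wprod, List.map_append, List.prod_append]

theorem wprod_nil : P.wprod [] = 1 := by
  simp [RS.wprod]

theorem wprod_mem_J {J : Set ℕ} {wd : List ℕ} (h : ∀ i ∈ wd, i < l ∧ i ∈ J) :
    P.wprod wd ∈ P.W J := by
  induction wd with
  | nil => exact Subgroup.one_mem _
  | cons i wd ih =>
    rw [RS.wprod_cons]
    exact Subgroup.mul_mem _ (P.s_mem (h i List.mem_cons_self).2 (h i List.mem_cons_self).1)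
      (ih (fun j hj => h j (List.mem_cons_of_mem _ hj)))

end Cfsg.Agent.Lib.Helper36.StCox2
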