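import Mathlib
import Cfsg.Agent.Lib.Helper36.StCox2

set_option autoImplicit false

/-!
Distinguished double coset representatives in the abstract root systems `RS` of helper18:
every double coset `W_J w W_K` contains exactly one `d` with `d ∈ W^K` and `d⁻¹ ∈ W^J`, and the
alternating sum over `J` of the numbers of such `d` is `1` for `K = ∅` and `0` otherwise.
-/

namespace Cfsg.Agent.Lib.Helper36.StCox3

open Finset Cfsg.Agent.Lib.Helper18.Cox Cfsg.Agent.Lib.Helper36.StCox
  Cfsg.Agent.Lib.Helper36.StCox2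

variable {R : Type} [Fintype R] [DecidableEq R] {l : ℕ} (P : RS R l)

/-- Left multiplication by a simple reflection makes `ρ` longer when `ρ⁻¹ α_i > 0`. -/
theorem ell'_s_mul {J : Set ℕ} {ρ : Equiv.Perm R} (hρ : ρ ∈ P.W J) {i : ℕ} (hi : i < l)
    (h : P.pos (ρ⁻¹ (P.α i))) : P.ell' (P.s i * ρ) = P.ell' ρ + 1 := by
  classical
  unfold RS.ell'
  have e : univ.filter (fun r => P.pos r ∧ ¬ P.pos ((P.s i * ρ) r)) =
      insert (ρ⁻¹ (P.α i)) (univ.filter (fun r => P.pos r ∧ ¬ P.pos (ρ r))) := by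
    ext r
    simp only [mem_filter, mem_univ, true_and, mem_insert]
    rw [Equiv.Perm.mul_apply]
    constructor
    · rintro ⟨h1, h2⟩
      by_cases hr : ρ r = P.α i
      · left
        rw [← hr, RS.perm_inv_apply]
      · right
        exact ⟨h1, fun hp => h2 (P.pos_s hi hp hr).1⟩
    · rintro (rfl | ⟨h1, h2⟩)
      · refine ⟨h, ?_⟩
        rw [RS.perm_apply_inv, P.s_α i hi, P.pos_neg]
        exact not_not.mpr (P.pos_α hi)
      · refine ⟨h1, fun hp => ?_⟩
        have h3 : P.pos (P.neg (ρ r)) := (P.pos_neg _).mpr h2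
        by_cases hne : P.neg (ρ r) = P.α i
        · have h4 : ρ⁻¹ (P.α i) = P.neg r := by
            rw [← hne, P.neg_comm (Subgroup.inv_mem _ hρ), RS.perm_inv_apply]
          rw [h4, P.pos_neg] at h
          exact h h1
        · have h5 := (P.pos_s hi h3 hne).1
          rw [P.s_neg i hi, P.pos_neg] at h5
          exact h5 hp
  rw [e, Finset.card_insert_of_notMem]
  simp only [mem_filter, mem_univ, true_and, not_and, not_not]
  intro _
  rw [RS.perm_apply_inv]
  exact P.pos_α hi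

/-- If `σ α_j = α_k` then `s_k σ = σ s_j`. -/
theorem s_mul_eq_mul_s (hT : P.Triv) {σ : Equiv.Perm R} (hσ : σ ∈ P.W Set.univ) {j k : ℕ}
    (hj : j < l) (hk : k < l) (e : σ (P.α j) = P.α k) : P.s k * σ = σ * P.s j := by
  have hσi : σ⁻¹ ∈ P.W Set.univ := Subgroup.inv_mem _ hσ
  have hsj := P.s_mem (Set.mem_univ j) hj
  have hsk := P.s_mem (Set.mem_univ k) hk
  have key : ∀ r : R, ∀ i < l, P.c (P.s k (σ (P.s j r))) i = P.c (σ r) i := by
    intro r i hi
    obtain ⟨n, hn⟩ : ∃ n : ℤ, n = ∑ m ∈ range l, P.c r m * P.a m (P.α j) := ⟨_, rfl⟩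
    have h1 : ∀ m < l, P.c (P.s j r) m = P.c r m - (if m = j then n else 0) := by
      intro m hm
      rw [hn]
      exact P.c_s j hj r m hm
    have h2 : ∀ i' < l, P.c (σ (P.s j r)) i' = P.c (σ r) i' - n * (if k = i' then 1 else 0) := by
      intro i' hi'
      rw [P.c_lin hσ (P.s j r) i' hi', P.c_lin hσ r i' hi']
      have h7 : ∀ m ∈ range l, P.c (P.s j r) m * P.c (σ (P.α m)) i' =
          P.c r m * P.c (σ (P.α m)) i' - (if m = j then n * P.c (σ (P.α m)) i' else 0) := by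
        intro m hm
        rw [h1 m (mem_range.mp hm)]
        split_ifs <;> ring
      rw [Finset.sum_congr rfl h7, Finset.sum_sub_distrib, Finset.sum_ite_eq' (range l) j,
        if_pos (mem_range.mpr hj), e, P.c_α k hk i' hi']
    have h3 : ∑ m ∈ range l, P.c (σ (P.s j r)) m * P.a m (P.α k) = -n := by
      have h4 : P.p (σ (P.s j r)) (σ (P.α j)) = P.p (P.s j r) (P.α j) := P.p_inv hσ _ _
      rw [e] at h4
      unfold RS.p at h4
      rw [h4]
      have h7 : ∀ m ∈ range l, P.c (P.s j r) m * P.a m (P.α j) =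
          P.c r m * P.a m (P.α j) - (if m = j then n * P.a m (P.α j) else 0) := by
        intro m hm
        rw [h1 m (mem_range.mp hm)]
        split_ifs <;> ring
      rw [Finset.sum_congr rfl h7, Finset.sum_sub_distrib, Finset.sum_ite_eq' (range l) j,
        if_pos (mem_range.mpr hj), P.a_α j hj, ← hn]
      ring
    rw [P.c_s k hk _ i hi, h3, h2 i hi]
    by_cases hik : i = k
    · rw [if_pos hik, if_pos hik.symm]
      ring
    · rw [if_neg hik, if_neg (fun h => hik h.symm)]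
      ring
  have hρ : σ⁻¹ * P.s k * σ * P.s j = 1 := by
    apply hT _ (Subgroup.mul_mem _ (Subgroup.mul_mem _ (Subgroup.mul_mem _ hσi hsk) hσ) hsj)
    intro r hr i hi
    have e5 : (σ⁻¹ * P.s k * σ * P.s j) r = σ⁻¹ (P.s k (σ (P.s j r))) := rfl
    rw [e5, P.c_lin hσi _ i hi]
    have h8 : ∀ m ∈ range l, P.c (P.s k (σ (P.s j r))) m * P.c (σ⁻¹ (P.α m)) i =
        P.c (σ r) m * P.c (σ⁻¹ (P.α m)) i := by
      intro m hm
      rw [key r m (mem_range.mp hm)]
    rw [Finset.sum_congr rfl h8, ← P.c_lin hσi (σ r) i hi, RS.perm_inv_apply]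
    exact hr i hi
  have h6 : P.s k * σ * P.s j = σ := by
    calc P.s k * σ * P.s j = σ * (σ⁻¹ * P.s k * σ * P.s j) := by group
      _ = σ * 1 := by rw [hρ]
      _ = σ := mul_one σ
  calc P.s k * σ = P.s k * σ * (P.s j * P.s j) := by rw [P.s_mul_s hj, mul_one]
    _ = (P.s k * σ * P.s j) * P.s j := by group
    _ = σ * P.s j := by rw [h6]

/-- Deodhar's lemma: for a minimal coset representative `σ` and a simple reflection `s_k`, either
`s_k σ` is again minimal or `s_k σ = σ s_j` with `j ∈ J`. -/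
theorem deodhar (hT : P.Triv) {J : Set ℕ} {σ : Equiv.Perm R} (hσ : Min P J σ) {k : ℕ}
    (hk : k < l) : Min P J (P.s k * σ) ∨ ∃ j ∈ J, j < l ∧ P.s k * σ = σ * P.s j := by
  by_cases hmin : ∀ j ∈ J, j < l → P.pos ((P.s k * σ) (P.α j))
  · exact Or.inl ⟨Subgroup.mul_mem _ (P.s_mem (Set.mem_univ k) hk) hσ.1, hmin⟩
  · right
    have hex : ∃ j ∈ J, j < l ∧ ¬ P.pos ((P.s k * σ) (P.α j)) := by
      by_contra hc
      apply hmin
      intro j hj hjl
      by_contra hp
      exact hc ⟨j, hj, hjl, hp⟩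
    obtain ⟨j, hjJ, hj, hneg⟩ := hex
    refine ⟨j, hjJ, hj, ?_⟩
    rw [Equiv.Perm.mul_apply] at hneg
    have hpos := hσ.2 j hjJ hj
    have e : σ (P.α j) = P.α k := by
      by_contra hne
      exact hneg (P.pos_s hk hpos hne).1
    exact s_mul_eq_mul_s P hT hσ.1 hj hk e

/-- Left multiplication of a minimal coset representative by an element of `W_K`. -/
theorem left_factor (hT : P.Triv) {J K : Set ℕ} {σ : Equiv.Perm R} (hσ : Min P J σ)
    {v : Equiv.Perm R} (hv : v ∈ P.W K) :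
    ∃ v' ∈ P.W K, ∃ u ∈ P.W J, Min P J (v' * σ) ∧ v * σ = v' * σ * u := by
  refine P.W_induction (Q := fun v => ∃ v' ∈ P.W K, ∃ u ∈ P.W J, Min P J (v' * σ) ∧
    v * σ = v' * σ * u) ?_ ?_ hv
  · exact ⟨1, Subgroup.one_mem _, 1, Subgroup.one_mem _, by rw [one_mul]; exact hσ,
      by rw [one_mul, mul_one]⟩
  · rintro k hkK hk v₁ ⟨v', hv', u, hu, hmin, e⟩
    rcases deodhar P hT hmin hk with h | ⟨j, hjJ, hj, e2⟩
    · refine ⟨P.s k * v', Subgroup.mul_mem _ (P.s_mem hkK hk) hv', u, hu,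
        by rw [mul_assoc]; exact h, ?_⟩
      rw [mul_assoc, e]
      group
    · refine ⟨v', hv', P.s j * u, Subgroup.mul_mem _ (P.s_mem hjJ hj) hu, hmin, ?_⟩
      rw [mul_assoc, e]
      calc P.s k * (v' * σ * u) = (P.s k * (v' * σ)) * u := by group
        _ = (v' * σ * P.s j) * u := by rw [e2]
        _ = v' * σ * (P.s j * u) := by group

/-- Distinguished double coset representatives of `W_J \ W / W_K`. -/
def DD (J K : Set ℕ) (d : Equiv.Perm R) : Prop := Min P K d ∧ Min P J d⁻¹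

theorem DD_unique (hT : P.Triv) {J K : Set ℕ} {d d' v u : Equiv.Perm R} (hd : DD P J K d)
    (hd' : DD P J K d') (hv : v ∈ P.W J) (hu : u ∈ P.W K) (e : d' = v * d * u) : d' = d := by
  obtain ⟨v', hv', u', hu', hmin, e2⟩ := left_factor P hT hd.1 hv
  have e3 : d' * 1 = (v' * d) * (u' * u) := by
    rw [mul_one, e, e2]
    group
  have h1 := factor_unique P hT hd'.1 hmin (Subgroup.one_mem _) (Subgroup.mul_mem _ hu' hu) e3
  have e4 : d'⁻¹ * 1 = d⁻¹ * v'⁻¹ := by
    rw [mul_one, h1.1, mul_inv_rev]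
  have h2 := factor_unique P hT hd'.2 hd.2 (Subgroup.one_mem _) (Subgroup.inv_mem _ hv') e4
  exact inv_injective h2.1

theorem DD_exists (J K : Set ℕ) : ∀ n : ℕ, ∀ w ∈ P.W Set.univ, P.ell' w = n →
    ∃ d v u, DD P J K d ∧ v ∈ P.W J ∧ u ∈ P.W K ∧ w = v * d * u := by
  intro n
  induction n using Nat.strong_induction_on with
  | _ n ih =>
    intro w hw hn
    by_cases hK : ∀ k ∈ K, k < l → P.pos (w (P.α k))
    · by_cases hJ : ∀ j ∈ J, j < l → P.pos (w⁻¹ (P.α j))
      · exact ⟨w, 1, 1, ⟨⟨hw, hK⟩, ⟨Subgroup.inv_mem _ hw, hJ⟩⟩, Subgroup.one_mem _,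
          Subgroup.one_mem _, by rw [one_mul, mul_one]⟩
      · have hex : ∃ j ∈ J, j < l ∧ ¬ P.pos (w⁻¹ (P.α j)) := by
          by_contra hc
          apply hJ
          intro j hj hjl
          by_contra hp
          exact hc ⟨j, hj, hjl, hp⟩
        obtain ⟨j, hjJ, hj, hneg⟩ := hex
        have hw' : P.s j * w ∈ P.W Set.univ :=
          Subgroup.mul_mem _ (P.s_mem (Set.mem_univ j) hj) hw
        have hpos : P.pos ((P.s j * w)⁻¹ (P.α j)) := by
          rw [mul_inv_rev, Equiv.Perm.mul_apply, P.s_inv hj, P.s_α j hj,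
            P.neg_comm (Subgroup.inv_mem _ hw), P.pos_neg]
          exact hneg
        have h1 := ell'_s_mul P hw' hj hpos
        rw [← mul_assoc, P.s_mul_s hj, one_mul] at h1
        obtain ⟨d, v, u, hd, hv, hu, e⟩ := ih (P.ell' (P.s j * w)) (by omega) (P.s j * w) hw' rfl
        refine ⟨d, P.s j * v, u, hd, Subgroup.mul_mem _ (P.s_mem hjJ hj) hv, hu, ?_⟩
        calc w = P.s j * (P.s j * w) := by rw [← mul_assoc, P.s_mul_s hj, one_mul]
          _ = P.s j * (v * d * u) := by rw [e]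
          _ = P.s j * v * d * u := by group
    · have hex : ∃ k ∈ K, k < l ∧ ¬ P.pos (w (P.α k)) := by
        by_contra hc
        apply hK
        intro k hk hkl
        by_contra hp
        exact hc ⟨k, hk, hkl, hp⟩
      obtain ⟨k, hkK, hk, hneg⟩ := hex
      have h1 := P.ell'_of_neg hw hk (Set.mem_univ k) hneg
      have hw' : w * P.s k ∈ P.W Set.univ :=
        Subgroup.mul_mem _ hw (P.s_mem (Set.mem_univ k) hk)
      obtain ⟨d, v, u, hd, hv, hu, e⟩ := ih (P.ell' (w * P.s k)) (by omega) (w * P.s k) hw' rfl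
      refine ⟨d, v, u * P.s k, hd, hv, Subgroup.mul_mem _ hu (P.s_mem hkK hk), ?_⟩
      calc w = (w * P.s k) * P.s k := by rw [mul_assoc, P.s_mul_s hk, mul_one]
        _ = (v * d * u) * P.s k := by rw [e]
        _ = v * d * (u * P.s k) := by group

open Classical in
/-- The alternating sum over `J` of the numbers of distinguished representatives of
`W_J \ W / W_K`. -/
theorem alt_DD (hT : P.Triv) (K : Set ℕ) :
    ∑ J ∈ (range l).powerset, (-1 : ℤ) ^ J.card *
        ((univ.filter (fun d : Equiv.Perm R => Min P K d ∧ Min P (↑J : Set ℕ) d⁻¹)).card : ℤ) =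
      if ∀ k ∈ K, ¬ k < l then 1 else 0 := by
  have e1 : ∀ J ∈ (range l).powerset, (-1 : ℤ) ^ J.card *
      ((univ.filter (fun d : Equiv.Perm R => Min P K d ∧ Min P (↑J : Set ℕ) d⁻¹)).card : ℤ) =
      ∑ d ∈ univ.filter (fun d : Equiv.Perm R => Min P K d),
        (-1 : ℤ) ^ J.card * (if Min P (↑J : Set ℕ) d⁻¹ then (1 : ℤ) else 0) := by
    intro J _
    rw [← Finset.mul_sum, ← Finset.filter_filter, Finset.card_filter]
    push_cast
    rfl
  rw [Finset.sum_congr rfl e1, Finset.sum_comm]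
  have e2 : ∀ d ∈ univ.filter (fun d : Equiv.Perm R => Min P K d),
      ∑ J ∈ (range l).powerset,
        (-1 : ℤ) ^ J.card * (if Min P (↑J : Set ℕ) d⁻¹ then (1 : ℤ) else 0) =
      if ∀ j < l, ¬ P.pos (d⁻¹ (P.α j)) then 1 else 0 := by
    intro d hd
    rw [mem_filter] at hd
    exact alt_point P (Subgroup.inv_mem _ hd.2.1)
  rw [Finset.sum_congr rfl e2, ← Finset.sum_filter, Finset.sum_const, nsmul_eq_mul, mul_one]
  obtain ⟨σ₀, hσ₀, h₀⟩ := exists_longest P
  by_cases hK : ∀ k ∈ K, ¬ k < l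
  · rw [if_pos hK]
    have hsing : (univ.filter (fun d : Equiv.Perm R => Min P K d)).filter
        (fun d => ∀ j < l, ¬ P.pos (d⁻¹ (P.α j))) = {σ₀⁻¹} := by
      ext d
      rw [mem_filter, mem_filter, mem_singleton]
      constructor
      · rintro ⟨⟨_, h1⟩, h2⟩
        have h3 := longest_unique P hT hσ₀ (Subgroup.inv_mem _ h1.1) h₀ h2
        rw [← h3, inv_inv]
      · rintro rfl
        refine ⟨⟨mem_univ _, Subgroup.inv_mem _ hσ₀, fun k hk hkl => absurd hkl (hK k hk)⟩, ?_⟩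
        rw [inv_inv]
        exact h₀
    rw [hsing, Finset.card_singleton, Nat.cast_one]
  · rw [if_neg hK]
    have hemp : (univ.filter (fun d : Equiv.Perm R => Min P K d)).filter
        (fun d => ∀ j < l, ¬ P.pos (d⁻¹ (P.α j))) = ∅ := by
      rw [Finset.filter_eq_empty_iff]
      intro d hd h2
      rw [mem_filter] at hd
      have h3 := longest_unique P hT hσ₀ (Subgroup.inv_mem _ hd.2.1) h₀ h2
      have hex : ∃ k ∈ K, k < l := by
        by_contra hc
        apply hK
        intro k hk hkl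
        exact hc ⟨k, hk, hkl⟩
      obtain ⟨k, hkK, hk⟩ := hex
      have h4 := hd.2.2 k hkK hk
      have h5 : d = σ₀⁻¹ := by rw [← h3, inv_inv]
      rw [h5] at h4
      exact longest_inv P hσ₀ h₀ (P.pos_α hk) h4
    rw [hemp, Finset.card_empty, Nat.cast_zero]

end Cfsg.Agent.Lib.Helper36.StCox3
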