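import Mathlib

set_option autoImplicit false

/-!
Two counting lemmas for fixed points on coset spaces: fixed points on `G / K` through a set of
coset representatives that is a union of `B`-cosets, and fixed points of `B` on a double coset
`B n₀ B / B`.
-/

namespace Cfsg.Agent.Lib.Helper36.StFix

variable {G : Type*} [Group G]

theorem smul_mk_eq_iff (K : Subgroup G) (b g : G) :
    b • (QuotientGroup.mk g : G ⧸ K) = QuotientGroup.mk g ↔ g⁻¹ * b * g ∈ K := by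
  rw [MulAction.Quotient.smul_mk, smul_eq_mul, eq_comm, QuotientGroup.eq, mul_assoc]

theorem smul_eq_iff_out (K : Subgroup G) (b : G) (y : G ⧸ K) :
    b • y = y ↔ y.out⁻¹ * b * y.out ∈ K := by
  have h := smul_mk_eq_iff K b y.out
  rwa [QuotientGroup.out_eq'] at h

theorem inv_mul_out_mem (K : Subgroup G) (t : G) :
    t⁻¹ * (QuotientGroup.mk t : G ⧸ K).out ∈ K :=
  QuotientGroup.eq.mp (QuotientGroup.out_eq' _).symm

/-- Fixed points on `G / K` counted inside `G / B` through a transversal-like set `T`. -/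
theorem card_fixed_quot (B K : Subgroup G) (hBK : B ≤ K) (T : Set G) (b : G)
    (hTB : ∀ t ∈ T, ∀ β ∈ B, t * β ∈ T) (hbT : ∀ t ∈ T, b * t ∈ T)
    (h1 : ∀ g : G, ∃ t ∈ T, ∃ k ∈ K, g = t * k)
    (h2 : ∀ t ∈ T, ∀ t' ∈ T, t⁻¹ * t' ∈ K → t⁻¹ * t' ∈ B) :
    Nat.card (MulAction.fixedBy (G ⧸ K) b) =
      Nat.card {y : G ⧸ B // b • y = y ∧ ∃ t ∈ T, (QuotientGroup.mk t : G ⧸ B) = y} := by
  symm
  have hout : ∀ y : G ⧸ B, (∃ t ∈ T, (QuotientGroup.mk t : G ⧸ B) = y) → y.out ∈ T := by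
    rintro y ⟨t, ht, rfl⟩
    have h3 := inv_mul_out_mem B t
    have e : (QuotientGroup.mk t : G ⧸ B).out = t * (t⁻¹ * (QuotientGroup.mk t : G ⧸ B).out) := by
      group
    rw [e]
    exact hTB t ht _ h3
  apply Nat.card_congr
  refine Equiv.ofBijective
    (fun y => (⟨(QuotientGroup.mk y.val.out : G ⧸ K), ?_⟩ : MulAction.fixedBy (G ⧸ K) b)) ⟨?_, ?_⟩
  · rw [MulAction.mem_fixedBy, smul_mk_eq_iff]
    exact hBK ((smul_eq_iff_out B b y.val).mp y.2.1)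
  · intro y y' e
    have e1 : (QuotientGroup.mk y.val.out : G ⧸ K) = QuotientGroup.mk y'.val.out :=
      congrArg Subtype.val e
    have e2 := h2 _ (hout _ y.2.2) _ (hout _ y'.2.2) (QuotientGroup.eq.mp e1)
    have e3 : (QuotientGroup.mk y.val.out : G ⧸ B) = QuotientGroup.mk y'.val.out :=
      QuotientGroup.eq.mpr e2
    rw [QuotientGroup.out_eq', QuotientGroup.out_eq'] at e3
    exact Subtype.ext e3
  · rintro ⟨x, hx⟩
    rw [MulAction.mem_fixedBy] at hx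
    obtain ⟨t, ht, k, hk, e⟩ := h1 x.out
    have ex : (QuotientGroup.mk t : G ⧸ K) = x := by
      rw [← QuotientGroup.out_eq' x, QuotientGroup.eq, e]
      simpa using hk
    have hfix : t⁻¹ * b * t ∈ K := by
      rw [← ex] at hx
      exact (smul_mk_eq_iff K b t).mp hx
    have hfixB : t⁻¹ * b * t ∈ B := by
      have := h2 t ht (b * t) (hbT t ht) (by rwa [← mul_assoc])
      rwa [← mul_assoc] at this
    refine ⟨⟨(QuotientGroup.mk t : G ⧸ B), (smul_mk_eq_iff B b t).mpr hfixB, t, ht, rfl⟩, ?_⟩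
    apply Subtype.ext
    show (QuotientGroup.mk (QuotientGroup.mk t : G ⧸ B).out : G ⧸ K) = x
    rw [← ex, eq_comm, QuotientGroup.eq]
    exact hBK (inv_mul_out_mem B t)

/-- Fixed points of `b ∈ B` on `B / H` and on the double coset `B n₀ B / B`, when
`B ∩ n₀ B n₀⁻¹ = H`. -/
theorem card_fixed_cell (B H : Subgroup G) (n₀ : G) (b : G) (hb : b ∈ B)
    (ha : ∀ h ∈ H, n₀⁻¹ * h * n₀ ∈ B) (hb' : ∀ β ∈ B, n₀⁻¹ * β * n₀ ∈ B → β ∈ H) :
    Nat.card (MulAction.fixedBy (↥B ⧸ H.subgroupOf B) (⟨b, hb⟩ : ↥B)) =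
      Nat.card {y : G ⧸ B // b • y = y ∧ ∃ β ∈ B, (QuotientGroup.mk (β * n₀) : G ⧸ B) = y} := by
  have hconj : ∀ β : G, (β * n₀)⁻¹ * b * (β * n₀) = n₀⁻¹ * (β⁻¹ * b * β) * n₀ := by
    intro β
    group
  apply Nat.card_congr
  refine Equiv.ofBijective
    (fun z => (⟨(QuotientGroup.mk ((z.val.out : G) * n₀) : G ⧸ B), ?_, ?_⟩ :
      {y : G ⧸ B // b • y = y ∧ ∃ β ∈ B, (QuotientGroup.mk (β * n₀) : G ⧸ B) = y})) ⟨?_, ?_⟩
  · rw [smul_mk_eq_iff, hconj]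
    apply ha
    have hz := z.2
    rw [MulAction.mem_fixedBy, smul_eq_iff_out, Subgroup.mem_subgroupOf] at hz
    simpa using hz
  · exact ⟨(z.val.out : G), z.val.out.2, rfl⟩
  · intro z z' e
    have e1 : (QuotientGroup.mk ((z.val.out : G) * n₀) : G ⧸ B) =
        QuotientGroup.mk ((z'.val.out : G) * n₀) := congrArg Subtype.val e
    rw [QuotientGroup.eq] at e1
    have e2 : ((z.val.out : G) * n₀)⁻¹ * ((z'.val.out : G) * n₀) =
        n₀⁻¹ * ((z.val.out : G)⁻¹ * (z'.val.out : G)) * n₀ := by group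
    rw [e2] at e1
    have e3 := hb' _ (B.mul_mem (B.inv_mem z.val.out.2) z'.val.out.2) e1
    have e4 : (QuotientGroup.mk z.val.out : ↥B ⧸ H.subgroupOf B) = QuotientGroup.mk z'.val.out := by
      rw [QuotientGroup.eq, Subgroup.mem_subgroupOf]
      simpa using e3
    rw [QuotientGroup.out_eq', QuotientGroup.out_eq'] at e4
    exact Subtype.ext e4
  · rintro ⟨y, hy, β, hβ, rfl⟩
    rw [smul_mk_eq_iff, hconj] at hy
    have h3 : β⁻¹ * b * β ∈ H :=
      hb' _ (B.mul_mem (B.mul_mem (B.inv_mem hβ) hb) hβ) hy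
    have hfix : (⟨b, hb⟩ : ↥B) • (QuotientGroup.mk ⟨β, hβ⟩ : ↥B ⧸ H.subgroupOf B) =
        QuotientGroup.mk ⟨β, hβ⟩ := by
      rw [smul_mk_eq_iff, Subgroup.mem_subgroupOf]
      simpa using h3
    refine ⟨⟨(QuotientGroup.mk ⟨β, hβ⟩ : ↥B ⧸ H.subgroupOf B), hfix⟩, ?_⟩
    apply Subtype.ext
    show (QuotientGroup.mk (((QuotientGroup.mk ⟨β, hβ⟩ : ↥B ⧸ H.subgroupOf B).out : G) * n₀) :
      G ⧸ B) = QuotientGroup.mk (β * n₀)
    rw [eq_comm, QuotientGroup.eq]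
    have h4 := inv_mul_out_mem (H.subgroupOf B) (⟨β, hβ⟩ : ↥B)
    rw [Subgroup.mem_subgroupOf] at h4
    have e5 : (β * n₀)⁻¹ * (((QuotientGroup.mk ⟨β, hβ⟩ : ↥B ⧸ H.subgroupOf B).out : G) * n₀) =
        n₀⁻¹ * (β⁻¹ * ((QuotientGroup.mk ⟨β, hβ⟩ : ↥B ⧸ H.subgroupOf B).out : G)) * n₀ := by group
    rw [e5]
    apply ha
    simpa using h4

end Cfsg.Agent.Lib.Helper36.StFix
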