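import Mathlib
import Cfsg.Prelude.Def_Characters
import Cfsg.Prelude.Def_ParabolicCharacters
import Cfsg.Agent.Lib.CT.IndChar
import Cfsg.Agent.Lib.CT.FrobRec

set_option autoImplicit false

/-!
Permutation characters on coset spaces: they are induced from the principal character, and the
inner product of two of them is the number of orbits of one subgroup on the cosets of the other.
-/

namespace Cfsg.Agent.Lib.Helper36.StOrb

open Cfsg
open scoped ComplexConjugate

universe u

variable {G : Type u} [Group G]

theorem card_fixedBy_eq [Fintype G] (H : Subgroup G) [Fintype (G ⧸ H)] [DecidableEq (G ⧸ H)]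
    (g : G) :
    Nat.card (MulAction.fixedBy (G ⧸ H) g) =
      (Finset.univ.filter (fun q : G ⧸ H => g • q = q)).card := by
  rw [← Fintype.card_subtype, ← Nat.card_eq_fintype_card]
  rfl

/-- The permutation character on `G / H` is induced from the principal character of `H`. -/
theorem fixedPointCharacter_eq_indFun [Fintype G] (H : Subgroup G) :
    fixedPointCharacter H = indFun H (fun _ => (1 : ℂ)) := by
  classical
  funext g
  have : Fintype (G ⧸ H) := Fintype.ofFinite _
  rw [Cfsg.Agent.Lib.CT.IndChar.indFun_eq_sum_rep H (fun _ => (1 : ℂ)) (fun _ _ => rfl) g]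
  unfold fixedPointCharacter
  have e : ∀ q : G ⧸ H, extendByZero H (fun _ => (1 : ℂ))
      ((Cfsg.Agent.Lib.CT.IndChar.rep H q)⁻¹ * g * Cfsg.Agent.Lib.CT.IndChar.rep H q) =
      if g • q = q then 1 else 0 := by
    intro q
    by_cases h : g • q = q
    · rw [if_pos h, Cfsg.Agent.Lib.CT.FrobRec.extendByZero_apply_of_mem H _
        ((Cfsg.Agent.Lib.CT.IndChar.smul_eq_iff_mem H g q).mp h)]
    · rw [if_neg h, Cfsg.Agent.Lib.CT.FrobRec.extendByZero_apply_of_not_mem H _
        (fun hm => h ((Cfsg.Agent.Lib.CT.IndChar.smul_eq_iff_mem H g q).mpr hm))]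
  rw [Finset.sum_congr rfl (fun q _ => e q), Finset.sum_boole, card_fixedBy_eq H g]

theorem fixedPointCharacter_isCharacter [Fintype G] (H : Subgroup G) :
    IsCharacter G (fixedPointCharacter H) := by
  rw [fixedPointCharacter_eq_indFun]
  exact Cfsg.Agent.Lib.CT.IndChar.isCharacter_indFun H _ Cfsg.Agent.Lib.CT.Ops.isCharacter_one

/-- The inner product of two permutation characters is the number of orbits of one subgroup on
the cosets of the other. -/
theorem classInner_fixedPoint [Fintype G] (H K : Subgroup G) :
    classInner (fixedPointCharacter H) (fixedPointCharacter K) =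
      (Nat.card (Quotient (MulAction.orbitRel ↥H (G ⧸ K))) : ℂ) := by
  classical
  have : Fintype (G ⧸ K) := Fintype.ofFinite _
  have hcf : IsClassFunction G (fixedPointCharacter K) := by
    rw [fixedPointCharacter_eq_indFun]
    exact Cfsg.Agent.Lib.CT.FrobRec.indFun_isClassFunction K _
  rw [fixedPointCharacter_eq_indFun H,
    Cfsg.Agent.Lib.CT.FrobRec.frobenius_reciprocity H _ _ hcf]
  unfold classInner
  have h1 : ∀ h : ↥H, (1 : ℂ) * conj (fixedPointCharacter K (h : G)) =
      ((Fintype.card (MulAction.fixedBy (G ⧸ K) h) : ℕ) : ℂ) := by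
    intro h
    unfold fixedPointCharacter
    rw [one_mul, Complex.conj_natCast, Nat.card_eq_fintype_card]
    rfl
  have hB := MulAction.sum_card_fixedBy_eq_card_orbits_mul_card_group ↥H (G ⧸ K)
  rw [Finset.sum_congr rfl (fun h _ => h1 h), ← Nat.cast_sum, hB, Nat.card_eq_fintype_card,
    Nat.card_eq_fintype_card]
  have hne : ((Fintype.card ↥H : ℕ) : ℂ) ≠ 0 := by
    exact_mod_cast (Fintype.card_pos (α := ↥H)).ne'
  push_cast
  field_simp

/-- Counting orbits through a set of representatives. -/
theorem card_orbits_eq {P : Type*} [Group P] {Y : Type*} [MulAction P Y] {D : Type*} (f : D → Y)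
    (h1 : ∀ y : Y, ∃ d : D, ∃ p : P, p • f d = y)
    (h2 : ∀ d d' : D, ∀ p : P, p • f d = f d' → d = d') :
    Nat.card (Quotient (MulAction.orbitRel P Y)) = Nat.card D := by
  symm
  apply Nat.card_congr
  refine Equiv.ofBijective
    (fun d => (Quotient.mk'' (f d) : Quotient (MulAction.orbitRel P Y))) ⟨?_, ?_⟩
  · intro d d' e
    have h3 : f d ∈ MulAction.orbit P (f d') := Quotient.exact' e
    obtain ⟨p, hp⟩ := h3
    exact (h2 d' d p hp).symm
  · intro x
    induction x using Quotient.inductionOn' with
    | h y =>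
      obtain ⟨d, p, hp⟩ := h1 y
      refine ⟨d, ?_⟩
      apply Quotient.sound'
      show f d ∈ MulAction.orbit P y
      refine ⟨p⁻¹, ?_⟩
      show p⁻¹ • y = f d
      rw [← hp, inv_smul_smul]

end Cfsg.Agent.Lib.Helper36.StOrb
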