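import Mathlib
import Cfsg.Prelude.Def_ParabolicCharacters
import Cfsg.Agent.Lib.Helper18.Par4
import Cfsg.Agent.Lib.Helper18.Count
import Cfsg.Agent.Lib.Helper36.StCox

set_option autoImplicit false
set_option linter.unusedSimpArgs false
set_option linter.unusedSectionVars false
set_option linter.unusedVariables false

/-!
Orders of the standard parabolic subgroups through Bruhat cells, their indices, and the degree
of the Steinberg character (the alternating sum of the permutation characters on `G / P_J`).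
-/

namespace Cfsg.Agent.Lib.Helper36.StPar

open Cfsg Cfsg.Lie Cfsg.Agent.Lib.Helper18.Fast Cfsg.Agent.Lib.Helper18.Grade
  Cfsg.Agent.Lib.Helper18.Facts Cfsg.Agent.Lib.Helper18.AllRoots Cfsg.Agent.Lib.Helper18.Loop
  Cfsg.Agent.Lib.Helper18.Weyl Cfsg.Agent.Lib.Helper18.RootSys Cfsg.Agent.Lib.Helper18.Orbit
  Cfsg.Agent.Lib.Helper18.Units Cfsg.Agent.Lib.Helper18.Sub Cfsg.Agent.Lib.Helper18.Norm
  Cfsg.Agent.Lib.Helper18.HAll Cfsg.Agent.Lib.Helper18.Torus Cfsg.Agent.Lib.Helper18.Pos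
  Cfsg.Agent.Lib.Helper18.WGroup Cfsg.Agent.Lib.Helper18.BNChev Cfsg.Agent.Lib.Helper18.Mono
  Cfsg.Agent.Lib.Helper18.BNPairC Cfsg.Agent.Lib.Helper18.UOrd Cfsg.Agent.Lib.Helper18.Cox
  Cfsg.Agent.Lib.Helper18.Long Cfsg.Agent.Lib.Helper18.Core Cfsg.Agent.Lib.Helper18.Conj
  Cfsg.Agent.Lib.Helper18.RFact Cfsg.Agent.Lib.Helper18.BNCell Cfsg.Agent.Lib.Helper18.Vec
  Cfsg.Agent.Lib.Helper18.XMat Cfsg.Agent.Lib.Helper18.Cells Cfsg.Agent.Lib.Helper18.Cox2
  Cfsg.Agent.Lib.Helper18.Cells2 Cfsg.Agent.Lib.Helper18.Cox3 Cfsg.Agent.Lib.Helper18.HOrder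
  Cfsg.Agent.Lib.Helper18.HOrderTab Cfsg.Agent.Lib.Helper18.Tri Cfsg.Agent.Lib.Helper18.Par
  Cfsg.Agent.Lib.Helper18.Par2 Cfsg.Agent.Lib.Helper18.Par3 Cfsg.Agent.Lib.Helper18.Par4
  Cfsg.Agent.Lib.Helper18.Count Cfsg.Agent.Lib.Helper36.StCox

variable {A : FData} {D : ChevalleyDatum} {F : Type*} [Field F] {X : WD} {m : ℕ → ℕ → ℤ}
  {w : ℕ → ℤ} {N : ℕ} {ord rnk : ℕ → ℕ} {bz : ℕ → ℕ → ℤ} {w' : ℕ → ℤ} {c : ℤ} {fw : ℕ → ℕ → ℤ}

section

variable (hC : CFacts A D X m w) (hR : RFacts A X) (hU : UFacts A w' N ord rnk bz) (hn : 0 < A.n)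
  (hDs : DFacts A) (hJf : JFacts A c fw)
  (hadd : ∀ r < D.nroots, ∀ t u : F, D.x F r t * D.x F r u = D.x F r (t + u))
  (hinj : ∀ r < D.nroots, ∀ t : F, D.x F r t = 1 → t = 0)

include hC hR hU hn hDs hJf hadd hinj in
/-- Every element of `P_J` lies in the Bruhat cell of a word whose Weyl element is in `W_J`. -/
theorem par_cell (J : Set ℕ) {g : GL D.Idx F} (hg : g ∈ D.parabolicSubgroup F J) :
    ∃ wd : List ℕ, (∀ i ∈ wd, i < A.rank) ∧ g ∈ cell hC F wd ∧
      (rs hC hR hU hn).wprod wd ∈ (rs hC hR hU hn).W J := by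
  have hF := hC.af
  have hPN := par_le_normalizer hC hR hU hn hadd (F := F) J
  have hgN := hPN hg
  have hgG := par_le_group hC J hg
  obtain ⟨b, hb, n, hn', b', hb', rfl⟩ := bruhat hC hadd hinj hgG
  have hbP : b ∈ D.parabolicSubgroup F J := le_sup_left (b := Subgroup.closure _) hb
  have hb'P : b' ∈ D.parabolicSubgroup F J := le_sup_left (b := Subgroup.closure _) hb'
  obtain ⟨wd, hwd, h, hh, rfl⟩ := N_word hC hn'
  have hhP : h ∈ D.parabolicSubgroup F J := H_le_par J hh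
  have hn₀ : nw hF F (plain wd) ∈
      Subgroup.normalizer (D.unipotentRadical F J : Set (GL D.Idx F)) := by
    have h1 : nw hF F (plain wd) =
        b⁻¹ * (b * (nw hF F (plain wd) * h) * b') * b'⁻¹ * h⁻¹ := by group
    rw [h1]
    exact Subgroup.mul_mem _ (Subgroup.mul_mem _ (Subgroup.mul_mem _
      (Subgroup.inv_mem _ (hPN hbP)) hgN) (Subgroup.inv_mem _ (hPN hb'P)))
      (Subgroup.inv_mem _ (hPN hhP))
  have hst : ∀ r : Fin A.n, (rs hC hR hU hn).pos r → ¬ (rs hC hR hU hn).inJ J r →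
      (rs hC hR hU hn).pos ((rs hC hR hU hn).wprod wd r) := by
    intro r hpos hJ
    obtain ⟨ε, hε, he⟩ := nw_conj (F := F) hF hC.wf (plain wd) (plain_lt hwd) r.isLt
    have h1 := he 1
    rw [plain_fst] at h1
    have h2 : xg hF F r.val 1 ∈ D.unipotentRadical F J := xg_mem_rad hF r.isLt hpos hJ 1
    have h3 := (Subgroup.mem_set_normalizer_iff.mp hn₀ _).mp h2
    rw [h1] at h3
    have hlt : wperm X wd r.val < A.n := wperm_lt hC.wf hwd r.isLt
    have h4 : UTri (fun b : D.Idx => lamE A (wJ A fw J) (enc D b))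
        ((xg hF F (wperm X wd r.val) (ε * 1) : GL D.Idx F) : Matrix D.Idx D.Idx F) :=
      rad_le_utri hC hJf J h3
    rw [coe_xg hF (lt_nroots hF hlt)] at h4
    have h5 := level_pos_of_tri hF hU hlt (by simpa using hε) h4.1
    have h6 := (pos_of_lamJ hC.mf hJf J hlt h5).1
    rw [rs_pos_iff, wprod_val hC hR hU hn hwd]
    exact h6
  have hσJ := mem_W_of_stab (rs hC hR hU hn) (triv hC hR hU hn hadd hinj) J _
    ((rs hC hR hU hn).wprod_mem hwd) hst
  refine ⟨wd, hwd, ?_, hσJ⟩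
  unfold cell
  rw [DoubleCoset.mem_doubleCoset]
  have hhB : h ∈ D.borelSubgroup F := le_sup_right (a := D.posUnipotent F) hh
  exact ⟨b, hb, h * b', Subgroup.mul_mem _ hhB hb', by group⟩

include hC hR hU hn hadd hinj in
/-- A Bruhat cell of an element of `W_J` lies in `P_J`. -/
theorem cell_sub_par (J : Set ℕ) {wd : List ℕ} (hwd : ∀ i ∈ wd, i < A.rank)
    (hσ : (rs hC hR hU hn).wprod wd ∈ (rs hC hR hU hn).W J) {g : GL D.Idx F}
    (hg : g ∈ cell hC F wd) : g ∈ D.parabolicSubgroup F J := by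
  obtain ⟨wd', hwd', e⟩ := exists_word _ hσ
  have hwd'' : ∀ i ∈ wd', i < A.rank := fun i hi => (hwd' i hi).1
  have hc := cell_eq_of_wprod hC hR hU hn hadd hinj hwd'' hwd e
  rw [hc] at hg
  unfold cell at hg
  rw [DoubleCoset.mem_doubleCoset] at hg
  obtain ⟨b₁, hb₁, b₂, hb₂, rfl⟩ := hg
  exact Subgroup.mul_mem _ (Subgroup.mul_mem _ (le_sup_left (b := Subgroup.closure _) hb₁)
    (nwJ_mem hC hwd')) (le_sup_left (b := Subgroup.closure _) hb₂)

include hC hR hU hn hDs hJf hadd hinj in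
open Classical in
/-- The order of a standard parabolic subgroup. -/
theorem card_par [Fintype F] (J : Set ℕ) :
    Nat.card ↥(D.parabolicSubgroup F J) =
      (∑ σ ∈ Finset.univ.filter (fun σ => σ ∈ (rs hC hR hU hn).W J),
        Fintype.card F ^ (rs hC hR hU hn).ell σ) * Nat.card (D.borelSubgroup F) := by
  have hT : (rs hC hR hU hn).Triv := triv hC hR hU hn hadd hinj
  have hex : ∀ g : ↥(D.parabolicSubgroup F J), ∃ wd : List ℕ, (∀ i ∈ wd, i < A.rank) ∧
      g.val ∈ cell hC F wd ∧ (rs hC hR hU hn).wprod wd ∈ (rs hC hR hU hn).W J :=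
    fun g => par_cell hC hR hU hn hDs hJf hadd hinj J g.2
  choose wdOf hwdOf hmemOf hWOf using hex
  let π : ↥(D.parabolicSubgroup F J) → ↥((rs hC hR hU hn).W J) :=
    fun g => ⟨(rs hC hR hU hn).wprod (wdOf g), hWOf g⟩
  have hfib : ∀ σ : ↥((rs hC hR hU hn).W J),
      Nat.card {g : ↥(D.parabolicSubgroup F J) // π g = σ} =
        Fintype.card F ^ (rs hC hR hU hn).ell σ.val * Nat.card (D.borelSubgroup F) := by
    intro σ
    obtain ⟨wd, hred, hw⟩ := (rs hC hR hU hn).exists_red hT ((rs hC hR hU hn).W_le_univ J σ.2)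
    have hwd := (rs hC hR hU hn).red_lt hred
    have hσ' : (rs hC hR hU hn).wprod wd ∈ (rs hC hR hU hn).W J := by rw [hw]; exact σ.2
    rw [← hw, (rs hC hR hU hn).ell_red hred, ← Nat.card_eq_fintype_card,
      ← card_cell hC hR hU hn hadd hinj hred]
    apply Nat.card_congr
    refine ⟨fun g => ⟨g.val.val, ?_⟩,
      fun g => ⟨⟨g.val, cell_sub_par hC hR hU hn hadd hinj J hwd hσ' g.2⟩, ?_⟩, ?_, ?_⟩
    · have h1 : (rs hC hR hU hn).wprod (wdOf g.val) = (rs hC hR hU hn).wprod wd := by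
        rw [hw]
        exact congrArg Subtype.val g.2
      have h2 := cell_eq_of_wprod hC hR hU hn hadd hinj hwd (hwdOf g.val) h1.symm
      rw [← h2]
      exact hmemOf g.val
    · apply Subtype.ext
      show (rs hC hR hU hn).wprod (wdOf ⟨g.val, _⟩) = σ.val
      rw [← hw]
      exact wprod_eq_of_meet hC hR hU hn hadd hinj (hwdOf _) hwd (hmemOf _) g.2
    · intro g
      rfl
    · intro g
      rfl
  rw [← Nat.card_congr (Equiv.sigmaFiberEquiv π), Nat.card_sigma]
  simp_rw [hfib]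
  rw [← Finset.sum_mul]
  congr 1
  exact (Finset.sum_subtype (Finset.univ.filter (fun σ => σ ∈ (rs hC hR hU hn).W J))
    (by simp) (fun σ => Fintype.card F ^ (rs hC hR hU hn).ell σ)).symm

include hC hR hU hn hDs hJf hadd hinj in
open Classical in
/-- The index of a standard parabolic subgroup is the Poincaré polynomial of the minimal coset
representatives. -/
theorem index_par [Fintype F] (J : Set ℕ) :
    ((D.parabolicSubgroup F J).subgroupOf (D.group F)).index =
      ∑ σ ∈ Finset.univ.filter (fun σ => Min (rs hC hR hU hn) J σ),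
        Fintype.card F ^ (rs hC hR hU hn).ell' σ := by
  have hT : (rs hC hR hU hn).Triv := triv hC hR hU hn hadd hinj
  have h1 := card_group hC hR hU hn hadd hinj (F := F)
  have h2 := card_par hC hR hU hn hDs hJf hadd hinj (F := F) J
  rw [sum_ell_eq] at h1 h2
  rw [sum_factor _ hT J, mul_assoc, ← h2] at h1
  have h3 : Nat.card ↥((D.parabolicSubgroup F J).subgroupOf (D.group F)) =
      Nat.card ↥(D.parabolicSubgroup F J) :=
    Nat.card_congr (Subgroup.subgroupOfEquivOfLe (par_le_group hC J)).toEquiv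
  have h4 := Subgroup.index_mul_card ((D.parabolicSubgroup F J).subgroupOf (D.group F))
  rw [h3, h1] at h4
  have hpos : 0 < Nat.card ↥(D.parabolicSubgroup F J) := Nat.card_pos
  exact Nat.eq_of_mul_eq_mul_right hpos h4

include hC hR hU hn hDs hJf hadd hinj in
/-- The Steinberg character has degree `q ^ N`. -/
theorem steinberg_one [Fintype F] :
    D.steinbergCharacter F 1 = (Fintype.card F : ℂ) ^ (D.nroots / 2) := by
  classical
  have hT : (rs hC hR hU hn).Triv := triv hC hR hU hn hadd hinj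
  unfold ChevalleyDatum.steinbergCharacter
  have hterm : ∀ J ∈ (Finset.range D.rank).powerset,
      (-1 : ℂ) ^ J.card * fixedPointCharacter (D.parabolicIn F J) 1 =
      (((-1 : ℤ) ^ J.card * ((∑ σ ∈ Finset.univ.filter
        (fun σ => Min (rs hC hR hU hn) (↑J : Set ℕ) σ),
          Fintype.card F ^ (rs hC hR hU hn).ell' σ : ℕ) : ℤ) : ℤ) : ℂ) := by
    intro J _
    unfold fixedPointCharacter ChevalleyDatum.parabolicIn
    have hfix : Nat.card (MulAction.fixedBy
        (↥(D.group F) ⧸ (D.parabolicSubgroup F (↑J : Set ℕ)).subgroupOf (D.group F))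
        (1 : ↥(D.group F))) =
        ((D.parabolicSubgroup F (↑J : Set ℕ)).subgroupOf (D.group F)).index := by
      rw [MulAction.fixedBy_one_eq_univ]
      exact Nat.card_congr (Equiv.Set.univ _)
    rw [hfix, index_par hC hR hU hn hDs hJf hadd hinj (F := F) (↑J : Set ℕ)]
    push_cast
    rfl
  rw [Finset.sum_congr rfl hterm, ← Int.cast_sum]
  have e : Finset.range D.rank = Finset.range A.rank := by rw [hC.af.agrees.rank_eq]
  rw [e, alt_sum _ hT]
  have h2 := two_mul_card_pos (rs hC hR hU hn)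
  have h3 : (Finset.univ.filter (fun r => (rs hC hR hU hn).pos r)).card = D.nroots / 2 := by
    rw [hC.af.agrees.n_eq]
    rw [Fintype.card_fin] at h2
    omega
  rw [h3]
  push_cast
  rfl

end

end Cfsg.Agent.Lib.Helper36.StPar
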