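import Mathlib
import Cfsg.Prelude.Def_ParabolicCharacters
import Cfsg.Agent.Lib.Helper36.StPar
import Cfsg.Agent.Lib.Helper36.StCox2
import Cfsg.Agent.Lib.Helper36.StFix

set_option autoImplicit false
set_option linter.unusedSimpArgs false
set_option linter.unusedSectionVars false
set_option linter.unusedVariables false

/-!
The Steinberg character restricted to `B`: it is the permutation character of `B` on `B / H`.
-/

namespace Cfsg.Agent.Lib.Helper36.StSt

open Cfsg Cfsg.Lie Cfsg.Agent.Lib.Helper18.Fast Cfsg.Agent.Lib.Helper18.Grade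
  Cfsg.Agent.Lib.Helper18.Facts Cfsg.Agent.Lib.Helper18.AllRoots Cfsg.Agent.Lib.Helper18.Loop
  Cfsg.Agent.Lib.Helper18.Weyl Cfsg.Agent.Lib.Helper18.RootSys Cfsg.Agent.Lib.Helper18.Orbit
  Cfsg.Agent.Lib.Helper18.Units Cfsg.Agent.Lib.Helper18.Sub Cfsg.Agent.Lib.Helper18.Norm
  Cfsg.Agent.Lib.Helper18.HAll Cfsg.Agent.Lib.Helper18.Torus Cfsg.Agent.Lib.Helper18.Pos
  Cfsg.Agent.Lib.Helper18.WGroup Cfsg.Agent.Lib.Helper18.BNChev Cfsg.Agent.Lib.Helper18.Mono
  Cfsg.Agent.Lib.Helper18.BNPairC Cfsg.Agent.Lib.Helper18.UOrd Cfsg.Agent.Lib.Helper18.Cox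
  Cfsg.Agent.Lib.Helper18.Long Cfsg.Agent.Lib.Helper18.Core Cfsg.Agent.Lib.Helper18.Conj
  Cfsg.Agent.Lib.Helper18.RFact Cfsg.Agent.Lib.Helper18.BNCell Cfsg.Agent.Lib.Helper18.Vec
  Cfsg.Agent.Lib.Helper18.XMat Cfsg.Agent.Lib.Helper18.Cells Cfsg.Agent.Lib.Helper18.Cox2
  Cfsg.Agent.Lib.Helper18.Cells2 Cfsg.Agent.Lib.Helper18.Cox3 Cfsg.Agent.Lib.Helper18.HOrder
  Cfsg.Agent.Lib.Helper18.HOrderTab Cfsg.Agent.Lib.Helper18.Tri Cfsg.Agent.Lib.Helper18.Par
  Cfsg.Agent.Lib.Helper18.Par2 Cfsg.Agent.Lib.Helper18.Par3 Cfsg.Agent.Lib.Helper18.Par4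
  Cfsg.Agent.Lib.Helper18.Count Cfsg.Agent.Lib.Helper36.StCox Cfsg.Agent.Lib.Helper36.StCox2
  Cfsg.Agent.Lib.Helper36.StPar Cfsg.Agent.Lib.Helper36.StFix

variable {A : FData} {D : ChevalleyDatum} {F : Type*} [Field F] {X : WD} {m : ℕ → ℕ → ℤ}
  {w : ℕ → ℤ} {N : ℕ} {ord rnk : ℕ → ℕ} {bz : ℕ → ℕ → ℤ} {w' : ℕ → ℤ} {c : ℤ} {fw : ℕ → ℕ → ℤ}

section

variable (hC : CFacts A D X m w) (hR : RFacts A X) (hU : UFacts A w' N ord rnk bz) (hn : 0 < A.n)
  (hDs : DFacts A) (hJf : JFacts A c fw)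
  (hadd : ∀ r < D.nroots, ∀ t u : F, D.x F r t * D.x F r u = D.x F r (t + u))
  (hinj : ∀ r < D.nroots, ∀ t : F, D.x F r t = 1 → t = 0)

include hC hR hU hn hadd hinj in
/-- For a reduced word `wd₁` of a minimal coset representative and a word `wd₂` in `J`:
`n(wd₁) B n(wd₂) ⊆ B n(wd₁ wd₂) B`. -/
theorem nw_mul_sub (J : Set ℕ) {wd₂ : List ℕ} (hwd₂ : ∀ i ∈ wd₂, i < A.rank ∧ i ∈ J) :
    ∀ wd₁ : List ℕ, (rs hC hR hU hn).Red wd₁ →
      Min (rs hC hR hU hn) J ((rs hC hR hU hn).wprod wd₁) →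
      ∀ b ∈ D.borelSubgroup F,
        nw hC.af F (plain wd₁) * b * nw hC.af F (plain wd₂) ∈ cell hC F (wd₁ ++ wd₂) := by
  have hF := hC.af
  intro wd₁
  induction wd₁ with
  | nil =>
    intro _ _ b hb
    have e : nw hC.af F (plain []) = 1 := rfl
    rw [e, one_mul, List.nil_append]
    unfold cell
    exact Cfsg.Agent.Lib.Helper18.BNAbs.RD.mem_dc b 1 hb (Subgroup.one_mem _) (by rw [mul_one])
  | cons i wd ih =>
    intro hred hmin b hb
    obtain ⟨hi, hr, hp⟩ := hred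
    have hwd : ∀ j ∈ wd, j < A.rank := (rs hC hR hU hn).red_lt hr
    have hρ := (rs hC hR hU hn).wprod_mem hwd
    rw [RS.wprod_cons] at hmin
    have hmin' := min_tail _ hi hρ hmin hp
    have h1 := ih hr hmin' b hb
    unfold cell at h1
    rw [DoubleCoset.mem_doubleCoset] at h1
    obtain ⟨b₁, hb₁, b₂, hb₂, e⟩ := h1
    have hwd12 : ∀ j ∈ wd ++ wd₂, j < A.rank := by
      intro j hj
      rcases List.mem_append.mp hj with hj | hj
      · exact hwd j hj
      · exact (hwd₂ j hj).1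
    have hsl : A.simple i < A.n := hF.sfacts.simple_lt i hi
    have hnN : nw hF F (plain (wd ++ wd₂)) ∈ D.monomialSubgroup F :=
      nw_mem_monomial hC (plain_lt hwd12)
    have hτ : (rs hC hR hU hn).wprod wd₂ ∈ (rs hC hR hU hn).W J := wprod_mem_J _ hwd₂
    have hpos : ∀ t, (nw hF F (plain (wd ++ wd₂)))⁻¹ *
        (hC.rd hadd).x ((hC.rd hadd).sim ⟨i, hi⟩) t *
        nw hF F (plain (wd ++ wd₂)) ∈ (hC.rd hadd).U := by
      intro t
      obtain ⟨ε, hε, he⟩ := nw_inv_conj (F := F) hC (plain_lt hwd12) hsl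
      have e1 : (nw hF F (plain (wd ++ wd₂)))⁻¹ * (hC.rd hadd).x ((hC.rd hadd).sim ⟨i, hi⟩) t *
          nw hF F (plain (wd ++ wd₂)) =
            xg hF F (wperm X ((plain (wd ++ wd₂)).map Prod.fst).reverse (A.simple i))
              (ε * t) := he t
      rw [e1, plain_fst]
      have hlt2 : wperm X (wd ++ wd₂).reverse (A.simple i) < A.n :=
        wperm_lt hC.wf (fun j hj => hwd12 j (List.mem_reverse.mp hj)) hsl
      refine (hC.rd hadd).x_mem_U (r := ⟨_, hlt2⟩) ?_ _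
      have hp' := pos_inv_mul _ hi hmin hp hτ
      rw [← wprod_append, rs_pos_iff, wprod_inv_val hC hR hU hn hwd12,
        rs_α hC hR hU hn hi] at hp'
      exact hp'
    have h2 := cell_sub (hC.rd hadd) ⟨i, hi⟩ (n := nw hF F (plain (wd ++ wd₂))) (b := b₁)
      (by rw [rd_N]; exact hnN) (by rw [rd_B]; exact hb₁) hpos
    rw [rd_B, DoubleCoset.mem_doubleCoset] at h2
    obtain ⟨c₁, hc₁, c₂, hc₂, e'⟩ := h2
    have e'' : ng hF F i * b₁ * nw hF F (plain (wd ++ wd₂)) =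
        c₁ * (ng hF F i * nw hF F (plain (wd ++ wd₂))) * c₂ := e'
    unfold cell
    rw [List.cons_append, nw_plain_cons, nw_plain_cons]
    refine Cfsg.Agent.Lib.Helper18.BNAbs.RD.mem_dc c₁ (c₂ * b₂) hc₁ (Subgroup.mul_mem _ hc₂ hb₂) ?_
    calc ng hF F i * nw hF F (plain wd) * b * nw hF F (plain wd₂)
        = ng hF F i * (nw hF F (plain wd) * b * nw hF F (plain wd₂)) := by group
      _ = ng hF F i * b₁ * nw hF F (plain (wd ++ wd₂)) * b₂ := by rw [e]; group
      _ = c₁ * (ng hF F i * nw hF F (plain (wd ++ wd₂))) * c₂ * b₂ := by rw [e'']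
      _ = c₁ * (ng hF F i * nw hF F (plain (wd ++ wd₂))) * (c₂ * b₂) := by group

theorem cell_mul_right {wd : List ℕ} {g β : GL D.Idx F} (hg : g ∈ cell hC F wd)
    (hβ : β ∈ D.borelSubgroup F) : g * β ∈ cell hC F wd := by
  unfold cell at hg ⊢
  rw [DoubleCoset.mem_doubleCoset] at hg
  obtain ⟨b₁, hb₁, b₂, hb₂, rfl⟩ := hg
  exact Cfsg.Agent.Lib.Helper18.BNAbs.RD.mem_dc b₁ (b₂ * β) hb₁ (Subgroup.mul_mem _ hb₂ hβ)
    (by group)

theorem cell_mul_left {wd : List ℕ} {g β : GL D.Idx F} (hg : g ∈ cell hC F wd)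
    (hβ : β ∈ D.borelSubgroup F) : β * g ∈ cell hC F wd := by
  unfold cell at hg ⊢
  rw [DoubleCoset.mem_doubleCoset] at hg
  obtain ⟨b₁, hb₁, b₂, hb₂, rfl⟩ := hg
  exact Cfsg.Agent.Lib.Helper18.BNAbs.RD.mem_dc (β * b₁) b₂ (Subgroup.mul_mem _ hβ hb₁) hb₂
    (by group)

/-- The union of the Bruhat cells of the minimal coset representatives of `W / W_J`. -/
def TJ (J : Set ℕ) : Set ↥(D.group F) :=
  {g | ∃ wd : List ℕ, (∀ i ∈ wd, i < A.rank) ∧
    Min (rs hC hR hU hn) J ((rs hC hR hU hn).wprod wd) ∧ (g : GL D.Idx F) ∈ cell hC F wd}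

include hadd hinj in
theorem TJ_cover (J : Set ℕ) (g : ↥(D.group F)) :
    ∃ t ∈ TJ hC hR hU hn (F := F) J,
      ∃ k ∈ (D.parabolicSubgroup F J).subgroupOf (D.group F), g = t * k := by
  have hF := hC.af
  have hBG := borelSubgroup_le hF F
  obtain ⟨wd, hwd, hg⟩ := exists_cell hC hadd hinj g.2
  obtain ⟨σ, τ, hσ, hτ, e⟩ := exists_factor (rs hC hR hU hn) J _ _
    ((rs hC hR hU hn).wprod_mem hwd) rfl
  obtain ⟨wd₁, hwd₁, e₁⟩ := exists_word _ hσ.1
  obtain ⟨wd₂, hwd₂, e₂⟩ := exists_word _ hτ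
  have hwd₁' : ∀ i ∈ wd₁, i < A.rank := fun i hi => (hwd₁ i hi).1
  have hwd₂' : ∀ i ∈ wd₂, i < A.rank := fun i hi => (hwd₂ i hi).1
  have hwd12 : ∀ j ∈ wd₁ ++ wd₂, j < A.rank := by
    intro j hj
    rcases List.mem_append.mp hj with hj | hj
    · exact hwd₁' j hj
    · exact hwd₂' j hj
  have e3 : (rs hC hR hU hn).wprod wd = (rs hC hR hU hn).wprod (wd₁ ++ wd₂) := by
    rw [wprod_append, e₁, e₂, e]
  have hc := cell_eq_of_wprod hC hR hU hn hadd hinj (F := F) hwd hwd12 e3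
  rw [← hc] at hg
  unfold cell at hg
  rw [DoubleCoset.mem_doubleCoset, plain_append, nw_append] at hg
  obtain ⟨b₁, hb₁, b₂, hb₂, eg⟩ := hg
  refine ⟨⟨b₁ * nw hF F (plain wd₁),
    Subgroup.mul_mem _ (hBG hb₁) (nw_mem_group hC (plain_lt hwd₁'))⟩,
    ⟨wd₁, hwd₁', by rw [e₁]; exact hσ, ?_⟩, _, ?_, (mul_inv_cancel_left _ g).symm⟩
  · unfold cell
    exact Cfsg.Agent.Lib.Helper18.BNAbs.RD.mem_dc b₁ 1 hb₁ (Subgroup.one_mem _)
      (by rw [mul_one])
  · rw [Subgroup.mem_subgroupOf, Subgroup.coe_mul, Subgroup.coe_inv, eg]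
    have e4 : (b₁ * nw hF F (plain wd₁))⁻¹ * (b₁ * (nw hF F (plain wd₁) * nw hF F (plain wd₂)) * b₂) =
        nw hF F (plain wd₂) * b₂ := by group
    show (b₁ * nw hF F (plain wd₁))⁻¹ * (b₁ * (nw hF F (plain wd₁) * nw hF F (plain wd₂)) * b₂) ∈
      D.parabolicSubgroup F J
    rw [e4]
    exact Subgroup.mul_mem _ (nwJ_mem hC hwd₂) (le_sup_left (b := Subgroup.closure _) hb₂)

include hDs hJf hadd hinj in
theorem TJ_sep (J : Set ℕ) {t t' : ↥(D.group F)} (ht : t ∈ TJ hC hR hU hn J)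
    (ht' : t' ∈ TJ hC hR hU hn J)
    (hk : t⁻¹ * t' ∈ (D.parabolicSubgroup F J).subgroupOf (D.group F)) :
    t⁻¹ * t' ∈ (D.borelSubgroup F).subgroupOf (D.group F) := by
  have hF := hC.af
  have hT : (rs hC hR hU hn).Triv := triv hC hR hU hn hadd hinj
  obtain ⟨wd₁, hwd₁, hσ, htc⟩ := ht
  obtain ⟨wd₁', hwd₁', hσ', htc'⟩ := ht'
  rw [Subgroup.mem_subgroupOf] at hk ⊢
  obtain ⟨wd₂, hwd₂, hkc, hτ⟩ := par_cell hC hR hU hn hDs hJf hadd hinj J hk
  obtain ⟨wd₂', hwd₂', e₂⟩ := exists_word _ hτ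
  have hwd₂'' : ∀ i ∈ wd₂', i < A.rank := fun i hi => (hwd₂' i hi).1
  have hc2 := cell_eq_of_wprod hC hR hU hn hadd hinj (F := F) hwd₂'' hwd₂ e₂
  rw [hc2] at hkc
  obtain ⟨wdr, hred, er⟩ := (rs hC hR hU hn).exists_red hT hσ.1
  have hwdr := (rs hC hR hU hn).red_lt hred
  have hc1 := cell_eq_of_wprod hC hR hU hn hadd hinj (F := F) hwdr hwd₁ er
  rw [hc1] at htc
  have hmul : (t : GL D.Idx F) * ((t⁻¹ * t' : ↥(D.group F)) : GL D.Idx F) ∈
      cell hC F (wdr ++ wd₂') := by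
    unfold cell at htc hkc
    rw [DoubleCoset.mem_doubleCoset] at htc hkc
    obtain ⟨b₁, hb₁, b₂, hb₂, et⟩ := htc
    obtain ⟨b₃, hb₃, b₄, hb₄, ek⟩ := hkc
    rw [et, ek]
    have h3 := nw_mul_sub hC hR hU hn hadd hinj J hwd₂' wdr hred (by rw [er]; exact hσ)
      (b₂ * b₃) (Subgroup.mul_mem _ hb₂ hb₃)
    have h4 := cell_mul_right hC (cell_mul_left hC h3 hb₁) hb₄
    have e5 : b₁ * nw hF F (plain wdr) * b₂ * (b₃ * nw hF F (plain wd₂') * b₄) =
        b₁ * (nw hF F (plain wdr) * (b₂ * b₃) * nw hF F (plain wd₂')) * b₄ := by group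
    rw [e5]
    exact h4
  have e6 : (t : GL D.Idx F) * ((t⁻¹ * t' : ↥(D.group F)) : GL D.Idx F) = (t' : GL D.Idx F) := by
    rw [Subgroup.coe_mul, Subgroup.coe_inv]
    group
  rw [e6] at hmul
  have hwd12 : ∀ j ∈ wdr ++ wd₂', j < A.rank := by
    intro j hj
    rcases List.mem_append.mp hj with hj | hj
    · exact hwdr j hj
    · exact hwd₂'' j hj
  have h7 := wprod_eq_of_meet hC hR hU hn hadd hinj hwd12 hwd₁' hmul htc'
  rw [wprod_append, er] at h7
  have h8 := factor_unique _ hT hσ hσ' (wprod_mem_J _ hwd₂') (Subgroup.one_mem _)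
    (by rw [mul_one]; exact h7)
  have hc3 := cell_eq_of_wprod hC hR hU hn hadd hinj (F := F) (wd := wd₂') (wd' := []) hwd₂''
    (by simp) (by rw [h8.2]; rfl)
  rw [← hc3, cell_nil] at hkc
  exact hkc

include hadd hinj in
/-- The Weyl group element of the Bruhat cell of a coset in `G / B`. -/
theorem exists_index :
    ∃ cw : ↥(D.group F) ⧸ (D.borelSubgroup F).subgroupOf (D.group F) → Equiv.Perm (Fin A.n),
      (∀ y, cw y ∈ (rs hC hR hU hn).W Set.univ) ∧
      (∀ (g : ↥(D.group F)) (wd : List ℕ), (∀ i ∈ wd, i < A.rank) →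
        (g : GL D.Idx F) ∈ cell hC F wd →
          cw (QuotientGroup.mk g) = (rs hC hR hU hn).wprod wd) ∧
      (∀ y, ∃ wd : List ℕ, (∀ i ∈ wd, i < A.rank) ∧
        ((y.out : ↥(D.group F)) : GL D.Idx F) ∈ cell hC F wd ∧
          cw y = (rs hC hR hU hn).wprod wd) := by
  have hex : ∀ g : ↥(D.group F), ∃ wd : List ℕ, (∀ i ∈ wd, i < A.rank) ∧
      (g : GL D.Idx F) ∈ cell hC F wd := fun g => exists_cell hC hadd hinj g.2
  choose wdOf hwdOf hmemOf using hex
  refine ⟨fun y => (rs hC hR hU hn).wprod (wdOf y.out),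
    fun y => (rs hC hR hU hn).wprod_mem (hwdOf _), ?_,
    fun y => ⟨wdOf y.out, hwdOf _, hmemOf _, rfl⟩⟩
  intro g wd hwd hg
  have h1 := inv_mul_out_mem ((D.borelSubgroup F).subgroupOf (D.group F)) g
  rw [Subgroup.mem_subgroupOf] at h1
  have h2 : (((QuotientGroup.mk g :
      ↥(D.group F) ⧸ (D.borelSubgroup F).subgroupOf (D.group F)).out : ↥(D.group F)) :
        GL D.Idx F) ∈ cell hC F wd := by
    have e : (((QuotientGroup.mk g :
        ↥(D.group F) ⧸ (D.borelSubgroup F).subgroupOf (D.group F)).out : ↥(D.group F)) :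
          GL D.Idx F) = (g : GL D.Idx F) * ((g⁻¹ * (QuotientGroup.mk g :
            ↥(D.group F) ⧸ (D.borelSubgroup F).subgroupOf (D.group F)).out : ↥(D.group F)) :
              GL D.Idx F) := by
      rw [Subgroup.coe_mul, Subgroup.coe_inv]
      group
    rw [e]
    exact cell_mul_right hC hg h1
  exact wprod_eq_of_meet hC hR hU hn hadd hinj (hwdOf _) hwd (hmemOf _) h2

include hR hU hn hadd hinj in
/-- `B ∩ n₀ B n₀⁻¹ = H` for a representative `n₀` of the longest element. -/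
theorem longest_inter {wd₀ : List ℕ} (hwd₀ : ∀ i ∈ wd₀, i < A.rank)
    (hlong : ∀ j < A.rank,
      ¬ (rs hC hR hU hn).pos ((rs hC hR hU hn).wprod wd₀ ((rs hC hR hU hn).α j)))
    {β : GL D.Idx F} (hβ : β ∈ D.borelSubgroup F)
    (h : (nw hC.af F (plain wd₀))⁻¹ * β * nw hC.af F (plain wd₀) ∈ D.borelSubgroup F) :
    β ∈ D.diagonalSubgroup F := by
  have hF := hC.af
  have hnN : nw hF F (plain wd₀) ∈ (hC.rd hadd).N := by
    rw [rd_N]
    exact nw_mem_monomial hC (plain_lt hwd₀)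
  rw [← rd_B hC hadd] at hβ
  obtain ⟨u, hu, h', hh', rfl⟩ :=
    Cfsg.Agent.Lib.Helper18.BNAbs.RD.exists_mul_of_mem_sup' (hC.rd hadd).H_le_normalizer_U hβ
  have h1 : (nw hF F (plain wd₀))⁻¹ * h' * nw hF F (plain wd₀) ∈ (hC.rd hadd).H := by
    have := (hC.rd hadd).N_conj_H ((hC.rd hadd).N.inv_mem hnN) h' hh'
    rwa [inv_inv] at this
  have h1' : (nw hF F (plain wd₀))⁻¹ * h' * nw hF F (plain wd₀) ∈ D.diagonalSubgroup F := h1
  have h2 : (nw hF F (plain wd₀))⁻¹ * u * nw hF F (plain wd₀) ∈ D.borelSubgroup F := by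
    have e : (nw hF F (plain wd₀))⁻¹ * u * nw hF F (plain wd₀) =
        ((nw hF F (plain wd₀))⁻¹ * (u * h') * nw hF F (plain wd₀)) *
          ((nw hF F (plain wd₀))⁻¹ * h' * nw hF F (plain wd₀))⁻¹ := by group
    rw [e]
    exact Subgroup.mul_mem _ h (Subgroup.inv_mem _ (le_sup_right (a := D.posUnipotent F) h1'))
  have h3 : (nw hF F (plain wd₀))⁻¹ * u * (nw hF F (plain wd₀))⁻¹⁻¹ ∈ D.negUnipotent F := by
    refine Cfsg.Agent.Lib.Helper18.BNAbs.RD.conj_closure_mem (K := D.negUnipotent F)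
      (nw hF F (plain wd₀))⁻¹ ?_ hu
    rintro g ⟨s, v, hs, rfl⟩
    rw [inv_inv]
    obtain ⟨ε, hε, he⟩ := nw_inv_conj (F := F) hC (plain_lt hwd₀) s.isLt
    have e1 : (nw hF F (plain wd₀))⁻¹ * (hC.rd hadd).x s v * nw hF F (plain wd₀) =
        xg hF F (wperm X ((plain wd₀).map Prod.fst).reverse s.val) (ε * v) := he v
    rw [e1, plain_fst]
    have hlt2 : wperm X wd₀.reverse s.val < A.n :=
      wperm_lt hC.wf (fun j hj => hwd₀ j (List.mem_reverse.mp hj)) s.isLt
    have hs' : (rs hC hR hU hn).pos s := hs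
    have hnp := longest_inv _ ((rs hC hR hU hn).wprod_mem hwd₀) hlong hs'
    rw [rs_pos_iff, wprod_inv_val hC hR hU hn hwd₀] at hnp
    have hneg : D.IsNegRoot (wperm X wd₀.reverse s.val) := by
      rcases hC.pos_or_neg _ (lt_nroots hF hlt2) with hp | hn'
      · exact absurd ((posA_iff hF hlt2).mpr hp) hnp
      · exact hn'
    rw [xg_eq hF (lt_nroots hF hlt2)]
    exact xU_mem_neg hF _ hneg _
  rw [inv_inv] at h3
  have h4 : (nw hF F (plain wd₀))⁻¹ * u * nw hF F (plain wd₀) ∈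
      D.borelSubgroup F ⊓ D.negUnipotent F := ⟨h2, h3⟩
  rw [borel_inf_negUnipotent hF hC.pw, Subgroup.mem_bot] at h4
  have h5 : u = 1 := by
    have e : u = nw hF F (plain wd₀) * ((nw hF F (plain wd₀))⁻¹ * u * nw hF F (plain wd₀)) *
        (nw hF F (plain wd₀))⁻¹ := by group
    rw [e, h4]
    group
  rw [h5, one_mul]
  exact hh'

theorem card_subtype_and {α : Type*} [Fintype α] (p q : α → Prop) [DecidablePred p]
    [DecidablePred q] :
    Nat.card {y : α // p y ∧ q y} = ∑ y ∈ Finset.univ.filter p, if q y then 1 else 0 := by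
  rw [Nat.card_eq_fintype_card, Fintype.card_subtype, ← Finset.filter_filter, Finset.card_filter]

include hC hR hU hn hDs hJf hadd hinj in
/-- The Steinberg character on `B` counts the fixed points on `B / H`. -/
theorem steinberg_borel [Fintype F] (b : ↥((D.borelSubgroup F).subgroupOf (D.group F))) :
    D.steinbergCharacter F (((D.borelSubgroup F).subgroupOf (D.group F)).subtype b) =
      fixedPointCharacter (((D.diagonalSubgroup F).subgroupOf (D.group F)).subgroupOf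
        ((D.borelSubgroup F).subgroupOf (D.group F))) b := by
  classical
  have hF := hC.af
  have hT : (rs hC hR hU hn).Triv := triv hC hR hU hn hadd hinj
  have hBG := borelSubgroup_le hF F
  obtain ⟨cw, hcwW, hcw, hcwout⟩ := exists_index hC hR hU hn hadd hinj (F := F)
  obtain ⟨σ₀, hσ₀, hlong⟩ := exists_longest (rs hC hR hU hn)
  obtain ⟨wd₀, hwd₀, e₀⟩ := exists_word _ hσ₀
  have hwd₀' : ∀ i ∈ wd₀, i < A.rank := fun i hi => (hwd₀ i hi).1
  have hg : (b : ↥(D.group F)) ∈ (D.borelSubgroup F).subgroupOf (D.group F) := b.2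
  have : Fintype (↥(D.group F) ⧸ (D.borelSubgroup F).subgroupOf (D.group F)) :=
    Fintype.ofFinite _
  -- fixed points on `G / P_J` through the cells of the minimal coset representatives
  have hJ : ∀ J : Finset ℕ,
      Nat.card (MulAction.fixedBy (↥(D.group F) ⧸ D.parabolicIn F J) (b : ↥(D.group F))) =
      ∑ y ∈ Finset.univ.filter
        (fun y : ↥(D.group F) ⧸ (D.borelSubgroup F).subgroupOf (D.group F) =>
          (b : ↥(D.group F)) • y = y),
        (if Min (rs hC hR hU hn) (↑J : Set ℕ) (cw y) then 1 else 0) := by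
    intro J
    have hBK : (D.borelSubgroup F).subgroupOf (D.group F) ≤ D.parabolicIn F J := by
      intro x hx
      exact le_sup_left (b := Subgroup.closure _) (Subgroup.mem_subgroupOf.mp hx)
    have hTB : ∀ t ∈ TJ hC hR hU hn (F := F) (↑J : Set ℕ),
        ∀ β ∈ (D.borelSubgroup F).subgroupOf (D.group F),
          t * β ∈ TJ hC hR hU hn (F := F) (↑J : Set ℕ) := by
      rintro t ⟨wd, hwd, hmin, hc⟩ β hβ
      exact ⟨wd, hwd, hmin, by
        rw [Subgroup.coe_mul]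
        exact cell_mul_right hC hc (Subgroup.mem_subgroupOf.mp hβ)⟩
    have hbT : ∀ t ∈ TJ hC hR hU hn (F := F) (↑J : Set ℕ),
        (b : ↥(D.group F)) * t ∈ TJ hC hR hU hn (F := F) (↑J : Set ℕ) := by
      rintro t ⟨wd, hwd, hmin, hc⟩
      exact ⟨wd, hwd, hmin, by
        rw [Subgroup.coe_mul]
        exact cell_mul_left hC hc (Subgroup.mem_subgroupOf.mp hg)⟩
    have h1 := TJ_cover hC hR hU hn hadd hinj (F := F) (↑J : Set ℕ)
    have h2 : ∀ t ∈ TJ hC hR hU hn (F := F) (↑J : Set ℕ),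
        ∀ t' ∈ TJ hC hR hU hn (F := F) (↑J : Set ℕ),
          t⁻¹ * t' ∈ D.parabolicIn F J →
            t⁻¹ * t' ∈ (D.borelSubgroup F).subgroupOf (D.group F) :=
      fun t ht t' ht' hk => TJ_sep hC hR hU hn hDs hJf hadd hinj (↑J : Set ℕ) ht ht' hk
    rw [card_fixed_quot ((D.borelSubgroup F).subgroupOf (D.group F)) (D.parabolicIn F J) hBK
      (TJ hC hR hU hn (F := F) (↑J : Set ℕ)) (b : ↥(D.group F)) hTB hbT h1 h2]
    have hiff : ∀ y : ↥(D.group F) ⧸ (D.borelSubgroup F).subgroupOf (D.group F),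
        (∃ t ∈ TJ hC hR hU hn (F := F) (↑J : Set ℕ),
          (QuotientGroup.mk t : ↥(D.group F) ⧸ (D.borelSubgroup F).subgroupOf (D.group F)) = y) ↔
        Min (rs hC hR hU hn) (↑J : Set ℕ) (cw y) := by
      intro y
      constructor
      · rintro ⟨t, ⟨wd, hwd, hmin, hc⟩, rfl⟩
        rw [hcw t wd hwd hc]
        exact hmin
      · intro hmin
        obtain ⟨wd, hwd, hc, e⟩ := hcwout y
        exact ⟨y.out, ⟨wd, hwd, by rw [← e]; exact hmin, hc⟩, QuotientGroup.out_eq' y⟩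
    rw [← card_subtype_and]
    apply Nat.card_congr
    exact Equiv.subtypeEquivRight (fun y => and_congr Iff.rfl (hiff y))
  -- fixed points on `B / H` through the cell of the longest element
  have hR' : Nat.card (MulAction.fixedBy
      (↥((D.borelSubgroup F).subgroupOf (D.group F)) ⧸
        ((D.diagonalSubgroup F).subgroupOf (D.group F)).subgroupOf
          ((D.borelSubgroup F).subgroupOf (D.group F))) b) =
      ∑ y ∈ Finset.univ.filter
        (fun y : ↥(D.group F) ⧸ (D.borelSubgroup F).subgroupOf (D.group F) =>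
          (b : ↥(D.group F)) • y = y),
        (if ∀ j < A.rank, ¬ (rs hC hR hU hn).pos (cw y ((rs hC hR hU hn).α j)) then 1 else 0) := by
    have ha : ∀ h ∈ (D.diagonalSubgroup F).subgroupOf (D.group F),
        (⟨nw hF F (plain wd₀), nw_mem_group hC (plain_lt hwd₀')⟩ : ↥(D.group F))⁻¹ * h *
          ⟨nw hF F (plain wd₀), nw_mem_group hC (plain_lt hwd₀')⟩ ∈
            (D.borelSubgroup F).subgroupOf (D.group F) := by
      intro h hh
      rw [Subgroup.mem_subgroupOf] at hh ⊢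
      rw [Subgroup.coe_mul, Subgroup.coe_mul, Subgroup.coe_inv]
      have hnN : nw hF F (plain wd₀) ∈ (hC.rd hadd).N := by
        rw [rd_N]
        exact nw_mem_monomial hC (plain_lt hwd₀')
      have h1 := (hC.rd hadd).N_conj_H ((hC.rd hadd).N.inv_mem hnN) (h : GL D.Idx F) hh
      rw [inv_inv] at h1
      exact le_sup_right (a := D.posUnipotent F) h1
    have hb' : ∀ β ∈ (D.borelSubgroup F).subgroupOf (D.group F),
        (⟨nw hF F (plain wd₀), nw_mem_group hC (plain_lt hwd₀')⟩ : ↥(D.group F))⁻¹ * β *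
          ⟨nw hF F (plain wd₀), nw_mem_group hC (plain_lt hwd₀')⟩ ∈
            (D.borelSubgroup F).subgroupOf (D.group F) →
          β ∈ (D.diagonalSubgroup F).subgroupOf (D.group F) := by
      intro β hβ h
      rw [Subgroup.mem_subgroupOf] at hβ h ⊢
      rw [Subgroup.coe_mul, Subgroup.coe_mul, Subgroup.coe_inv] at h
      exact longest_inter hC hR hU hn hadd hinj hwd₀' (by rw [e₀]; exact hlong) hβ h
    have hcell := card_fixed_cell ((D.borelSubgroup F).subgroupOf (D.group F))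
      ((D.diagonalSubgroup F).subgroupOf (D.group F))
      (⟨nw hF F (plain wd₀), nw_mem_group hC (plain_lt hwd₀')⟩ : ↥(D.group F))
      (b : ↥(D.group F)) hg ha hb'
    have hiff2 : ∀ y : ↥(D.group F) ⧸ (D.borelSubgroup F).subgroupOf (D.group F),
        (∃ β ∈ (D.borelSubgroup F).subgroupOf (D.group F),
          (QuotientGroup.mk (β * ⟨nw hF F (plain wd₀), nw_mem_group hC (plain_lt hwd₀')⟩) :
            ↥(D.group F) ⧸ (D.borelSubgroup F).subgroupOf (D.group F)) = y) ↔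
        ∀ j < A.rank, ¬ (rs hC hR hU hn).pos (cw y ((rs hC hR hU hn).α j)) := by
      intro y
      constructor
      · rintro ⟨β, hβ, rfl⟩
        have hc : ((β * ⟨nw hF F (plain wd₀), nw_mem_group hC (plain_lt hwd₀')⟩ :
            ↥(D.group F)) : GL D.Idx F) ∈ cell hC F wd₀ := by
          rw [Subgroup.coe_mul]
          unfold cell
          exact Cfsg.Agent.Lib.Helper18.BNAbs.RD.mem_dc (β : GL D.Idx F) 1
            (Subgroup.mem_subgroupOf.mp hβ) (Subgroup.one_mem _) (by rw [mul_one])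
        rw [hcw _ wd₀ hwd₀' hc, e₀]
        exact hlong
      · intro hl
        obtain ⟨wd, hwd, hc, e⟩ := hcwout y
        have e1 : cw y = σ₀ := longest_unique _ hT hσ₀ (hcwW y) hlong hl
        have hcc := cell_eq_of_wprod hC hR hU hn hadd hinj (F := F) hwd₀' hwd
          (by rw [e₀, ← e1, e])
        rw [hcc] at hc
        unfold cell at hc
        rw [DoubleCoset.mem_doubleCoset] at hc
        obtain ⟨b₁, hb₁, b₂, hb₂, eo⟩ := hc
        refine ⟨⟨b₁, hBG hb₁⟩, Subgroup.mem_subgroupOf.mpr hb₁, ?_⟩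
        refine Eq.trans (QuotientGroup.eq.mpr ?_) (QuotientGroup.out_eq' y)
        rw [Subgroup.mem_subgroupOf, Subgroup.coe_mul, Subgroup.coe_inv, Subgroup.coe_mul, eo]
        have e2 : (b₁ * nw hF F (plain wd₀))⁻¹ * (b₁ * nw hF F (plain wd₀) * b₂) = b₂ := by group
        show (b₁ * nw hF F (plain wd₀))⁻¹ * (b₁ * nw hF F (plain wd₀) * b₂) ∈ D.borelSubgroup F
        rw [e2]
        exact hb₂
    rw [← card_subtype_and]
    refine Eq.trans hcell ?_
    apply Nat.card_congr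
    exact Equiv.subtypeEquivRight (fun y => and_congr Iff.rfl (hiff2 y))
  have hterm : ∀ J ∈ (Finset.range D.rank).powerset,
      (-1 : ℂ) ^ J.card * fixedPointCharacter (D.parabolicIn F J)
        (((D.borelSubgroup F).subgroupOf (D.group F)).subtype b) =
      (((-1 : ℤ) ^ J.card * ∑ y ∈ Finset.univ.filter
        (fun y : ↥(D.group F) ⧸ (D.borelSubgroup F).subgroupOf (D.group F) =>
          (b : ↥(D.group F)) • y = y),
        (if Min (rs hC hR hU hn) (↑J : Set ℕ) (cw y) then (1 : ℤ) else 0) : ℤ) : ℂ) := by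
    intro J _
    unfold fixedPointCharacter
    have hJ' := hJ J
    have e1 : (Nat.card (MulAction.fixedBy (↥(D.group F) ⧸ D.parabolicIn F J)
        (((D.borelSubgroup F).subgroupOf (D.group F)).subtype b)) : ℂ) =
        ((∑ y ∈ Finset.univ.filter
          (fun y : ↥(D.group F) ⧸ (D.borelSubgroup F).subgroupOf (D.group F) =>
            (b : ↥(D.group F)) • y = y),
          (if Min (rs hC hR hU hn) (↑J : Set ℕ) (cw y) then 1 else 0) : ℕ) : ℂ) :=
      congrArg Nat.cast hJ'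
    rw [e1]
    push_cast
    rfl
  unfold ChevalleyDatum.steinbergCharacter
  rw [Finset.sum_congr rfl hterm, ← Int.cast_sum]
  have e : Finset.range D.rank = Finset.range A.rank := by rw [hC.af.agrees.rank_eq]
  rw [e]
  have hswap : ∑ J ∈ (Finset.range A.rank).powerset, (-1 : ℤ) ^ J.card *
      ∑ y ∈ Finset.univ.filter
        (fun y : ↥(D.group F) ⧸ (D.borelSubgroup F).subgroupOf (D.group F) =>
          (b : ↥(D.group F)) • y = y),
        (if Min (rs hC hR hU hn) (↑J : Set ℕ) (cw y) then (1 : ℤ) else 0) =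
      ∑ y ∈ Finset.univ.filter
        (fun y : ↥(D.group F) ⧸ (D.borelSubgroup F).subgroupOf (D.group F) =>
          (b : ↥(D.group F)) • y = y),
        (if ∀ j < A.rank, ¬ (rs hC hR hU hn).pos (cw y ((rs hC hR hU hn).α j))
          then (1 : ℤ) else 0) := by
    simp_rw [Finset.mul_sum]
    rw [Finset.sum_comm]
    apply Finset.sum_congr rfl
    intro y _
    exact alt_point _ (hcwW y)
  rw [hswap]
  unfold fixedPointCharacter
  have e2 : (Nat.card (MulAction.fixedBy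
      (↥((D.borelSubgroup F).subgroupOf (D.group F)) ⧸
        ((D.diagonalSubgroup F).subgroupOf (D.group F)).subgroupOf
          ((D.borelSubgroup F).subgroupOf (D.group F))) b) : ℂ) =
      ((∑ y ∈ Finset.univ.filter
        (fun y : ↥(D.group F) ⧸ (D.borelSubgroup F).subgroupOf (D.group F) =>
          (b : ↥(D.group F)) • y = y),
        (if ∀ j < A.rank, ¬ (rs hC hR hU hn).pos (cw y ((rs hC hR hU hn).α j))
          then 1 else 0) : ℕ) : ℂ) := congrArg Nat.cast hR'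
  rw [e2]
  push_cast
  rfl

end

end Cfsg.Agent.Lib.Helper36.StSt
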