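import Mathlib
import Cfsg.Prelude.Def_ParabolicCharacters
import Cfsg.Agent.Lib.Helper36.StSt
import Cfsg.Agent.Lib.Helper36.StCox3
import Cfsg.Agent.Lib.Helper36.StOrb
import Cfsg.Agent.Lib.Helper26.GenChar
import Cfsg.Agent.Lib.Helper80.Integrality

set_option autoImplicit false
set_option linter.unusedSimpArgs false
set_option linter.unusedSectionVars false
set_option linter.unusedVariables false

/-!
The Steinberg character is irreducible: its norm is
`∑_{J,K} (-1)^{|J|+|K|} |P_J \ G / P_K| = 1`, the double cosets being counted by the distinguished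
double coset representatives of the Weyl group.
-/

namespace Cfsg.Agent.Lib.Helper36.StIrr

open Cfsg Cfsg.Lie Cfsg.Agent.Lib.Helper18.Fast Cfsg.Agent.Lib.Helper18.Grade
  Cfsg.Agent.Lib.Helper18.Facts Cfsg.Agent.Lib.Helper18.AllRoots Cfsg.Agent.Lib.Helper18.Loop
  Cfsg.Agent.Lib.Helper18.Weyl Cfsg.Agent.Lib.Helper18.RootSys Cfsg.Agent.Lib.Helper18.Orbit
  Cfsg.Agent.Lib.Helper18.Units Cfsg.Agent.Lib.Helper18.Sub Cfsg.Agent.Lib.Helper18.Norm
  Cfsg.Agent.Lib.Helper18.HAll Cfsg.Agent.Lib.Helper18.Torus Cfsg.Agent.Lib.Helper18.Pos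
  Cfsg.Agent.Lib.Helper18.WGroup Cfsg.Agent.Lib.Helper18.BNChev Cfsg.Agent.Lib.Helper18.Mono
  Cfsg.Agent.Lib.Helper18.BNPairC Cfsg.Agent.Lib.Helper18.UOrd Cfsg.Agent.Lib.Helper18.Cox
  Cfsg.Agent.Lib.Helper18.Long Cfsg.Agent.Lib.Helper18.Core Cfsg.Agent.Lib.Helper18.Conj
  Cfsg.Agent.Lib.Helper18.RFact Cfsg.Agent.Lib.Helper18.BNCell Cfsg.Agent.Lib.Helper18.Vec
  Cfsg.Agent.Lib.Helper18.XMat Cfsg.Agent.Lib.Helper18.Cells Cfsg.Agent.Lib.Helper18.Cox2
  Cfsg.Agent.Lib.Helper18.Cells2 Cfsg.Agent.Lib.Helper18.Cox3 Cfsg.Agent.Lib.Helper18.HOrder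
  Cfsg.Agent.Lib.Helper18.HOrderTab Cfsg.Agent.Lib.Helper18.Tri Cfsg.Agent.Lib.Helper18.Par
  Cfsg.Agent.Lib.Helper18.Par2 Cfsg.Agent.Lib.Helper18.Par3 Cfsg.Agent.Lib.Helper18.Par4
  Cfsg.Agent.Lib.Helper18.Count Cfsg.Agent.Lib.Helper36.StCox Cfsg.Agent.Lib.Helper36.StCox2
  Cfsg.Agent.Lib.Helper36.StCox3 Cfsg.Agent.Lib.Helper36.StPar Cfsg.Agent.Lib.Helper36.StFix
  Cfsg.Agent.Lib.Helper36.StSt Cfsg.Agent.Lib.Helper36.StOrb

variable {A : FData} {D : ChevalleyDatum} {F : Type*} [Field F] {X : WD} {m : ℕ → ℕ → ℤ}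
  {w : ℕ → ℤ} {N : ℕ} {ord rnk : ℕ → ℕ} {bz : ℕ → ℕ → ℤ} {w' : ℕ → ℤ} {c : ℤ} {fw : ℕ → ℕ → ℤ}

section

variable (hC : CFacts A D X m w) (hR : RFacts A X) (hU : UFacts A w' N ord rnk bz) (hn : 0 < A.n)
  (hDs : DFacts A) (hJf : JFacts A c fw)
  (hadd : ∀ r < D.nroots, ∀ t u : F, D.x F r t * D.x F r u = D.x F r (t + u))
  (hinj : ∀ r < D.nroots, ∀ t : F, D.x F r t = 1 → t = 0)

include hC hR hU hn hadd hinj in
/-- `n(wdv) B n(wdx) ⊆ ⋃_{v' ∈ W_J} B n(v' x) B` for a word `wdv` in `J`. -/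
theorem nw_mul_cells (J : Set ℕ) {wdx : List ℕ} (hwdx : ∀ i ∈ wdx, i < A.rank) :
    ∀ wdv : List ℕ, (∀ i ∈ wdv, i < A.rank ∧ i ∈ J) → ∀ b ∈ D.borelSubgroup F,
      ∃ wd' : List ℕ, (∀ i ∈ wd', i < A.rank) ∧
        nw hC.af F (plain wdv) * b * nw hC.af F (plain wdx) ∈ cell hC F wd' ∧
        ∃ v' ∈ (rs hC hR hU hn).W J,
          (rs hC hR hU hn).wprod wd' = v' * (rs hC hR hU hn).wprod wdx := by
  have hF := hC.af
  intro wdv
  induction wdv with
  | nil =>
    intro _ b hb
    refine ⟨wdx, hwdx, ?_, 1, Subgroup.one_mem _, (one_mul _).symm⟩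
    have e : nw hC.af F (plain []) = 1 := rfl
    rw [e, one_mul]
    unfold cell
    exact Cfsg.Agent.Lib.Helper18.BNAbs.RD.mem_dc b 1 hb (Subgroup.one_mem _) (by rw [mul_one])
  | cons i wd ih =>
    intro hwdv b hb
    have hi := (hwdv i List.mem_cons_self).1
    have hiJ := (hwdv i List.mem_cons_self).2
    obtain ⟨wd', hwd', hmem, v', hv', e⟩ :=
      ih (fun j hj => hwdv j (List.mem_cons_of_mem _ hj)) b hb
    unfold cell at hmem
    rw [DoubleCoset.mem_doubleCoset] at hmem
    obtain ⟨b₁, hb₁, b₂, hb₂, e1⟩ := hmem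
    have hnN : nw hF F (plain wd') ∈ D.monomialSubgroup F := nw_mem_monomial hC (plain_lt hwd')
    have h2 := bn_axiom_chev hC hadd hi hnN hb₁
    have e2 : nw hF F (plain (i :: wd)) * b * nw hF F (plain wdx) =
        (ng hF F i * b₁ * nw hF F (plain wd')) * b₂ := by
      rw [nw_plain_cons]
      calc ng hF F i * nw hF F (plain wd) * b * nw hF F (plain wdx)
          = ng hF F i * (nw hF F (plain wd) * b * nw hF F (plain wdx)) := by group
        _ = ng hF F i * (b₁ * nw hF F (plain wd') * b₂) := by rw [e1]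
        _ = (ng hF F i * b₁ * nw hF F (plain wd')) * b₂ := by group
    rw [e2]
    rcases h2 with h2 | h2
    · refine ⟨i :: wd', ?_, ?_, (rs hC hR hU hn).s i * v',
        Subgroup.mul_mem _ ((rs hC hR hU hn).s_mem hiJ hi) hv', ?_⟩
      · intro j hj
        rcases List.mem_cons.mp hj with rfl | hj
        · exact hi
        · exact hwd' j hj
      · refine cell_mul_right hC ?_ hb₂
        unfold cell
        rw [nw_plain_cons]
        exact h2
      · rw [RS.wprod_cons, e, mul_assoc]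
    · refine ⟨wd', hwd', ?_, v', hv', e⟩
      refine cell_mul_right hC ?_ hb₂
      unfold cell
      exact h2

include hC hR hU hn hDs hJf hadd hinj in
/-- The orbits of `P_J` on `G / P_K` are counted by the distinguished double coset
representatives. -/
theorem card_orbits_par (J K : Set ℕ) :
    Nat.card (Quotient (MulAction.orbitRel
      ↥((D.parabolicSubgroup F J).subgroupOf (D.group F))
      (↥(D.group F) ⧸ (D.parabolicSubgroup F K).subgroupOf (D.group F)))) =
    Nat.card {d : Equiv.Perm (Fin A.n) //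
      Min (rs hC hR hU hn) K d ∧ Min (rs hC hR hU hn) J d⁻¹} := by
  classical
  have hF := hC.af
  have hT : (rs hC hR hU hn).Triv := triv hC hR hU hn hadd hinj
  have hBG := borelSubgroup_le hF F
  have hex : ∀ d : {d : Equiv.Perm (Fin A.n) //
      Min (rs hC hR hU hn) K d ∧ Min (rs hC hR hU hn) J d⁻¹},
      ∃ wd : List ℕ, (rs hC hR hU hn).Red wd ∧ (rs hC hR hU hn).wprod wd = d.val :=
    fun d => (rs hC hR hU hn).exists_red hT d.2.1.1
  choose wdOf hredOf hwOf using hex
  have hltOf : ∀ d, ∀ i ∈ wdOf d, i < A.rank := fun d => (rs hC hR hU hn).red_lt (hredOf d)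
  apply card_orbits_eq (fun d => (QuotientGroup.mk
    (⟨nw hF F (plain (wdOf d)), nw_mem_group hC (plain_lt (hltOf d))⟩ : ↥(D.group F)) :
      ↥(D.group F) ⧸ (D.parabolicSubgroup F K).subgroupOf (D.group F)))
  · intro y
    induction y using QuotientGroup.induction_on with
    | H g =>
      obtain ⟨wd, hwd, hg⟩ := exists_cell hC hadd hinj g.2
      obtain ⟨d, v, u, hd0, hv, hu, e⟩ := DD_exists (rs hC hR hU hn) J K _ _
        ((rs hC hR hU hn).wprod_mem hwd) rfl
      have hd : Min (rs hC hR hU hn) K d ∧ Min (rs hC hR hU hn) J d⁻¹ := hd0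
      obtain ⟨wdv, hwdv, ev⟩ := exists_word _ hv
      obtain ⟨wdu, hwdu, eu⟩ := exists_word _ hu
      have hwdv' : ∀ i ∈ wdv, i < A.rank := fun i hi => (hwdv i hi).1
      have hwdu' : ∀ i ∈ wdu, i < A.rank := fun i hi => (hwdu i hi).1
      have hall : ∀ j ∈ wdv ++ wdOf ⟨d, hd⟩ ++ wdu, j < A.rank := by
        intro j hj
        rcases List.mem_append.mp hj with hj | hj
        · rcases List.mem_append.mp hj with hj | hj
          · exact hwdv' j hj
          · exact hltOf _ j hj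
        · exact hwdu' j hj
      have e3 : (rs hC hR hU hn).wprod wd =
          (rs hC hR hU hn).wprod (wdv ++ wdOf ⟨d, hd⟩ ++ wdu) := by
        rw [wprod_append, wprod_append, ev, eu, hwOf ⟨d, hd⟩, e]
      have hc := cell_eq_of_wprod hC hR hU hn hadd hinj (F := F) hwd hall e3
      rw [← hc] at hg
      unfold cell at hg
      rw [DoubleCoset.mem_doubleCoset, plain_append, plain_append, nw_append, nw_append] at hg
      obtain ⟨b₁, hb₁, b₂, hb₂, eg⟩ := hg
      have hpP : b₁ * nw hF F (plain wdv) ∈ D.parabolicSubgroup F J :=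
        Subgroup.mul_mem _ (le_sup_left (b := Subgroup.closure _) hb₁) (nwJ_mem hC hwdv)
      have hpG : b₁ * nw hF F (plain wdv) ∈ D.group F := par_le_group hC J hpP
      refine ⟨⟨d, hd⟩, ⟨⟨b₁ * nw hF F (plain wdv), hpG⟩, Subgroup.mem_subgroupOf.mpr hpP⟩, ?_⟩
      show (QuotientGroup.mk ((⟨b₁ * nw hF F (plain wdv), hpG⟩ : ↥(D.group F)) *
        ⟨nw hF F (plain (wdOf ⟨d, hd⟩)), nw_mem_group hC (plain_lt (hltOf ⟨d, hd⟩))⟩) :
          ↥(D.group F) ⧸ (D.parabolicSubgroup F K).subgroupOf (D.group F)) = QuotientGroup.mk g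
      rw [QuotientGroup.eq, Subgroup.mem_subgroupOf]
      have e4 : (b₁ * nw hF F (plain wdv) * nw hF F (plain (wdOf ⟨d, hd⟩)))⁻¹ *
          (g : GL D.Idx F) = nw hF F (plain wdu) * b₂ := by
        rw [eg]
        group
      show (b₁ * nw hF F (plain wdv) * nw hF F (plain (wdOf ⟨d, hd⟩)))⁻¹ *
          (g : GL D.Idx F) ∈ D.parabolicSubgroup F K
      rw [e4]
      exact Subgroup.mul_mem _ (nwJ_mem hC hwdu) (le_sup_left (b := Subgroup.closure _) hb₂)
  · intro d d' p hp
    have hp2 : (QuotientGroup.mk ((p : ↥(D.group F)) *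
        ⟨nw hF F (plain (wdOf d)), nw_mem_group hC (plain_lt (hltOf d))⟩) :
          ↥(D.group F) ⧸ (D.parabolicSubgroup F K).subgroupOf (D.group F)) =
        QuotientGroup.mk ⟨nw hF F (plain (wdOf d')), nw_mem_group hC (plain_lt (hltOf d'))⟩ := hp
    rw [QuotientGroup.eq, Subgroup.mem_subgroupOf] at hp2
    have hpv : ((p : ↥(D.group F)) : GL D.Idx F) ∈ D.parabolicSubgroup F J :=
      Subgroup.mem_subgroupOf.mp p.2
    have hk : (((p : ↥(D.group F)) : GL D.Idx F) * nw hF F (plain (wdOf d)))⁻¹ *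
        nw hF F (plain (wdOf d')) ∈ D.parabolicSubgroup F K := hp2
    obtain ⟨wdu₀, hwdu₀, hkc, hτ⟩ := par_cell hC hR hU hn hDs hJf hadd hinj K hk
    obtain ⟨wdu, hwdu, eu⟩ := exists_word _ hτ
    have hwdu' : ∀ i ∈ wdu, i < A.rank := fun i hi => (hwdu i hi).1
    rw [cell_eq_of_wprod hC hR hU hn hadd hinj (F := F) hwdu' hwdu₀ eu] at hkc
    unfold cell at hkc
    rw [DoubleCoset.mem_doubleCoset] at hkc
    obtain ⟨b₃, hb₃, b₄, hb₄, ek⟩ := hkc
    have hR1 : nw hF F (plain (wdOf d)) *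
        ((((p : ↥(D.group F)) : GL D.Idx F) * nw hF F (plain (wdOf d)))⁻¹ *
          nw hF F (plain (wdOf d'))) ∈ cell hC F (wdOf d ++ wdu) := by
      rw [ek]
      have h3 := nw_mul_sub hC hR hU hn hadd hinj K hwdu (wdOf d) (hredOf d)
        (by rw [hwOf d]; exact d.2.1) b₃ hb₃
      have h4 := cell_mul_right hC h3 hb₄
      have e5 : nw hF F (plain (wdOf d)) * (b₃ * nw hF F (plain wdu) * b₄) =
          nw hF F (plain (wdOf d)) * b₃ * nw hF F (plain wdu) * b₄ := by group
      rw [e5]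
      exact h4
    obtain ⟨wdv₀, hwdv₀, hpc, hσ⟩ :=
      par_cell hC hR hU hn hDs hJf hadd hinj J (Subgroup.inv_mem _ hpv)
    obtain ⟨wdv, hwdv, ev⟩ := exists_word _ hσ
    have hwdv' : ∀ i ∈ wdv, i < A.rank := fun i hi => (hwdv i hi).1
    rw [cell_eq_of_wprod hC hR hU hn hadd hinj (F := F) hwdv' hwdv₀ ev] at hpc
    unfold cell at hpc
    rw [DoubleCoset.mem_doubleCoset] at hpc
    obtain ⟨b₁, hb₁, b₂, hb₂, ep⟩ := hpc
    obtain ⟨wd'', hwd'', hmem, v', hv', e''⟩ :=
      nw_mul_cells hC hR hU hn hadd hinj J (hltOf d') wdv hwdv b₂ hb₂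
    have hL1 : nw hF F (plain (wdOf d)) *
        ((((p : ↥(D.group F)) : GL D.Idx F) * nw hF F (plain (wdOf d)))⁻¹ *
          nw hF F (plain (wdOf d'))) ∈ cell hC F wd'' := by
      have e6 : nw hF F (plain (wdOf d)) *
          ((((p : ↥(D.group F)) : GL D.Idx F) * nw hF F (plain (wdOf d)))⁻¹ *
            nw hF F (plain (wdOf d'))) =
          ((p : ↥(D.group F)) : GL D.Idx F)⁻¹ * nw hF F (plain (wdOf d')) := by group
      rw [e6, ep]
      have e7 : b₁ * nw hF F (plain wdv) * b₂ * nw hF F (plain (wdOf d')) =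
          b₁ * (nw hF F (plain wdv) * b₂ * nw hF F (plain (wdOf d'))) := by group
      rw [e7]
      exact cell_mul_left hC hmem hb₁
    have hall : ∀ j ∈ wdOf d ++ wdu, j < A.rank := by
      intro j hj
      rcases List.mem_append.mp hj with hj | hj
      · exact hltOf d j hj
      · exact hwdu' j hj
    have h7 := wprod_eq_of_meet hC hR hU hn hadd hinj hall hwd'' hR1 hL1
    rw [wprod_append, hwOf d, e'', hwOf d'] at h7
    have e8 : d'.val = v'⁻¹ * d.val * (rs hC hR hU hn).wprod wdu := by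
      rw [mul_assoc, h7]
      group
    have h9 := DD_unique (rs hC hR hU hn) hT d.2 d'.2 (Subgroup.inv_mem _ hv')
      (wprod_mem_J _ hwdu) e8
    exact Subtype.ext h9.symm

include hC hR hU hn hDs hJf hadd hinj in
open Classical in
/-- The inner product of two parabolic permutation characters. -/
theorem classInner_par [Fintype ↥(D.group F)] (J K : Finset ℕ) :
    classInner (fixedPointCharacter (D.parabolicIn F J))
        (fixedPointCharacter (D.parabolicIn F K)) =
      (((Finset.univ.filter (fun d : Equiv.Perm (Fin A.n) =>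
        Min (rs hC hR hU hn) (↑K : Set ℕ) d ∧
          Min (rs hC hR hU hn) (↑J : Set ℕ) d⁻¹)).card : ℤ) : ℂ) := by
  rw [classInner_fixedPoint]
  have h := card_orbits_par hC hR hU hn hDs hJf hadd hinj (F := F) (↑J : Set ℕ) (↑K : Set ℕ)
  unfold ChevalleyDatum.parabolicIn
  rw [h, Nat.card_eq_fintype_card, Fintype.card_subtype]
  push_cast
  rfl

include hC hR hU hn hDs hJf hadd hinj in
/-- The Steinberg character has norm one. -/
theorem steinberg_norm [Fintype ↥(D.group F)] :
    classInner (D.steinbergCharacter F) (D.steinbergCharacter F) = 1 := by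
  classical
  have hT : (rs hC hR hU hn).Triv := triv hC hR hU hn hadd hinj
  have e : Finset.range D.rank = Finset.range A.rank := by rw [hC.af.agrees.rank_eq]
  have hst : D.steinbergCharacter F = ∑ J ∈ (Finset.range A.rank).powerset,
      ((-1 : ℂ) ^ J.card) • fixedPointCharacter (D.parabolicIn F J) := by
    funext g
    unfold ChevalleyDatum.steinbergCharacter
    rw [Finset.sum_apply, e]
    rfl
  rw [hst, Cfsg.Agent.Lib.CT.Orth.classInner_sum_left]
  have e1 : ∀ J ∈ (Finset.range A.rank).powerset,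
      classInner (((-1 : ℂ) ^ J.card) • fixedPointCharacter (D.parabolicIn F J))
        (∑ K ∈ (Finset.range A.rank).powerset,
          ((-1 : ℂ) ^ K.card) • fixedPointCharacter (D.parabolicIn F K)) =
      ∑ K ∈ (Finset.range A.rank).powerset,
        (((-1 : ℤ) ^ K.card * ((-1 : ℤ) ^ J.card *
          ((Finset.univ.filter (fun d : Equiv.Perm (Fin A.n) =>
            Min (rs hC hR hU hn) (↑K : Set ℕ) d ∧
              Min (rs hC hR hU hn) (↑J : Set ℕ) d⁻¹)).card : ℤ)) : ℤ) : ℂ) := by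
    intro J _
    rw [Cfsg.Agent.Lib.CT.Orth.classInner_smul_left,
      Cfsg.Agent.Lib.Helper26.GenChar.classInner_sum_right, Finset.mul_sum]
    apply Finset.sum_congr rfl
    intro K _
    rw [Cfsg.Agent.Lib.Helper26.GenChar.classInner_smul_right,
      classInner_par hC hR hU hn hDs hJf hadd hinj (F := F) J K, map_pow, map_neg, map_one]
    push_cast
    ring
  rw [Finset.sum_congr rfl e1, Finset.sum_comm]
  have e2 : ∀ K ∈ (Finset.range A.rank).powerset,
      ∑ J ∈ (Finset.range A.rank).powerset,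
        (((-1 : ℤ) ^ K.card * ((-1 : ℤ) ^ J.card *
          ((Finset.univ.filter (fun d : Equiv.Perm (Fin A.n) =>
            Min (rs hC hR hU hn) (↑K : Set ℕ) d ∧
              Min (rs hC hR hU hn) (↑J : Set ℕ) d⁻¹)).card : ℤ)) : ℤ) : ℂ) =
      (((if K = ∅ then 1 else 0 : ℤ)) : ℂ) := by
    intro K hK
    rw [Finset.mem_powerset] at hK
    rw [← Int.cast_sum, ← Finset.mul_sum, alt_DD (rs hC hR hU hn) hT (↑K : Set ℕ)]
    by_cases hKe : K = ∅
    · subst hKe
      simp
    · rw [if_neg hKe]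
      obtain ⟨k, hk⟩ := Finset.nonempty_iff_ne_empty.mpr hKe
      have hkl : k < A.rank := Finset.mem_range.mp (hK hk)
      rw [if_neg (fun h => h k (Finset.mem_coe.mpr hk) hkl), mul_zero]
  rw [Finset.sum_congr rfl e2, ← Int.cast_sum, Finset.sum_ite_eq' _ (∅ : Finset ℕ),
    if_pos (Finset.empty_mem_powerset _)]
  simp

include hC hR hU hn hDs hJf hadd hinj in
/-- The Steinberg character is an irreducible character. -/
theorem steinberg_irr [Fintype F] :
    IsIrrCharacter ↥(D.group F) (D.steinbergCharacter F) := by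
  classical
  have : Fintype ↥(D.group F) := Fintype.ofFinite _
  have hnorm := steinberg_norm hC hR hU hn hDs hJf hadd hinj (F := F)
  have hgen : IsGeneralizedCharacter ↥(D.group F) (D.steinbergCharacter F) := by
    refine ⟨∑ J ∈ (Finset.range D.rank).powerset.filter (fun J => Even J.card),
        fixedPointCharacter (D.parabolicIn F J),
      ∑ J ∈ (Finset.range D.rank).powerset.filter (fun J => ¬ Even J.card),
        fixedPointCharacter (D.parabolicIn F J), ?_, ?_, ?_⟩
    · exact Cfsg.Agent.Lib.CT.Ops.isCharacter_sum _ _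
        (fun J _ => fixedPointCharacter_isCharacter _)
    · exact Cfsg.Agent.Lib.CT.Ops.isCharacter_sum _ _
        (fun J _ => fixedPointCharacter_isCharacter _)
    · funext g
      unfold ChevalleyDatum.steinbergCharacter
      rw [Pi.sub_apply, Finset.sum_apply, Finset.sum_apply,
        ← Finset.sum_filter_add_sum_filter_not _ (fun J : Finset ℕ => Even J.card),
        sub_eq_add_neg, ← Finset.sum_neg_distrib]
      congr 1
      · apply Finset.sum_congr rfl
        intro J hJ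
        rw [Finset.mem_filter] at hJ
        rw [Even.neg_one_pow hJ.2, one_mul]
      · apply Finset.sum_congr rfl
        intro J hJ
        rw [Finset.mem_filter] at hJ
        rw [Odd.neg_one_pow (Nat.not_even_iff_odd.mp hJ.2), neg_one_mul]
  obtain ⟨μ, hμ, h | h⟩ := Cfsg.Agent.Lib.Helper26.GenChar.eq_irr_or_neg_of_norm_one hgen hnorm
  · rw [h]
    exact hμ
  · exfalso
    have h1 := steinberg_one hC hR hU hn hDs hJf hadd hinj (F := F)
    have h2 := Cfsg.Agent.Lib.Helper80.Integrality.apply_one_eq_charDegree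
      (Cfsg.Agent.Lib.Helper80.Integrality.isCharacter_of_isIrrCharacter hμ)
    rw [h, Pi.neg_apply, h2] at h1
    have h3 : ((charDegree μ + Fintype.card F ^ (D.nroots / 2) : ℕ) : ℂ) = 0 := by
      push_cast
      rw [← h1]
      ring
    have h4 := Nat.cast_eq_zero.mp h3
    have h5 : 0 < Fintype.card F ^ (D.nroots / 2) := pow_pos Fintype.card_pos _
    omega

end

end Cfsg.Agent.Lib.Helper36.StIrr
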