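import Mathlib
import Cfsg.Prelude.Def_ParabolicCharacters
import Cfsg.Agent.Lib.Helper36.StIrr
import Cfsg.Agent.Lib.Helper74.DefectZero

set_option autoImplicit false
set_option linter.unusedSimpArgs false
set_option linter.unusedSectionVars false
set_option linter.unusedVariables false

/-!
The Steinberg character has `p`-defect zero, hence vanishes on the `p`-singular elements.
-/

namespace Cfsg.Agent.Lib.Helper36.StVan

open Cfsg Cfsg.Lie Cfsg.Agent.Lib.Helper18.Fast Cfsg.Agent.Lib.Helper18.Grade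
  Cfsg.Agent.Lib.Helper18.Facts Cfsg.Agent.Lib.Helper18.AllRoots Cfsg.Agent.Lib.Helper18.Loop
  Cfsg.Agent.Lib.Helper18.Weyl Cfsg.Agent.Lib.Helper18.RootSys Cfsg.Agent.Lib.Helper18.Orbit
  Cfsg.Agent.Lib.Helper18.Units Cfsg.Agent.Lib.Helper18.Sub Cfsg.Agent.Lib.Helper18.Norm
  Cfsg.Agent.Lib.Helper18.HAll Cfsg.Agent.Lib.Helper18.Torus Cfsg.Agent.Lib.Helper18.Pos
  Cfsg.Agent.Lib.Helper18.WGroup Cfsg.Agent.Lib.Helper18.BNChev Cfsg.Agent.Lib.Helper18.Mono
  Cfsg.Agent.Lib.Helper18.BNPairC Cfsg.Agent.Lib.Helper18.UOrd Cfsg.Agent.Lib.Helper18.Cox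
  Cfsg.Agent.Lib.Helper18.Long Cfsg.Agent.Lib.Helper18.Core Cfsg.Agent.Lib.Helper18.Conj
  Cfsg.Agent.Lib.Helper18.RFact Cfsg.Agent.Lib.Helper18.BNCell Cfsg.Agent.Lib.Helper18.Vec
  Cfsg.Agent.Lib.Helper18.XMat Cfsg.Agent.Lib.Helper18.Cells Cfsg.Agent.Lib.Helper18.Cox2
  Cfsg.Agent.Lib.Helper18.Cells2 Cfsg.Agent.Lib.Helper18.Cox3 Cfsg.Agent.Lib.Helper18.HOrder
  Cfsg.Agent.Lib.Helper18.HOrderTab Cfsg.Agent.Lib.Helper18.Tri Cfsg.Agent.Lib.Helper18.Par
  Cfsg.Agent.Lib.Helper18.Par2 Cfsg.Agent.Lib.Helper18.Par3 Cfsg.Agent.Lib.Helper18.Par4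
  Cfsg.Agent.Lib.Helper18.Count Cfsg.Agent.Lib.Helper36.StCox Cfsg.Agent.Lib.Helper36.StCox2
  Cfsg.Agent.Lib.Helper36.StCox3 Cfsg.Agent.Lib.Helper36.StPar Cfsg.Agent.Lib.Helper36.StFix
  Cfsg.Agent.Lib.Helper36.StSt Cfsg.Agent.Lib.Helper36.StOrb Cfsg.Agent.Lib.Helper36.StIrr

variable {A : FData} {D : ChevalleyDatum} {F : Type*} [Field F] {X : WD} {m : ℕ → ℕ → ℤ}
  {w : ℕ → ℤ} {N : ℕ} {ord rnk : ℕ → ℕ} {bz : ℕ → ℕ → ℤ} {w' : ℕ → ℤ} {c : ℤ} {fw : ℕ → ℕ → ℤ}

section

variable (hC : CFacts A D X m w) (hR : RFacts A X) (hU : UFacts A w' N ord rnk bz) (hn : 0 < A.n)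
  (hDs : DFacts A) (hJf : JFacts A c fw)
  (hadd : ∀ r < D.nroots, ∀ t u : F, D.x F r t * D.x F r u = D.x F r (t + u))
  (hinj : ∀ r < D.nroots, ∀ t : F, D.x F r t = 1 → t = 0)

include hC hR hU hn in
open Classical in
/-- The number `N` of the table facts is the number of positive roots. -/
theorem N_eq : N = D.nroots / 2 := by
  have h2' := two_mul_card_pos (rs hC hR hU hn)
  have hcard : (Finset.univ.filter (fun r => (rs hC hR hU hn).pos r)).card = N := by
    apply le_antisymm
    · have h3 := Finset.card_le_card_of_injOn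
        (s := Finset.univ.filter (fun r => (rs hC hR hU hn).pos r)) (t := Finset.range N)
        (fun r => rnk r.val) ?_ ?_
      · rwa [Finset.card_range] at h3
      · intro r hr
        have hr' := (Finset.mem_filter.mp (Finset.mem_coe.mp hr)).2
        exact Finset.mem_coe.mpr (Finset.mem_range.mpr (hU.rnk r.val r.isLt hr').1)
      · intro r hr r' hr' e
        have h1 := (hU.rnk r.val r.isLt (Finset.mem_filter.mp (Finset.mem_coe.mp hr)).2).2
        have h2 := (hU.rnk r'.val r'.isLt (Finset.mem_filter.mp (Finset.mem_coe.mp hr')).2).2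
        have e' : rnk r.val = rnk r'.val := e
        apply Fin.ext
        rw [← h1, ← h2, e']
    · have h3 := Finset.card_le_card_of_injOn (s := Finset.range N)
        (t := Finset.univ.filter (fun r => (rs hC hR hU hn).pos r))
        (fun k => (⟨ord k % A.n, Nat.mod_lt _ hn⟩ : Fin A.n)) ?_ ?_
      · rwa [Finset.card_range] at h3
      · intro k hk
        have hk' := Finset.mem_range.mp (Finset.mem_coe.mp hk)
        refine Finset.mem_coe.mpr (Finset.mem_filter.mpr ⟨Finset.mem_univ _, ?_⟩)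
        rw [rs_pos_iff]
        show PosA A (ord k % A.n)
        rw [Nat.mod_eq_of_lt (hU.ord_lt k hk')]
        exact hU.ord_pos k hk'
      · intro a ha b hb e
        have ha' := Finset.mem_range.mp (Finset.mem_coe.mp ha)
        have hb' := Finset.mem_range.mp (Finset.mem_coe.mp hb)
        have e' : ord a = ord b := by
          have h4 : ord a % A.n = ord b % A.n := congrArg Fin.val e
          rwa [Nat.mod_eq_of_lt (hU.ord_lt a ha'), Nat.mod_eq_of_lt (hU.ord_lt b hb')] at h4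
        by_contra hne
        rcases Nat.lt_or_gt_of_ne hne with h | h
        · have h5 := hU.mono h hb'
          rw [e'] at h5
          exact lt_irrefl _ h5
        · have h5 := hU.mono h ha'
          rw [e'] at h5
          exact lt_irrefl _ h5
  rw [Fintype.card_fin] at h2'
  rw [hC.af.agrees.n_eq]
  omega

include hC hR hU hn hDs hJf hadd hinj in
/-- The Steinberg character vanishes on the elements of order divisible by `p`. -/
theorem steinberg_vanish [Fintype F] (p : ℕ) [Fact p.Prime] [CharP F p]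
    (hH : ∃ d : ℕ, d * Nat.card (D.diagonalSubgroup F) = (Fintype.card F - 1) ^ D.rank)
    (g : ↥(D.group F)) (hg : p ∣ orderOf g) : D.steinbergCharacter F g = 0 := by
  classical
  have hp : p.Prime := Fact.out
  have hT : (rs hC hR hU hn).Triv := triv hC hR hU hn hadd hinj
  have hirr := steinberg_irr hC hR hU hn hDs hJf hadd hinj (F := F)
  obtain ⟨k, _, hq⟩ := FiniteField.card F p
  have hpq : p ∣ Fintype.card F := by
    rw [hq]
    exact dvd_pow_self p k.ne_zero
  have hN : N = D.nroots / 2 := N_eq hC hR hU hn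
  have h1 := card_group hC hR hU hn hadd hinj (F := F)
  have h2 := card_borel hC hU hadd (F := F)
  have hdeg : charDegree (D.steinbergCharacter F) = Fintype.card F ^ (D.nroots / 2) := by
    have h3 := Cfsg.Agent.Lib.Helper80.Integrality.apply_one_eq_charDegree
      (Cfsg.Agent.Lib.Helper80.Integrality.isCharacter_of_isIrrCharacter hirr)
    rw [steinberg_one hC hR hU hn hDs hJf hadd hinj (F := F)] at h3
    exact_mod_cast h3.symm
  have hW : ¬ p ∣ ∑ σ ∈ Finset.univ.filter (fun σ => σ ∈ (rs hC hR hU hn).W Set.univ),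
      Fintype.card F ^ (rs hC hR hU hn).ell σ := by
    intro hdvd
    have h1mem : (1 : Equiv.Perm (Fin A.n)) ∈
        Finset.univ.filter (fun σ => σ ∈ (rs hC hR hU hn).W Set.univ) := by
      rw [Finset.mem_filter]
      exact ⟨Finset.mem_univ _, Subgroup.one_mem _⟩
    rw [← Finset.add_sum_erase _ _ h1mem, ell_one, pow_zero] at hdvd
    have hrest : p ∣ ∑ σ ∈ (Finset.univ.filter
        (fun σ => σ ∈ (rs hC hR hU hn).W Set.univ)).erase 1,
        Fintype.card F ^ (rs hC hR hU hn).ell σ := by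
      apply Finset.dvd_sum
      intro σ hσ
      rw [Finset.mem_erase, Finset.mem_filter] at hσ
      have hpos : (rs hC hR hU hn).ell σ ≠ 0 := by
        intro h0
        have h4 : σ⁻¹ = 1 := hT _ (Subgroup.inv_mem _ hσ.2.2)
          (((rs hC hR hU hn).ell'_eq_zero_iff _).mp h0)
        exact hσ.1 (inv_eq_one.mp h4)
      exact dvd_trans hpq (dvd_pow_self _ hpos)
    have h5 : p ∣ 1 := (Nat.dvd_add_left hrest).mp hdvd
    exact hp.one_lt.ne' (Nat.dvd_one.mp h5)
  have hHp : ¬ p ∣ Nat.card (D.diagonalSubgroup F) := by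
    intro hdvd
    obtain ⟨d, hd⟩ := hH
    have h3 : p ∣ (Fintype.card F - 1) ^ D.rank := by
      rw [← hd]
      exact dvd_mul_of_dvd_right hdvd d
    have h4 := hp.dvd_of_dvd_pow h3
    have h5 : 1 ≤ Fintype.card F := Fintype.card_pos
    have h6 : p ∣ Fintype.card F - (Fintype.card F - 1) := Nat.dvd_sub hpq h4
    have h7 : Fintype.card F - (Fintype.card F - 1) = 1 := by omega
    rw [h7] at h6
    exact hp.one_lt.ne' (Nat.dvd_one.mp h6)
  have hm : Nat.card ↥(D.group F) = charDegree (D.steinbergCharacter F) *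
      ((∑ σ ∈ Finset.univ.filter (fun σ => σ ∈ (rs hC hR hU hn).W Set.univ),
        Fintype.card F ^ (rs hC hR hU hn).ell σ) * Nat.card (D.diagonalSubgroup F)) := by
    rw [← hN] at hdeg
    rw [hdeg, h1, h2]
    ring
  exact Cfsg.Agent.Lib.Helper74.DefectZero.irr_eq_zero_of_defect_zero hp ⟨_, hirr⟩ _ hm
    (fun h => (hp.dvd_mul.mp h).elim hW hHp) g hg

end

end Cfsg.Agent.Lib.Helper36.StVan
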